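import Mathlib
import Cfsg.Agent.H737.RootW

/-!
# Root involutions: the classes `E_d ∪ {1}` are subgroups (non-degenerate case)

Let `D` be a connected set of root involutions of the finite group `G` with `O₂(G) = 1`.  `EG D d` is
the (abelian) group generated by the class `E_d` of `d`.  A *hole* is a product `a b ∉ D` of members
`a`, `b` of one class.  Under two hypotheses (`hT`: nontrivial elements of `EG D d` do not commute
with members opposite to `d`; `hV`: for `w ∈ W_d` outside `E_d` the elements `s ∈ EG D d` with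
`w s ∈ D` form a subgroup meeting `E_d`) there are no holes (`mul_mem_class`).
-/

set_option autoImplicit false

namespace Cfsg.Agent.H736.Hole

open Cfsg Cfsg.Agent.H737

variable {G : Type*} [Group G] {D : Set G}

/-- The class of `d`. -/
def EC (D : Set G) (d : G) : Set G := {e | e ∈ D ∧ SimR D e d}

/-- The group generated by the class of `d`. -/
def EG (D : Set G) (d : G) : Subgroup G := Subgroup.closure (EC D d)

theorem mem_EC_self {d : G} (hd : d ∈ D) : d ∈ EC D d := ⟨hd, SimR.refl D d⟩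

theorem EC_eq {d e : G} (hs : SimR D e d) : EC D e = EC D d := by
  ext y
  exact ⟨fun hy => ⟨hy.1, hy.2.trans hs⟩, fun hy => ⟨hy.1, hy.2.trans hs.symm⟩⟩

theorem EG_eq {d e : G} (hs : SimR D e d) : EG D e = EG D d := by
  unfold EG; rw [EC_eq hs]

/-- `s e s = x` for a suitable member `s` of the dihedral group generated by the opposite
involutions `e` and `x`. -/
theorem exists_swap {e x : G} (he : e * e = 1) (hx : x * x = 1) (hex : Opp e x) :
    ∃ l : ℕ, ∃ s : G, s = (e * x) ^ l * e * ((e * x) ^ l)⁻¹ ∧ s * s = 1 ∧ s * e * s = x ∧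
      s * x * s = e := by
  obtain ⟨m, hm⟩ := hex.2
  obtain ⟨k, hk⟩ := exists_pow_sq hex.2
  set ρ : G := e * x with hρ
  have hinv : e * ρ * e⁻¹ = ρ⁻¹ := by
    rw [hρ, mul_inv_rev, inv_of_sq hx, inv_of_sq he, ← mul_assoc, he, one_mul]
  have hcon : ∀ n : ℕ, e * (ρ ^ n)⁻¹ = ρ ^ n * e := by
    intro n
    have h1 : e * (ρ ^ n)⁻¹ * e⁻¹ = ρ ^ n := by
      rw [← inv_pow, ← conj_pow, show e * ρ⁻¹ * e⁻¹ = (e * ρ * e⁻¹)⁻¹ by group, hinv, inv_inv]
    calc e * (ρ ^ n)⁻¹ = (e * (ρ ^ n)⁻¹ * e⁻¹) * e := by group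
      _ = ρ ^ n * e := by rw [h1]
  have hs : ∀ n : ℕ, ρ ^ n * e * (ρ ^ n)⁻¹ = ρ ^ (2 * n) * e := by
    intro n
    rw [mul_assoc, hcon, ← mul_assoc, ← pow_add, two_mul]
  -- `l = k * m`
  have hl : ρ ^ (2 * (k * m)) = ρ ^ m := by
    calc ρ ^ (2 * (k * m)) = ((ρ ^ 2) ^ k) ^ m := by
          rw [← pow_mul, ← pow_mul]
      _ = ρ ^ m := by rw [hk]
  have hsq : ρ ^ m * e * (ρ ^ m * e) = 1 := by
    have h1 := hcon m
    calc ρ ^ m * e * (ρ ^ m * e) = ρ ^ m * e * (e * (ρ ^ m)⁻¹) := by rw [h1]
      _ = ρ ^ m * (e * e) * (ρ ^ m)⁻¹ := by group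
      _ = 1 := by rw [he]; group
  have h3 : ρ ^ (2 * m + 1) = 1 := by rw [← hm, pow_orderOf_eq_one]
  have hmap : (ρ ^ m * e) * e * (ρ ^ m * e) = x := by
    have h1 := hcon m
    calc (ρ ^ m * e) * e * (ρ ^ m * e) = ρ ^ m * (e * e) * (ρ ^ m * e) := by group
      _ = ρ ^ m * (ρ ^ m * e) := by rw [he, mul_one]
      _ = (ρ ^ (2 * m + 1)) * ρ⁻¹ * e := by rw [pow_succ, two_mul, pow_add]; group
      _ = x := by
        rw [h3, hρ, mul_inv_rev, inv_of_sq he, inv_of_sq hx, one_mul, mul_assoc, he, mul_one]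
  refine ⟨k * m, ρ ^ m * e, ?_, hsq, hmap, ?_⟩
  · rw [hs, hl]
  · rw [← hmap]
    calc ρ ^ m * e * (ρ ^ m * e * e * (ρ ^ m * e)) * (ρ ^ m * e)
        = (ρ ^ m * e * (ρ ^ m * e)) * e * ((ρ ^ m * e) * (ρ ^ m * e)) := by group
      _ = e := by rw [hsq, one_mul, mul_one]

/-- An involution `s` with `w s` of odd order is determined by `w` and `s w s`. -/
theorem swap_unique {w s₁ s₂ : G} (h1 : s₁ * s₁ = 1) (h2 : s₂ * s₂ = 1)
    (ho1 : Odd (orderOf (w * s₁))) (ho2 : Odd (orderOf (w * s₂))) (hw : w * w = 1)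
    (he : s₁ * w * s₁ = s₂ * w * s₂) : s₁ = s₂ := by
  have e1 : (w * s₁) ^ 2 = w * (s₁ * w * s₁) := by rw [pow_two]; group
  have e2 : (w * s₂) ^ 2 = w * (s₂ * w * s₂) := by rw [pow_two]; group
  have e3 : (w * s₁) ^ 2 = (w * s₂) ^ 2 := by rw [e1, e2, he]
  obtain ⟨k1, hk1⟩ := exists_pow_sq ho1
  obtain ⟨k2, hk2⟩ := exists_pow_sq ho2
  set p : G := (w * s₁) ^ 2 with hp
  rw [← e3] at hk2
  have hcom : Commute (w * s₁) (w * s₂) := by
    rw [← hk1, ← hk2]
    exact (Commute.refl p).pow_pow k1 k2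
  -- both are square roots of `p` in an odd cyclic group
  have hr : orderOf (w * s₁) = orderOf p := by
    rw [hp, orderOf_pow' _ (by norm_num : (2 : ℕ) ≠ 0), (Nat.Coprime.gcd_eq_one ho1.coprime_two_right),
      Nat.div_one]
  have hx : (w * s₁) * (w * s₂)⁻¹ = 1 := by
    apply eq_one_of_odd_of_sq
    · have h4 : Odd (orderOf p) := by rw [← hr]; exact ho1
      have h5 : (w * s₁) * (w * s₂)⁻¹ ∈ Subgroup.zpowers p := by
        refine mul_mem ?_ (inv_mem ?_)
        · rw [← hk1]; exact Subgroup.pow_mem _ (Subgroup.mem_zpowers p) k1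
        · rw [← hk2]; exact Subgroup.pow_mem _ (Subgroup.mem_zpowers p) k2
      have h6 : orderOf ((w * s₁) * (w * s₂)⁻¹) ∣ orderOf p := orderOf_dvd_of_mem_zpowers h5
      exact h4.of_dvd_nat h6
    · have h7 : Commute (w * s₁) (w * s₂)⁻¹ := hcom.inv_right
      calc (w * s₁) * (w * s₂)⁻¹ * ((w * s₁) * (w * s₂)⁻¹)
          = (w * s₁) * ((w * s₂)⁻¹ * (w * s₁)) * (w * s₂)⁻¹ := by group
        _ = (w * s₁) * ((w * s₁) * (w * s₂)⁻¹) * (w * s₂)⁻¹ := by rw [← h7.eq]
        _ = (w * s₁) ^ 2 * ((w * s₂) ^ 2)⁻¹ := by rw [pow_two, pow_two]; group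
        _ = 1 := by rw [← e3, mul_inv_cancel]
  have h8 : w * s₁ = w * s₂ := by
    calc w * s₁ = (w * s₁) * (w * s₂)⁻¹ * (w * s₂) := by group
      _ = w * s₂ := by rw [hx, one_mul]
  exact mul_left_cancel h8

section Basic

variable [Finite G]

theorem EC_comm (h : IsRootInvolutionSet D) (hc : IsConnectedSet (OddAdj D) D) {d e e' : G}
    (he : e ∈ EC D d) (he' : e' ∈ EC D d) : Commute e e' :=
  sim_commute h hc he.1 he'.1 (he.2.trans he'.2.symm)

/-- A member commuting with `d` centralizes `EG D d`. -/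
theorem comm_EG (h : IsRootInvolutionSet D) (hc : IsConnectedSet (OddAdj D) D) {d y : G}
    (hd : d ∈ D) (hy : y ∈ D) (hyd : Commute y d) {s : G} (hs : s ∈ EG D d) : Commute y s := by
  induction hs using Subgroup.closure_induction with
  | mem s hs => exact sim_centralize h hc hy hd hs.1 hs.2.symm hyd
  | one => exact Commute.one_right _
  | mul a b _ _ ha hb => exact ha.mul_right hb
  | inv a _ ha => exact ha.inv_right

theorem EG_comm (h : IsRootInvolutionSet D) (hc : IsConnectedSet (OddAdj D) D) {d : G}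
    (hd : d ∈ D) {s s' : G} (hs : s ∈ EG D d) (hs' : s' ∈ EG D d) : Commute s s' := by
  induction hs using Subgroup.closure_induction with
  | mem s hs =>
    exact comm_EG h hc hd hs.1 (sim_commute h hc hs.1 hd hs.2) hs'
  | one => exact Commute.one_left _
  | mul a b _ _ ha hb => exact ha.mul_left hb
  | inv a _ ha => exact ha.inv_left

theorem EG_sq (h : IsRootInvolutionSet D) (hc : IsConnectedSet (OddAdj D) D) {d : G}
    (hd : d ∈ D) {s : G} (hs : s ∈ EG D d) : s * s = 1 := by
  induction hs using Subgroup.closure_induction with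
  | mem s hs => exact sq_of_mem h hs.1
  | one => exact one_mul 1
  | mul a b ha hb iha ihb =>
    have := (EG_comm h hc hd ha hb).eq
    calc a * b * (a * b) = a * (b * a) * b := by group
      _ = a * (a * b) * b := by rw [← this]
      _ = (a * a) * (b * b) := by group
      _ = 1 := by rw [iha, ihb, one_mul]
  | inv a _ ha => rw [inv_of_sq ha]; exact ha

theorem EC_conj (h : IsRootInvolutionSet D) {d e : G} (he : e ∈ EC D d) (g : G) :
    g * e * g⁻¹ ∈ EC D (g * d * g⁻¹) := ⟨h.conj_mem e he.1 g, he.2.conj h g⟩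

theorem EG_conj (h : IsRootInvolutionSet D) {d s : G} (hs : s ∈ EG D d) (g : G) :
    g * s * g⁻¹ ∈ EG D (g * d * g⁻¹) := by
  induction hs using Subgroup.closure_induction with
  | mem s hs => exact Subgroup.subset_closure (EC_conj h hs g)
  | one => simp
  | mul a b _ _ ha hb =>
    have e : g * (a * b) * g⁻¹ = (g * a * g⁻¹) * (g * b * g⁻¹) := by group
    rw [e]; exact mul_mem ha hb
  | inv a _ ha =>
    have e : g * a⁻¹ * g⁻¹ = (g * a * g⁻¹)⁻¹ := by group
    rw [e]; exact inv_mem ha

/-- The product of two members of one class which does not lie in `D`. -/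
structure IsHole (D : Set G) (t a b : G) : Prop where
  ha : a ∈ D
  hb : b ∈ D
  sim : SimR D b a
  ne : a ≠ b
  eq : t = a * b
  nmem : t ∉ D

namespace IsHole

variable {t a b : G}

theorem comm (ht : IsHole D t a b) (h : IsRootInvolutionSet D)
    (hc : IsConnectedSet (OddAdj D) D) : Commute a b :=
  (sim_commute h hc ht.hb ht.ha ht.sim).symm

theorem sq (ht : IsHole D t a b) (h : IsRootInvolutionSet D)
    (hc : IsConnectedSet (OddAdj D) D) : t * t = 1 := by
  have hab := (ht.comm h hc).eq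
  rw [ht.eq]
  calc a * b * (a * b) = a * (b * a) * b := by group
    _ = a * (a * b) * b := by rw [← hab]
    _ = (a * a) * (b * b) := by group
    _ = 1 := by rw [sq_of_mem h ht.ha, sq_of_mem h ht.hb, one_mul]

theorem ne_one (ht : IsHole D t a b) (h : IsRootInvolutionSet D) : t ≠ 1 := by
  intro h1
  apply ht.ne
  have h2 : a * b = 1 := by rw [← ht.eq]; exact h1
  calc a = a * (b * b) := by rw [sq_of_mem h ht.hb, mul_one]
    _ = (a * b) * b := by group
    _ = b := by rw [h2, one_mul]

theorem mem (ht : IsHole D t a b) : t ∈ EG D a := by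
  rw [ht.eq]
  exact mul_mem (Subgroup.subset_closure (mem_EC_self ht.ha))
    (Subgroup.subset_closure ⟨ht.hb, ht.sim⟩)

theorem conj (ht : IsHole D t a b) (h : IsRootInvolutionSet D) (g : G) :
    IsHole D (g * t * g⁻¹) (g * a * g⁻¹) (g * b * g⁻¹) where
  ha := h.conj_mem _ ht.ha g
  hb := h.conj_mem _ ht.hb g
  sim := ht.sim.conj h g
  ne := fun hh => ht.ne (by simpa using hh)
  eq := by rw [ht.eq]; group
  nmem := fun hh => ht.nmem (by
    have := h.conj_mem _ hh g⁻¹
    have e : g⁻¹ * (g * t * g⁻¹) * g⁻¹⁻¹ = t := by group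
    rwa [e] at this)

/-- Conjugation by an element commuting with the hole. -/
theorem conj_of_comm (ht : IsHole D t a b) (h : IsRootInvolutionSet D) {g : G}
    (hg : Commute g t) : IsHole D t (g * a * g⁻¹) (g * b * g⁻¹) := by
  have h1 := ht.conj h g
  have e : g * t * g⁻¹ = t := by rw [hg.eq]; group
  rwa [e] at h1

/-- A member commuting with `a` commutes with the hole. -/
theorem comm_of_comm (ht : IsHole D t a b) (h : IsRootInvolutionSet D)
    (hc : IsConnectedSet (OddAdj D) D) {y : G} (hy : y ∈ D) (hya : Commute y a) : Commute y t :=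
  comm_EG h hc ht.ha hy hya ht.mem

/-- A member not opposite to `a`: the hole commutes with its conjugate. -/
theorem comm_conj_of_not_opp (ht : IsHole D t a b) (h : IsRootInvolutionSet D)
    (hc : IsConnectedSet (OddAdj D) D) {x : G} (hx : x ∈ D) (hn : ¬ Opp x a) :
    Commute t (x * t * x) := by
  have hxx := sq_of_mem h hx
  by_cases hca : Commute x a
  · have h1 := (ht.comm_of_comm h hc hx hca).eq
    have e : x * t * x = t := by rw [h1, mul_assoc, hxx, mul_one]
    rw [e]
  · have hV : ∀ g ∈ D, SimR D g a → orderOf (x * g) = 4 := by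
      intro g hg hga
      have hno : ¬ Opp x g := fun hh => hn ((hga x hx).1 hh)
      have hnc : ¬ Commute x g := fun hh => hca (sim_centralize h hc hx hg ht.ha hga hh)
      exact (order_four_of h hx hg hnc hno).1
    have key : ∀ g ∈ D, SimR D g a → ∀ g' ∈ D, SimR D g' a → Commute g (x * g' * x) :=
      fun g hg hga g' hg' hga' => sim_commute_conj h hc hx hV hg hg' hga hga'
    have ra := SimR.refl D a
    have e : x * t * x = (x * a * x) * (x * b * x) := by
      rw [ht.eq]
      calc x * (a * b) * x = x * a * 1 * b * x := by group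
        _ = x * a * (x * x) * b * x := by rw [hxx]
        _ = _ := by group
    rw [e]
    nth_rewrite 1 [ht.eq]
    exact ((key a ht.ha ra a ht.ha ra).mul_right (key a ht.ha ra b ht.hb ht.sim)).mul_left
      ((key b ht.hb ht.sim a ht.ha ra).mul_right (key b ht.hb ht.sim b ht.hb ht.sim))

/-- If `y` commutes with the hole `t` and `a y` has order 4, then `a (y a y)` is conjugate to `a`
by an element commuting with `t`. -/
theorem exists_conj_comm (ht : IsHole D t a b) (h : IsRootInvolutionSet D)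
    (hc : IsConnectedSet (OddAdj D) D) {y : G} (hy : y ∈ D) (hyt : Commute y t)
    (h4 : orderOf (a * y) = 4) :
    ∃ g : G, Commute g t ∧ g * a * g⁻¹ = a * (y * a * y) := by
  have haa := sq_of_mem h ht.ha
  have hyy := sq_of_mem h hy
  set k : G := a * (y * a * y) with hk
  have hkD : k ∈ D := mem_of_order_four h ht.ha hy h4
  have c1 : Commute a (y * a * y) := commute_of_order_four haa hyy h4
  have c2 : Commute k a := (Commute.refl a).mul_left c1.symm
  have e1 : k * a = y * a * y := by
    rw [c2.eq, hk, ← mul_assoc, haa, one_mul]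
  have hkaD : k * a ∈ D := by rw [e1]; exact conj_mem' h ht.ha hy
  have hns : ¬ SimR D k a := by
    intro hs
    have h1 : Commute y k := by
      show y * (a * (y * a * y)) = a * (y * a * y) * y
      rw [c1.eq]
      calc y * (y * a * y * a) = (y * y) * a * y * a := by group
        _ = a * y * a := by rw [hyy, one_mul]
        _ = (a * y * a) * (y * y) := by rw [hyy, mul_one]
        _ = a * (y * a * y) * y := by group
        _ = y * a * y * a * y := by rw [c1.eq]
    have h2 := sim_centralize h hc hy hkD ht.ha hs h1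
    exact not_commute_of_order_four h ht.ha hy h4 h2.symm
  obtain ⟨v, hv, hv4, hva, -, hav⟩ := exists_commutator_eq h hc hkD ht.ha c2 hkaD hns
  have hvv := sq_of_mem h hv
  have hkk := sq_of_mem h hkD
  refine ⟨v * y, (ht.comm_of_comm h hc hv hva).mul_left hyt, ?_⟩
  -- `v k v = a k`
  have e2 : v * k * v = a * k := by
    calc v * k * v = v * (k * v * k) * k := by
          calc v * k * v = v * k * v * (k * k) := by rw [hkk, mul_one]
            _ = _ := by group
      _ = a * k := by rw [← hav]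
  calc v * y * a * (v * y)⁻¹ = v * (y * a * y) * v := by
        rw [mul_inv_rev, inv_of_sq hvv, inv_of_sq hyy]; group
    _ = v * (k * a) * v := by rw [e1]
    _ = v * k * (a * v) := by group
    _ = v * k * (v * a) := by rw [hva.eq]
    _ = (v * k * v) * a := by group
    _ = a * k * a := by rw [e2]
    _ = a * (k * a) := by group
    _ = a * (a * k) := by rw [c2.eq]
    _ = k := by rw [← mul_assoc, haa, one_mul]

/-- If `u` commutes with `x u x`, then `(u x)^4 = 1` and `x` commutes with `u x u`. -/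
theorem _root_.Cfsg.Agent.H736.Hole.comm_swap {u x : G} (hu : u * u = 1) (hx : x * x = 1)
    (hc : Commute u (x * u * x)) : Commute x (u * x * u) := by
  have h1 := hc.eq
  show x * (u * x * u) = u * x * u * x
  calc x * (u * x * u) = (x * u * x * u) := by group
    _ = u * (x * u * x) := by rw [← h1]
    _ = u * x * u * x := by group

/-- **Dichotomy for holes.** -/
theorem dichotomy (ht : IsHole D t a b) (h : IsRootInvolutionSet D)
    (hc : IsConnectedSet (OddAdj D) D)
    (hT : ∀ d ∈ D, ∀ t ∈ EG D d, t ≠ 1 → ∀ x ∈ D, Opp x d → ¬ Commute t x)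
    {x : G} (hx : x ∈ D) : Commute t (x * t * x) ∨ Opp x (t * x * t) := by
  have htt := ht.sq h hc
  have hxx := sq_of_mem h hx
  by_cases hC : Commute t (x * t * x)
  · exact Or.inl hC
  right
  have hti : t⁻¹ = t := inv_of_sq htt
  have hx'D : t * x * t ∈ D := by
    have := h.conj_mem x hx t
    rwa [hti] at this
  rcases opp_trichotomy h hx hx'D with h1 | h1 | h1
  · exact absurd (comm_swap hxx htt h1) hC
  · exact h1
  exfalso
  have hxa : Opp x a := by
    by_contra hn
    exact hC (ht.comm_conj_of_not_opp h hc hx hn)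
  set x' : G := t * x * t with hx'
  set y : G := x * (x' * x * x') with hy
  have hyD : y ∈ D := h1.2
  have hx'x' := sq_of_mem h hx'D
  have hcx : Commute x (x' * x * x') := commute_of_order_four hxx hx'x' h1.1
  have hxy : Commute x y := (Commute.refl x).mul_right hcx
  have hxyD : x * y ∈ D := by
    have e : x * y = x' * x * x' := by rw [hy, ← mul_assoc, hxx, one_mul]
    rw [e]; exact conj_mem' h hx hx'D
  -- `y` commutes with `t`
  have hyt : Commute y t := by
    have e1 : t * x * t = x' := rfl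
    have e2 : t * x' * t = x := by
      rw [hx']
      calc t * (t * x * t) * t = (t * t) * x * (t * t) := by group
        _ = x := by rw [htt, one_mul, mul_one]
    have e3 : t * y * t = y := by
      calc t * y * t = (t * x * t) * ((t * x' * t) * (t * x * t) * (t * x' * t)) := by
            rw [hy]
            calc t * (x * (x' * x * x')) * t
                = t * x * 1 * x' * 1 * x * 1 * x' * t := by group
              _ = t * x * (t * t) * x' * (t * t) * x * (t * t) * x' * t := by rw [htt]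
              _ = _ := by group
        _ = x' * (x * x' * x) := by rw [e1, e2]
        _ = (x' * x * x') * x := by group
        _ = y := by rw [← hcx.eq]
    show y * t = t * y
    calc y * t = (t * y * t) * t := by rw [e3]
      _ = t * y * (t * t) := by group
      _ = t * y := by rw [htt, mul_one]
  have haa := sq_of_mem h ht.ha
  have hax : Opp a x := Opp.symm' h hx ht.ha hxa
  have hnay : ¬ Commute a y := not_commute_of_opp h hx hyD hxy hxyD ht.ha hax
  have hnya : ¬ Opp y a := fun hh => hT a ht.ha t ht.mem (ht.ne_one h) y hyD hh hyt.symm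
  have h4 : orderOf (a * y) = 4 :=
    (order_four_of h ht.ha hyD hnay (fun hh => hnya (Opp.symm' h ht.ha hyD hh))).1
  obtain ⟨g, hgt, hgk⟩ := ht.exists_conj_comm h hc hyD hyt h4
  have hk := ht.conj_of_comm h hgt
  rw [hgk] at hk
  have hyy := sq_of_mem h hyD
  have c1 : Commute a (y * a * y) := commute_of_order_four haa hyy h4
  have hky : Commute (a * (y * a * y)) y := by
    show a * (y * a * y) * y = y * (a * (y * a * y))
    rw [c1.eq]
    calc y * a * y * a * y = y * (a * y * a * y) := by group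
      _ = y * (a * (y * a * y)) := by group
      _ = y * (y * a * y * a) := by rw [c1.eq]
  have hkyD : a * (y * a * y) * y ∈ D := by
    have e : a * (y * a * y) * y = a * y * a := by
      calc a * (y * a * y) * y = a * y * a * (y * y) := by group
        _ = a * y * a := by rw [hyy, mul_one]
    rw [e]; exact conj_mem' h hyD ht.ha
  have hnk : ¬ Opp x (a * (y * a * y)) := fun hh =>
    not_commute_of_opp h hk.ha hyD hky hkyD hx hh hxy
  exact hC (hk.comm_conj_of_not_opp h hc hx hnk)

/-- The configuration of a hole `t = ab` and a member `x` opposite to `t x t`: the involution `j`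
of the dihedral group generated by `x` and `t` and the member `w = t j`. -/
theorem exists_config (ht : IsHole D t a b) (h : IsRootInvolutionSet D)
    (hc : IsConnectedSet (OddAdj D) D)
    (hT : ∀ d ∈ D, ∀ t ∈ EG D d, t ≠ 1 → ∀ x ∈ D, Opp x d → ¬ Commute t x)
    {x : G} (hx : x ∈ D) (ho : Opp x (t * x * t)) :
    ∃ j : G, j * j = 1 ∧ j ≠ 1 ∧ Commute j x ∧ Commute j t ∧ t * j ∈ D ∧ Opp x (t * j) ∧
      Opp x a ∧ Commute (t * j) a ∧ ¬ SimR D (t * j) a := by
  have htt := ht.sq h hc
  have hxx := sq_of_mem h hx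
  have haa := sq_of_mem h ht.ha
  have hti : t⁻¹ = t := inv_of_sq htt
  have hx'D : t * x * t ∈ D := by
    have := h.conj_mem x hx t
    rwa [hti] at this
  have hC : ¬ Commute t (x * t * x) := fun hh => Opp.ncomm h hx hx'D ho (comm_swap htt hxx hh)
  have hxa : Opp x a := by
    by_contra hn
    exact hC (ht.comm_conj_of_not_opp h hc hx hn)
  set ρ : G := x * t with hρ
  have hρ2 : x * (t * x * t) = ρ ^ 2 := by rw [hρ, pow_two]; group
  set n : ℕ := orderOf (ρ ^ 2) with hn
  have hnodd : Odd n := by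
    have := ho.2
    rwa [hρ2] at this
  set j : G := ρ ^ n with hj
  have hjj : j * j = 1 := by
    rw [hj, ← pow_two, ← pow_mul, mul_comm n 2, pow_mul, hn, pow_orderOf_eq_one]
  have hxρ : x * ρ * x = ρ⁻¹ := by
    rw [hρ, mul_inv_rev, inv_of_sq htt, inv_of_sq hxx, ← mul_assoc, hxx, one_mul]
  have hjinv : j⁻¹ = j := inv_of_sq hjj
  have hxj : Commute x j := by
    have e1 : x * j * x = j := by
      have e2 : x * j * x = x * ρ ^ n * x⁻¹ := by rw [inv_of_sq hxx]
      rw [e2, ← conj_pow, inv_of_sq hxx, hxρ, inv_pow, ← hj, hjinv]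
    show x * j = j * x
    calc x * j = (x * j * x) * x := by rw [mul_assoc, hxx, mul_one]
      _ = j * x := by rw [e1]
  have hρj : Commute ρ j := by rw [hj]; exact Commute.self_pow ρ n
  have hxt : x * ρ = t := by rw [hρ, ← mul_assoc, hxx, one_mul]
  have htj : Commute t j := by rw [← hxt]; exact hxj.mul_left hρj
  have hxnt : x ≠ t := fun hh => ht.nmem (hh ▸ hx)
  have hj1 : j ≠ 1 := by
    intro hj1
    have h1 : Odd (orderOf (x * t)) := by
      have h2 : orderOf ρ ∣ n := orderOf_dvd_of_pow_eq_one hj1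
      exact hnodd.of_dvd_nat h2
    obtain ⟨g, hg⟩ := Opp.exists_conj hxx htt ⟨hxnt, h1⟩
    exact ht.nmem (hg ▸ h.conj_mem x hx g)
  have hww : (t * j) * (t * j) = 1 := by
    calc t * j * (t * j) = t * (j * t) * j := by group
      _ = t * (t * j) * j := by rw [htj.eq]
      _ = (t * t) * (j * j) := by group
      _ = 1 := by rw [htt, hjj, one_mul]
  obtain ⟨m, hm⟩ := hnodd
  have hxw : x * (t * j) = (ρ ^ 2) ^ (m + 1) := by
    calc x * (t * j) = ρ * ρ ^ n := by rw [← mul_assoc]
      _ = (ρ ^ 2) ^ (m + 1) := by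
        rw [← pow_succ', ← pow_mul, hm]; congr 1
  have hnodd' : Odd n := ⟨m, hm⟩
  have hOw : Opp x (t * j) := by
    refine ⟨?_, ?_⟩
    · intro hh
      have h1 : (ρ ^ 2) ^ (m + 1) = 1 := by rw [← hxw, ← hh, hxx]
      have h2 : n ∣ m + 1 := orderOf_dvd_of_pow_eq_one h1
      have h3 : n ≤ m + 1 := Nat.le_of_dvd (Nat.succ_pos m) h2
      have h4 : m = 0 := by omega
      have h5 : ρ ^ 2 = 1 := by
        have h6 : n = 1 := by omega
        rw [← orderOf_eq_one_iff, ← hn, h6]
      have h6 : x * (t * x * t) = 1 := by rw [hρ2, h5]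
      apply ho.1
      calc x = x * (x * (t * x * t)) := by rw [h6, mul_one]
        _ = t * x * t := by rw [← mul_assoc, hxx, one_mul]
    · rw [hxw]
      exact hnodd'.of_dvd_nat (orderOf_pow_dvd (m + 1))
  have hwD : t * j ∈ D := by
    obtain ⟨g, hg⟩ := Opp.exists_conj hxx hww hOw
    rw [← hg]; exact h.conj_mem x hx g
  have hwt : Commute (t * j) t := (Commute.refl t).mul_left htj.symm
  have hnwa : ¬ Opp (t * j) a := fun hh => hT a ht.ha t ht.mem (ht.ne_one h) _ hwD hh hwt.symm
  have hwa : Commute (t * j) a := by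
    by_contra hnc
    have h4 : orderOf (a * (t * j)) = 4 :=
      (order_four_of h ht.ha hwD (fun hh => hnc hh.symm)
        (fun hh => hnwa (Opp.symm' h ht.ha hwD hh))).1
    obtain ⟨g, hgt, hgk⟩ := ht.exists_conj_comm h hc hwD hwt h4
    have hk := ht.conj_of_comm h hgt
    rw [hgk] at hk
    set k : G := a * (t * j * a * (t * j)) with hkdef
    set k' : G := g * b * g⁻¹ with hk'
    have hxk : Opp x k := by
      by_contra hn
      exact hC (hk.comm_conj_of_not_opp h hc hx hn)
    have hxk' : Opp x k' := (hk.sim x hx).2 hxk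
    have hkk := sq_of_mem h hk.ha
    have hk'e : k' = k * t := by rw [hk.eq, ← mul_assoc, hkk, one_mul]
    have c1 : Commute a (t * j * a * (t * j)) := commute_of_order_four haa hww h4
    have hkw : Commute k (t * j) := by
      show a * (t * j * a * (t * j)) * (t * j) = (t * j) * (a * (t * j * a * (t * j)))
      rw [c1.eq]
      calc t * j * a * (t * j) * a * (t * j) = (t * j) * (a * (t * j) * a * (t * j)) := by group
        _ = (t * j) * (a * (t * j * a * (t * j))) := by group
        _ = (t * j) * (t * j * a * (t * j) * a) := by rw [c1.eq]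
    have hkwD : k * (t * j) ∈ D := by
      have e : k * (t * j) = a * (t * j) * a := by
        rw [hkdef]
        calc a * (t * j * a * (t * j)) * (t * j) = a * (t * j) * a * ((t * j) * (t * j)) := by group
          _ = a * (t * j) * a := by rw [hww, mul_one]
      rw [e]; exact conj_mem' h hwD ht.ha
    have hkt : Commute k t := EG_comm h hc hk.ha
      (Subgroup.subset_closure (mem_EC_self hk.ha)) hk.mem
    have ejw : j = t * (t * j) := by rw [← mul_assoc, htt, one_mul]
    have hkj : Commute k j := by rw [ejw]; exact hkt.mul_right hkw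
    have hk'j : Commute k' j := by rw [hk'e]; exact hkj.mul_left htj
    refine not_odd_mul_two h hx hkwD hxk'.2 ?_ hjj hj1 (hxj.mul_left hk'j) ?_
    · intro h1
      apply hxk'.1
      have hk'k' := sq_of_mem h hk.hb
      calc x = x * (k' * k') := by rw [hk'k', mul_one]
        _ = (x * k') * k' := by group
        _ = k' := by rw [h1, one_mul]
    · rw [hk'e]; group
  refine ⟨j, hjj, hj1, hxj.symm, htj.symm, hwD, hOw, hxa, hwa, ?_⟩
  intro hs
  have hjE : j ∈ EG D a := by
    have ejw : j = t * (t * j) := by rw [← mul_assoc, htt, one_mul]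
    rw [ejw]
    exact mul_mem ht.mem (Subgroup.subset_closure ⟨hwD, hs⟩)
  exact hT a ht.ha j hjE hj1 x hx hxa hxj.symm

/-- **Holes commute with their conjugates by members.** -/
theorem comm_conj (ht : IsHole D t a b) (h : IsRootInvolutionSet D)
    (hc : IsConnectedSet (OddAdj D) D)
    (hT : ∀ d ∈ D, ∀ t ∈ EG D d, t ≠ 1 → ∀ x ∈ D, Opp x d → ¬ Commute t x)
    (hV : ∀ d ∈ D, ∀ w ∈ WSet D d, ¬ SimR D w d → ∃ V : Subgroup G, V ≤ EG D d ∧
      (∀ s ∈ EG D d, w * s ∈ D ↔ s ∈ V) ∧ ∃ e ∈ V, e ∈ EC D d)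
    {x : G} (hx : x ∈ D) : Commute t (x * t * x) := by
  rcases ht.dichotomy h hc hT hx with h1 | ho
  · exact h1
  exfalso
  obtain ⟨j, hjj, hj1, hjx, hjt, hwD, hxw, hxa, hwa, hns⟩ := ht.exists_config h hc hT hx ho
  have htt := ht.sq h hc
  have hxx := sq_of_mem h hx
  have haa := sq_of_mem h ht.ha
  have hbb := sq_of_mem h ht.hb
  set w : G := t * j with hw
  have hww := sq_of_mem h hwD
  have ejw : j = t * w := by rw [hw, ← mul_assoc, htt, one_mul]
  have haE : a ∈ EC D a := mem_EC_self ht.ha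
  have hbE : b ∈ EC D a := ⟨ht.hb, ht.sim⟩
  -- everything commutes with the elements of `EG D a`
  have hwE : ∀ s ∈ EG D a, Commute w s := fun s hs => comm_EG h hc ht.ha hwD hwa hs
  have htE : ∀ s ∈ EG D a, Commute t s := fun s hs => EG_comm h hc ht.ha ht.mem hs
  have hjE : ∀ s ∈ EG D a, Commute j s := by
    intro s hs
    rw [ejw]; exact (htE s hs).mul_left (hwE s hs)
  -- the swaps
  have hswap : ∀ e ∈ EC D a, ∃ s : G, s ∈ D ∧ s * e * s = x ∧ s * x * s = e ∧ Commute s j := by
    intro e he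
    have hee := sq_of_mem h he.1
    have hex : Opp e x := Opp.symm' h hx he.1 ((he.2 x hx).2 hxa)
    obtain ⟨l, s, hs, hss, hse, hsx⟩ := exists_swap hee hxx hex
    refine ⟨s, ?_, hse, hsx, ?_⟩
    · rw [hs]; exact h.conj_mem e he.1 _
    · have hje : Commute e j := (hjE e (Subgroup.subset_closure he)).symm
      have hjr : Commute ((e * x) ^ l) j := (hje.mul_left hjx.symm).pow_left l
      rw [hs]; exact (hjr.mul_left hje).mul_left hjr.inv_left
  -- transport along `h` with `h j = j h` and `h` normalizing the class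
  have htrans : ∀ g : G, Commute g j → (∀ e ∈ EC D a, g * e * g⁻¹ ∈ EC D a) →
      g * t * g⁻¹ ∈ EG D a ∧ w * (t * (g * t * g⁻¹)) = g * w * g⁻¹ ∧
        ∀ v ∈ EG D a, g * v * g⁻¹ ∈ EG D a := by
    intro g hgj hgE
    have hgEG : ∀ v ∈ EG D a, g * v * g⁻¹ ∈ EG D a := by
      intro v hv
      induction hv using Subgroup.closure_induction with
      | mem s hs => exact Subgroup.subset_closure (hgE s hs)
      | one => simp
      | mul u v _ _ ha hb =>
        have e : g * (u * v) * g⁻¹ = (g * u * g⁻¹) * (g * v * g⁻¹) := by group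
        rw [e]; exact mul_mem ha hb
      | inv u _ ha =>
        have e : g * u⁻¹ * g⁻¹ = (g * u * g⁻¹)⁻¹ := by group
        rw [e]; exact inv_mem ha
    refine ⟨hgEG t ht.mem, ?_, hgEG⟩
    have h1 : g * w * g⁻¹ = (g * t * g⁻¹) * j := by
      rw [hw]
      calc g * (t * j) * g⁻¹ = g * t * (j * g⁻¹) := by group
        _ = g * t * (g⁻¹ * j) := by rw [hgj.inv_left.eq]
        _ = (g * t * g⁻¹) * j := by group
    rw [h1, hw]
    have h2 := (hjE _ (hgEG t ht.mem)).eq
    calc t * j * (t * (g * t * g⁻¹)) = t * (j * t) * (g * t * g⁻¹) := by group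
      _ = t * (t * j) * (g * t * g⁻¹) := by rw [hjt.eq]
      _ = (t * t) * (j * (g * t * g⁻¹)) := by group
      _ = (g * t * g⁻¹) * j := by rw [htt, one_mul, h2]
  -- the product of two swaps
  have hprod : ∀ e ∈ EC D a, ∀ e' ∈ EC D a, ∀ s s' : G, s ∈ D → s' ∈ D → s * e * s = x →
      s' * x * s' = e' → Commute s j → Commute s' j →
      Commute (s' * s) j ∧ (s' * s) * e * (s' * s)⁻¹ = e' ∧
        ∀ v ∈ EC D a, (s' * s) * v * (s' * s)⁻¹ ∈ EC D a := by
    intro e he e' he' s s' hs hs' hse hs'x hsj hs'j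
    have h1 : (s' * s) * e * (s' * s)⁻¹ = e' := by
      rw [mul_inv_rev, inv_of_mem h hs, inv_of_mem h hs']
      calc s' * s * e * (s * s') = s' * (s * e * s) * s' := by group
        _ = e' := by rw [hse, hs'x]
    refine ⟨hs'j.mul_left hsj, h1, ?_⟩
    intro v hv
    have h2 : v ∈ EC D e := by rw [EC_eq he.2]; exact hv
    have h3 := EC_conj h h2 (s' * s)
    rw [h1, EC_eq he'.2] at h3
    exact h3
  by_cases hwW : w ∈ WSet D a
  · -- `w ∈ W_a`
    obtain ⟨V, hVE, hVD, e0, he0V, he0⟩ := hV a ht.ha w hwW hns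
    obtain ⟨s0, hs0D, hs0e, -, hs0j⟩ := hswap e0 he0
    have hall : ∀ e ∈ EC D a, e ∈ V := by
      intro e he
      obtain ⟨s, hsD, -, hsx, hsj⟩ := hswap e he
      obtain ⟨hgj, hge, hgE⟩ := hprod e0 he0 e he s0 s hs0D hsD hs0e hsx hs0j hsj
      set g : G := s * s0 with hg
      obtain ⟨ht', hwt', hgEG⟩ := htrans g hgj hgE
      have h1 : t * (g * t * g⁻¹) ∈ V := by
        rw [← hVD _ (mul_mem ht.mem ht'), hwt']
        exact h.conj_mem w hwD g
      have h2 : w * e0 ∈ D := (hVD e0 (hVE he0V)).2 he0V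
      have h3 : g * (w * e0) * g⁻¹ ∈ D := h.conj_mem _ h2 g
      have h4 : g * (w * e0) * g⁻¹ = w * (t * (g * t * g⁻¹) * (g * e0 * g⁻¹)) := by
        calc g * (w * e0) * g⁻¹ = (g * w * g⁻¹) * (g * e0 * g⁻¹) := by group
          _ = w * (t * (g * t * g⁻¹)) * (g * e0 * g⁻¹) := by rw [hwt']
          _ = _ := by group
      rw [h4, hge] at h3
      have h5 : t * (g * t * g⁻¹) * e ∈ V :=
        (hVD _ (mul_mem (mul_mem ht.mem ht') (Subgroup.subset_closure he))).1 h3
      have h6 := mul_mem (inv_mem h1) h5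
      rwa [inv_mul_cancel_left] at h6
    have hEV : EG D a ≤ V := (Subgroup.closure_le V).2 hall
    have h1 : w * (t * a) ∈ D :=
      (hVD _ (mul_mem ht.mem (Subgroup.subset_closure haE))).2
        (hEV (mul_mem ht.mem (Subgroup.subset_closure haE)))
    have h2 : w * (t * a) = a * j := by
      rw [hw]
      calc t * j * (t * a) = t * (j * t) * a := by group
        _ = t * (t * j) * a := by rw [hjt.eq]
        _ = (t * t) * (j * a) := by group
        _ = a * j := by rw [htt, one_mul, (hjE a (Subgroup.subset_closure haE)).eq]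
    rw [h2] at h1
    have hja : Commute a j := (hjE a (Subgroup.subset_closure haE)).symm
    refine not_odd_mul_two h hx h1 hxa.2 ?_ hjj hj1 (hjx.symm.mul_left hja) (by group)
    intro h3
    apply hxa.1
    calc x = x * (a * a) := by rw [haa, mul_one]
      _ = (x * a) * a := by group
      _ = a := by rw [h3, one_mul]
  · -- `w ∉ W_a`
    have hex : ∃ y ∈ D, Commute y a ∧ Opp y w := by
      by_contra hcon
      push Not at hcon
      exact hwW ⟨hwD, hwa, hcon⟩
    obtain ⟨y, hyD, hya, hyw⟩ := hex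
    obtain ⟨s, hsD, hsa, hsx, hsj⟩ := hswap a haE
    obtain ⟨s', hs'D, hs'b, hs'x, hs'j⟩ := hswap b hbE
    obtain ⟨hgj, hge, hgE⟩ := hprod a haE b hbE s s' hsD hs'D hsa hs'x hsj hs'j
    set g : G := s' * s with hg
    obtain ⟨ht', hwt', hgEG⟩ := htrans g hgj hgE
    have hss := sq_of_mem h hsD
    have hs's' := sq_of_mem h hs'D
    have hyE : ∀ s ∈ EG D a, Commute y s := fun s hs => comm_EG h hc ht.ha hyD hya hs
    have hz : t * (g * t * g⁻¹) ∈ EG D a := mul_mem ht.mem ht'
    have hz1 : t * (g * t * g⁻¹) = 1 := by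
      by_contra hne
      have hD : w * (t * (g * t * g⁻¹)) ∈ D := by rw [hwt']; exact h.conj_mem w hwD g
      refine not_odd_mul_two h hyD hD hyw.2 ?_ (EG_sq h hc ht.ha hz) hne
        ((hyE _ hz).mul_left (hwE _ hz)) (by group)
      intro h3
      apply hyw.1
      calc y = y * (w * w) := by rw [hww, mul_one]
        _ = (y * w) * w := by group
        _ = w := by rw [h3, one_mul]
    have hgw : g * w * g⁻¹ = w := by rw [← hwt', hz1, mul_one]
    have hsw : s * w * s = s' * w * s' := by
      have e1 : g * w * g⁻¹ = s' * (s * w * s) * s' := by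
        rw [hg, mul_inv_rev, inv_of_mem h hsD, inv_of_mem h hs'D]; group
      rw [e1] at hgw
      calc s * w * s = (s' * s') * (s * w * s) * (s' * s') := by rw [hs's', one_mul, mul_one]
        _ = s' * (s' * (s * w * s) * s') * s' := by group
        _ = s' * w * s' := by rw [hgw]
    -- `w` is opposite to `s` and `s'`
    have hopp : ∀ e ∈ EC D a, ∀ s ∈ D, s * e * s = x → Opp w s := by
      intro e he s hsD hse
      have hss := sq_of_mem h hsD
      have hwe : Commute w e := hwE e (Subgroup.subset_closure he)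
      have hw'x : Commute (s * w * s) x := by
        rw [← hse]
        show s * w * s * (s * e * s) = s * e * s * (s * w * s)
        calc s * w * s * (s * e * s) = s * w * (s * s) * e * s := by group
          _ = s * (w * e) * s := by rw [hss]; group
          _ = s * (e * w) * s := by rw [hwe.eq]
          _ = s * e * (s * s) * w * s := by rw [hss]; group
          _ = s * e * s * (s * w * s) := by group
      rcases opp_trichotomy h hwD hsD with h1 | h1 | h1
      · exfalso
        have h2 : s * w * s = w := by rw [← h1.eq, mul_assoc, hss, mul_one]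
        rw [h2] at hw'x
        exact Opp.ncomm h hx hwD hxw hw'x.symm
      · exact h1
      · exfalso
        have hc1 : Commute w (s * w * s) := commute_of_order_four hww hss h1.1
        exact not_commute_of_opp h hwD (conj_mem' h hwD hsD) hc1 h1.2 hx hxw hw'x.symm
    have h1 := hopp a haE s hsD hsa
    have h2 := hopp b hbE s' hs'D hs'b
    have h3 : s = s' := swap_unique hss hs's' h1.2 h2.2 hww hsw
    apply ht.ne
    rw [← hsx, h3, hs'x]

end IsHole

/-- **There are no holes.** -/
theorem mul_mem_class (h : IsRootInvolutionSet D) (hc : IsConnectedSet (OddAdj D) D)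
    (hO : ∀ N : Subgroup G, N.Normal → IsPGroup 2 N → N = ⊥)
    (hT : ∀ d ∈ D, ∀ t ∈ EG D d, t ≠ 1 → ∀ x ∈ D, Opp x d → ¬ Commute t x)
    (hV : ∀ d ∈ D, ∀ w ∈ WSet D d, ¬ SimR D w d → ∃ V : Subgroup G, V ≤ EG D d ∧
      (∀ s ∈ EG D d, w * s ∈ D ↔ s ∈ V) ∧ ∃ e ∈ V, e ∈ EC D d)
    {a b : G} (ha : a ∈ D) (hb : b ∈ D) (hab : SimR D b a) (hne : a ≠ b) : a * b ∈ D := by
  by_contra hn
  have ht : IsHole D (a * b) a b := ⟨ha, hb, hab, hne, rfl, hn⟩
  set t : G := a * b with htdef
  have htt := ht.sq h hc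
  set Δ : Set G := {u | ∃ g : G, g * t * g⁻¹ = u} with hΔ
  have hinv : ∀ u ∈ Δ, u * u = 1 := by
    rintro _ ⟨g, rfl⟩
    exact (ht.conj h g).sq h hc
  -- a hole commutes with ...
  have key : ∀ g g' : G, ∃ k : ℕ, orderOf ((g * t * g⁻¹) * (g' * t * g'⁻¹)) = 2 ^ k := by
    intro g g'
    have h1 := ht.conj h g
    have h2 := ht.conj h g'
    set t₁ : G := g * t * g⁻¹ with ht₁
    set t₂ : G := g' * t * g'⁻¹ with ht₂
    set a₂ : G := g' * a * g'⁻¹ with ha₂
    set b₂ : G := g' * b * g'⁻¹ with hb₂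
    have s1 := h1.sq h hc
    have s2 := h2.sq h hc
    have c1 : Commute a₂ (t₁ * a₂ * t₁) :=
      comm_swap s1 (sq_of_mem h h2.ha) (h1.comm_conj h hc hT hV h2.ha)
    have c2 : Commute b₂ (t₁ * b₂ * t₁) :=
      comm_swap s1 (sq_of_mem h h2.hb) (h1.comm_conj h hc hT hV h2.hb)
    have mD : ∀ y ∈ D, t₁ * y * t₁ ∈ D := by
      intro y hy
      have := h.conj_mem y hy t₁
      rwa [inv_of_sq s1] at this
    have c3 : Commute (t₁ * a₂ * t₁) b₂ :=
      sim_centralize h hc (mD _ h2.ha) h2.ha h2.hb h2.sim.symm c1.symm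
    have c4 : Commute (t₁ * b₂ * t₁) a₂ :=
      sim_centralize h hc (mD _ h2.hb) h2.hb h2.ha h2.sim c2.symm
    have e1 : t₁ * t₂ * t₁ = (t₁ * a₂ * t₁) * (t₁ * b₂ * t₁) := by
      rw [h2.eq]
      calc t₁ * (a₂ * b₂) * t₁ = t₁ * a₂ * 1 * b₂ * t₁ := by group
        _ = t₁ * a₂ * (t₁ * t₁) * b₂ * t₁ := by rw [s1]
        _ = _ := by group
    have c5 : Commute t₂ (t₁ * t₂ * t₁) := by
      rw [e1]
      nth_rewrite 1 [h2.eq]
      exact (c1.mul_right c4.symm).mul_left (c3.symm.mul_right c2)
    have h4 : (t₁ * t₂) ^ 4 = 1 := by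
      calc (t₁ * t₂) ^ 4 = (t₁ * t₂ * t₁ * t₂) * (t₁ * t₂ * t₁ * t₂) := by
            rw [show (4 : ℕ) = 1 + 1 + 1 + 1 from rfl, pow_add, pow_add, pow_add, pow_one]; group
        _ = ((t₁ * t₂ * t₁) * t₂) * ((t₁ * t₂ * t₁) * t₂) := by group
        _ = (t₂ * (t₁ * t₂ * t₁)) * ((t₁ * t₂ * t₁) * t₂) := by rw [c5.eq]
        _ = t₂ * (t₁ * (t₂ * ((t₁ * t₁) * t₂)) * t₁) * t₂ := by group
        _ = 1 := by rw [s1, one_mul, s2, mul_one, s1, mul_one, s2]
    have h5 : orderOf (t₁ * t₂) ∣ 2 ^ 2 := orderOf_dvd_of_pow_eq_one h4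
    obtain ⟨k, -, hk⟩ := (Nat.dvd_prime_pow Nat.prime_two).1 h5
    exact ⟨k, hk⟩
  have hP : IsPGroup 2 (Subgroup.closure Δ : Subgroup G) := by
    refine two_group_of_normal_subset hinv ?_ ?_
    · rintro _ ⟨g, rfl⟩ _ ⟨g', rfl⟩
      have s1 := (ht.conj h g).sq h hc
      refine ⟨(g * t * g⁻¹) * g', ?_⟩
      rw [mul_inv_rev, inv_of_sq s1]; group
    · rintro _ ⟨g, rfl⟩ _ ⟨g', rfl⟩
      exact key g g'
  have hN : (Subgroup.closure Δ : Subgroup G).Normal := by
    constructor
    intro n hn g'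
    induction hn using Subgroup.closure_induction with
    | mem s hs =>
      obtain ⟨g, rfl⟩ := hs
      exact Subgroup.subset_closure ⟨g' * g, by group⟩
    | one => simp
    | mul u v _ _ ha hb =>
      have e : g' * (u * v) * g'⁻¹ = (g' * u * g'⁻¹) * (g' * v * g'⁻¹) := by group
      rw [e]; exact mul_mem ha hb
    | inv u _ ha =>
      have e : g' * u⁻¹ * g'⁻¹ = (g' * u * g'⁻¹)⁻¹ := by group
      rw [e]; exact inv_mem ha
  have hbot := hO _ hN hP
  have h1 : t ∈ Subgroup.closure Δ := Subgroup.subset_closure ⟨1, by group⟩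
  rw [hbot, Subgroup.mem_bot] at h1
  exact ht.ne_one h h1

end Basic

end Cfsg.Agent.H736.Hole
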