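import Mathlib
import Cfsg.Agent.H736.HoleFree
import Cfsg.Agent.H737.RootStruct

/-!
# Root involutions: `[W_d, W_d] ⊆ E_d ∪ {1}` and the subgroups `V_w`

The results of `H737.RootDeep`, `H737.RootStruct` without the hypothesis that the classes `E_d ∪ {1}`
are subgroups, and the fact that for `w ∈ W_d` outside `E_d` the elements `s ∈ ⟨E_d⟩` with `w s ∈ D`
form a subgroup meeting `E_d`.
-/

set_option autoImplicit false

namespace Cfsg.Agent.H736.Hole

open Cfsg Cfsg.Agent.H737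
open scoped commutatorElement

variable {G : Type*} [Group G] {D : Set G}

/-- The commutator of the involutions `x` and `y`. -/
def cm (y x : G) : G := x * (y * x * y)

theorem cm_conj (g y x : G) : g * cm y x * g⁻¹ = cm (g * y * g⁻¹) (g * x * g⁻¹) := by
  unfold cm; group

theorem cm_of_comm {y x : G} (hy : y * y = 1) (hx : x * x = 1) (h : Commute y x) : cm y x = 1 := by
  unfold cm; rw [h.eq, mul_assoc x y y, hy, mul_one, hx]

theorem comm_of_cm {y x : G} (hy : y * y = 1) (hx : x * x = 1) (h : cm y x = 1) :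
    Commute y x := by
  unfold cm at h
  have h1 : y * x * y = x := by
    calc y * x * y = (x * x) * (y * x * y) := by rw [hx, one_mul]
      _ = x * (x * (y * x * y)) := by group
      _ = x := by rw [h, mul_one]
  show y * x = x * y
  calc y * x = (y * x * y) * y := by rw [mul_assoc, hy, mul_one]
    _ = x * y := by rw [h1]

theorem conj_eq_mul_cm {y x : G} (hx : x * x = 1) : y * x * y = x * cm y x := by
  unfold cm; rw [← mul_assoc, hx, one_mul]

theorem cm_mul {y a b : G} (hy : y * y = 1) (ha : a * a = 1) (hab : Commute a b)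
    (h : Commute (cm y a) b) : cm y (a * b) = cm y a * cm y b := by
  have h1 : Commute (y * a * y) b := by rw [conj_eq_mul_cm ha]; exact hab.mul_left h
  unfold cm
  calc a * b * (y * (a * b) * y) = a * b * (y * a * 1 * b * y) := by group
    _ = a * b * (y * a * (y * y) * b * y) := by rw [hy]
    _ = a * (b * (y * a * y)) * (y * b * y) := by group
    _ = a * ((y * a * y) * b) * (y * b * y) := by rw [h1.eq]
    _ = a * (y * a * y) * (b * (y * b * y)) := by group

theorem mul_cm_mem (h : IsRootInvolutionSet D) {y x s : G} (hy : y ∈ D) (hx : x * x = 1)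
    (hxs : Commute x s) (hys : Commute y s) (hD : y * s ∈ D) : y * (cm y x * s) ∈ D := by
  have hyy := sq_of_mem h hy
  have e : y * (cm y x * s) = (y * x) * (y * s) * (y * x)⁻¹ := by
    rw [mul_inv_rev, inv_of_sq hyy, inv_of_sq hx]
    unfold cm
    calc y * (x * (y * x * y) * s) = y * x * y * x * (y * s) := by group
      _ = y * x * y * x * (s * y) := by rw [hys.eq]
      _ = y * x * y * (x * s) * y := by group
      _ = y * x * y * (s * x) * y := by rw [hxs.eq]
      _ = y * x * (y * s) * (x * y) := by group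
  rw [e]; exact h.conj_mem _ hD _

theorem mul_cm_mem' (h : IsRootInvolutionSet D) {y x : G} (hy : y ∈ D) (hx : x * x = 1) :
    y * cm y x ∈ D := by
  have := mul_cm_mem h hy hx (Commute.one_right x) (Commute.one_right y) (by rwa [mul_one])
  rwa [mul_one] at this

/-- Elements of `⟨E_d⟩` lying in `D` are in `E_d`. -/
theorem sim_of_mem_EG [Finite G] (h : IsRootInvolutionSet D) (hc : IsConnectedSet (OddAdj D) D)
    {d x : G} (hd : d ∈ D) (hx : x ∈ D) (hxE : x ∈ EG D d) : SimR D x d := by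
  have hsub : commutingMembers D d ⊆ commutingMembers D x := fun y hy =>
    ⟨hy.1, comm_EG h hc hd hy.1 hy.2 hxE⟩
  obtain ⟨g, hg⟩ := exists_conj_of_connected h hc hd hx
  have hcard : (commutingMembers D x).ncard ≤ (commutingMembers D d).ncard := by
    refine Set.ncard_le_ncard_of_injOn (fun y => g⁻¹ * y * g) ?_ ?_ (Set.toFinite _)
    · intro y hy
      have h2 : g⁻¹ * y * g ∈ D := by
        have := h.conj_mem y hy.1 g⁻¹
        rwa [inv_inv] at this
      refine ⟨h2, ?_⟩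
      have h3 : Commute (g * (g⁻¹ * y * g) * g⁻¹) (g * d * g⁻¹) := by
        have e : g * (g⁻¹ * y * g) * g⁻¹ = y := by group
        rw [e, hg]; exact hy.2
      exact (commute_conj_iff' g _ _).1 h3
    · intro y _ z _ hyz
      simpa using hyz
  have heq := Set.eq_of_subset_of_ncard_le hsub hcard (Set.toFinite _)
  exact ((sim_iff_commutingMembers h hc hd hx).1 heq).symm

/-- The configuration `v` deep in `W_d`, `e` opposite to `v` but not to `d`. -/
structure Cfg (D : Set G) (d v e : G) : Prop where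
  h : IsRootInvolutionSet D
  hc : IsConnectedSet (OddAdj D) D
  hd : d ∈ D
  deep : Deep D d v
  he : e ∈ D
  hev : Opp e v
  hed : ¬ Opp e d

namespace Cfg

variable [Finite G] {d v e : G}

theorem hvD (c : Cfg D d v e) : v ∈ D := c.deep.1.1

theorem vv (c : Cfg D d v e) : v * v = 1 := sq_of_mem c.h c.hvD

theorem ee (c : Cfg D d v e) : e * e = 1 := sq_of_mem c.h c.he

theorem sq (c : Cfg D d v e) {s : G} (hs : s ∈ EG D d) : s * s = 1 := EG_sq c.h c.hc c.hd hs

theorem comm (c : Cfg D d v e) {s t : G} (hs : s ∈ EG D d) (ht : t ∈ EG D d) : Commute s t :=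
  EG_comm c.h c.hc c.hd hs ht

/-- Members of `W_d` centralize `⟨E_d⟩`. -/
theorem commW (c : Cfg D d v e) {w s : G} (hw : w ∈ WSet D d) (hs : s ∈ EG D d) : Commute w s :=
  comm_EG c.h c.hc c.hd hw.1 hw.2.1 hs

theorem commv (c : Cfg D d v e) {s : G} (hs : s ∈ EG D d) : Commute v s := c.commW c.deep.1 hs

theorem key (c : Cfg D d v e) {a : G} (ha : a ∈ EC D d) :
    cm e a ∈ D ∧ cm e a ∈ WSet D d ∧ Commute (cm e a) e ∧
      ∀ v' ∈ D, Opp e v' → ¬ Commute (cm e a) v' := by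
  obtain ⟨-, h2, -, h4, h5, h6⟩ := comm_class c.h c.hc c.hd c.deep.1 c.he c.hev c.hed ha.1 ha.2
  exact ⟨h2, h4, h5, h6⟩

/-- Basic facts on `f = cm e` on `⟨E_d⟩`. -/
theorem f_facts (c : Cfg D d v e) {s : G} (hs : s ∈ EG D d) :
    (∀ t ∈ EG D d, Commute (cm e s) t) ∧ Commute (cm e s) e ∧ cm e s * cm e s = 1 ∧
      cm v (cm e s) ∈ EG D d := by
  induction hs using Subgroup.closure_induction with
  | mem a ha =>
    obtain ⟨k1, k2, k3, k4⟩ := c.key ha
    refine ⟨fun t ht => c.commW k2 ht, k3, sq_of_mem c.h k1, ?_⟩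
    have hn : ¬ Commute (cm e a) v := k4 v c.hvD c.hev
    have h1 : SimR D (cm v (cm e a)) d := c.deep.2.2 _ k2 (fun hh => hn hh.symm)
    have h2 : cm v (cm e a) ∈ D := (WSet_comm c.h k2 c.deep.1 hn).1
    exact Subgroup.subset_closure ⟨h2, h1⟩
  | one =>
    have e1 : cm e 1 = 1 := cm_of_comm c.ee (one_mul 1) (Commute.one_right e)
    have e2 : cm v (1 : G) = 1 := cm_of_comm c.vv (one_mul 1) (Commute.one_right v)
    rw [e1]
    exact ⟨fun t _ => Commute.one_left t, Commute.one_left e, one_mul 1, by rw [e2]; exact one_mem _⟩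
  | mul a b ha hb iha ihb =>
    obtain ⟨a1, a2, a3, a4⟩ := iha
    obtain ⟨b1, b2, b3, b4⟩ := ihb
    have hab := c.comm ha hb
    have m1 : cm e (a * b) = cm e a * cm e b := cm_mul c.ee (c.sq ha) hab (a1 b hb)
    have m2 : cm e (b * a) = cm e b * cm e a := cm_mul c.ee (c.sq hb) hab.symm (b1 a ha)
    have hfc : Commute (cm e a) (cm e b) := by
      show cm e a * cm e b = cm e b * cm e a
      rw [← m1, ← m2, hab.eq]
    have m3 : cm v (cm e a * cm e b) = cm v (cm e a) * cm v (cm e b) :=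
      cm_mul c.vv a3 hfc (b1 _ a4).symm
    rw [m1]
    refine ⟨fun t ht => (a1 t ht).mul_left (b1 t ht), a2.mul_left b2, ?_, ?_⟩
    · calc cm e a * cm e b * (cm e a * cm e b) = cm e a * (cm e b * cm e a) * cm e b := by group
        _ = cm e a * (cm e a * cm e b) * cm e b := by rw [← hfc.eq]
        _ = (cm e a * cm e a) * (cm e b * cm e b) := by group
        _ = 1 := by rw [a3, b3, one_mul]
    · rw [m3]; exact mul_mem a4 b4
  | inv a ha iha =>
    have e1 : a⁻¹ = a := inv_of_sq (c.sq ha)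
    rw [e1]; exact iha

theorem f_mul (c : Cfg D d v e) {a b : G} (ha : a ∈ EG D d) (hb : b ∈ EG D d) :
    cm e (a * b) = cm e a * cm e b :=
  cm_mul c.ee (c.sq ha) (c.comm ha hb) ((c.f_facts ha).1 b hb)

theorem f_comm (c : Cfg D d v e) {a b : G} (ha : a ∈ EG D d) (hb : b ∈ EG D d) :
    Commute (cm e a) (cm e b) := by
  show cm e a * cm e b = cm e b * cm e a
  rw [← c.f_mul ha hb, ← c.f_mul hb ha, (c.comm ha hb).eq]

theorem f_one (c : Cfg D d v e) : cm e (1 : G) = 1 :=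
  cm_of_comm c.ee (one_mul 1) (Commute.one_right e)

theorem f_e (c : Cfg D d v e) {a : G} (ha : a ∈ EG D d) : cm e (cm e a) = 1 :=
  cm_of_comm c.ee (c.f_facts ha).2.2.1 (c.f_facts ha).2.1.symm

/-- The module `M = ⟨E_d⟩ f⟨E_d⟩`. -/
def M (D : Set G) (d e : G) : Set G := {x | ∃ a ∈ EG D d, ∃ b ∈ EG D d, x = a * cm e b}

theorem M_comm (c : Cfg D d v e) {x y : G} (hx : x ∈ M D d e) (hy : y ∈ M D d e) :
    Commute x y := by
  obtain ⟨a, ha, b, hb, rfl⟩ := hx
  obtain ⟨a', ha', b', hb', rfl⟩ := hy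
  exact ((c.comm ha ha').mul_right ((c.f_facts hb').1 a ha).symm).mul_left
    (((c.f_facts hb).1 a' ha').mul_right (c.f_comm hb hb'))

theorem M_mul (c : Cfg D d v e) {x y : G} (hx : x ∈ M D d e) (hy : y ∈ M D d e) :
    x * y ∈ M D d e := by
  obtain ⟨a, ha, b, hb, rfl⟩ := hx
  obtain ⟨a', ha', b', hb', rfl⟩ := hy
  refine ⟨a * a', mul_mem ha ha', b * b', mul_mem hb hb', ?_⟩
  rw [c.f_mul hb hb']
  have h1 := ((c.f_facts hb).1 a' ha').eq
  calc a * cm e b * (a' * cm e b') = a * (cm e b * a') * cm e b' := by group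
    _ = a * (a' * cm e b) * cm e b' := by rw [h1]
    _ = _ := by group

theorem M_sq (c : Cfg D d v e) {x : G} (hx : x ∈ M D d e) : x * x = 1 := by
  obtain ⟨a, ha, b, hb, rfl⟩ := hx
  have h1 := ((c.f_facts hb).1 a ha).eq
  calc a * cm e b * (a * cm e b) = a * (cm e b * a) * cm e b := by group
    _ = a * (a * cm e b) * cm e b := by rw [h1]
    _ = (a * a) * (cm e b * cm e b) := by group
    _ = 1 := by rw [c.sq ha, (c.f_facts hb).2.2.1, one_mul]

theorem E_sub_M (c : Cfg D d v e) {a : G} (ha : a ∈ EG D d) : a ∈ M D d e :=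
  ⟨a, ha, 1, one_mem _, by rw [c.f_one, mul_one]⟩

theorem M_conj_e (c : Cfg D d v e) {x : G} (hx : x ∈ M D d e) : e * x * e ∈ M D d e := by
  obtain ⟨a, ha, b, hb, rfl⟩ := hx
  refine ⟨a, ha, a * b, mul_mem ha hb, ?_⟩
  have h1 := (c.f_facts hb).2.1.eq
  calc e * (a * cm e b) * e = e * a * (cm e b * e) := by group
    _ = e * a * (e * cm e b) := by rw [h1]
    _ = (e * a * e) * cm e b := by group
    _ = a * cm e a * cm e b := by rw [conj_eq_mul_cm (c.sq ha)]
    _ = a * cm e (a * b) := by rw [c.f_mul ha hb, mul_assoc]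

theorem M_conj_v (c : Cfg D d v e) {x : G} (hx : x ∈ M D d e) : v * x * v ∈ M D d e := by
  obtain ⟨a, ha, b, hb, rfl⟩ := hx
  obtain ⟨b1, b2, b3, b4⟩ := c.f_facts hb
  refine ⟨a * cm v (cm e b), mul_mem ha b4, b, hb, ?_⟩
  calc v * (a * cm e b) * v = (v * a) * cm e b * v := by group
    _ = (a * v) * cm e b * v := by rw [(c.commv ha).eq]
    _ = a * (v * cm e b * v) := by group
    _ = a * (cm e b * cm v (cm e b)) := by rw [conj_eq_mul_cm b3]
    _ = a * (cm v (cm e b) * cm e b) := by rw [(b1 _ b4).eq]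
    _ = _ := by group

/-- The commutator of `x ∈ M` with `v`. -/
theorem cm_v_M (c : Cfg D d v e) {a b : G} (ha : a ∈ EG D d) (hb : b ∈ EG D d) :
    cm v (a * cm e b) = cm v (cm e b) := by
  have h1 : cm v a = 1 := cm_of_comm c.vv (c.sq ha) (c.commv ha)
  rw [cm_mul c.vv (c.sq ha) ((c.f_facts hb).1 a ha).symm (by rw [h1]; exact Commute.one_left _),
    h1, one_mul]

theorem cm_e_M (c : Cfg D d v e) {a b : G} (ha : a ∈ EG D d) (hb : b ∈ EG D d) :
    cm e (a * cm e b) = cm e a := by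
  rw [cm_mul c.ee (c.sq ha) ((c.f_facts hb).1 a ha).symm (c.f_comm ha hb), c.f_e hb, mul_one]

theorem cm_v_mem (c : Cfg D d v e) {x : G} (hx : x ∈ M D d e) : cm v x ∈ EG D d := by
  obtain ⟨a, ha, b, hb, rfl⟩ := hx
  rw [c.cm_v_M ha hb]; exact (c.f_facts hb).2.2.2

/-- An element commuting with `e`, `v` and with `v s ∈ D` is trivial. -/
theorem eq_one (c : Cfg D d v e) {s : G} (hss : s * s = 1) (hsv : Commute v s)
    (hse : Commute e s) (hD : v * s ∈ D) : s = 1 := by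
  by_contra hne
  refine not_odd_mul_two c.h c.he hD c.hev.2 ?_ hss hne (hse.mul_left hsv) (by group)
  intro h1
  apply c.hev.1
  calc e = e * (v * v) := by rw [c.vv, mul_one]
    _ = (e * v) * v := by group
    _ = v := by rw [h1, one_mul]

/-- The averaging argument: if `v s ∈ D` with `s ∈ ⟨E_d⟩` then `s = [x, v]` for some `x ∈ M`. -/
theorem exists_cm (c : Cfg D d v e) {s : G} (hs : s ∈ EG D d) (hD : v * s ∈ D) :
    ∃ x ∈ M D d e, s = cm v x := by
  have hve : Opp v e := Opp.symm' c.h c.he c.hvD c.hev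
  obtain ⟨k, hk⟩ := hve.2
  set ρ : G := v * e with hρ
  have hρv : v * ρ * v = ρ⁻¹ := by
    rw [hρ, mul_inv_rev, inv_of_sq c.ee, inv_of_sq c.vv, ← mul_assoc, c.vv, one_mul]
  have hMρ : ∀ n : ℕ, ρ ^ n * s * (ρ ^ n)⁻¹ ∈ M D d e := by
    intro n
    induction n with
    | zero => simpa using c.E_sub_M hs
    | succ n ih =>
      have h1 := c.M_conj_v (c.M_conj_e ih)
      have e1 : ρ ^ (n + 1) * s * (ρ ^ (n + 1))⁻¹ =
          v * (e * (ρ ^ n * s * (ρ ^ n)⁻¹) * e) * v := by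
        rw [pow_succ' ρ n, mul_inv_rev, hρ, mul_inv_rev, inv_of_sq c.ee, inv_of_sq c.vv]
        group
      rw [e1]; exact h1
  have hvρ : ∀ n : ℕ, v * (ρ ^ n * s * (ρ ^ n)⁻¹) * v = (ρ ^ n)⁻¹ * s * ρ ^ n := by
    intro n
    have h1 : v * ρ ^ n * v = (ρ ^ n)⁻¹ := by
      have : v * ρ ^ n * v⁻¹ = (v * ρ * v⁻¹) ^ n := (conj_pow).symm
      rw [inv_of_sq c.vv, hρv, inv_pow] at this
      exact this
    have h2 : v * (ρ ^ n)⁻¹ * v = ρ ^ n := by
      have : (v * ρ ^ n * v)⁻¹ = v * (ρ ^ n)⁻¹ * v := by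
        rw [mul_inv_rev, mul_inv_rev, inv_of_sq c.vv, mul_assoc]
      rw [← this, h1, inv_inv]
    have h3 : v * s * v = s := by
      rw [(c.commv hs).eq, mul_assoc, c.vv, mul_one]
    calc v * (ρ ^ n * s * (ρ ^ n)⁻¹) * v
        = v * ρ ^ n * 1 * s * 1 * (ρ ^ n)⁻¹ * v := by group
      _ = v * ρ ^ n * (v * v) * s * (v * v) * (ρ ^ n)⁻¹ * v := by rw [c.vv]
      _ = (v * ρ ^ n * v) * (v * s * v) * (v * (ρ ^ n)⁻¹ * v) := by group
      _ = (ρ ^ n)⁻¹ * s * ρ ^ n := by rw [h1, h2, h3]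
  have hMρ' : ∀ n : ℕ, (ρ ^ n)⁻¹ * s * ρ ^ n ∈ M D d e := by
    intro n
    rw [← hvρ]; exact c.M_conj_v (hMρ n)
  have hMcρ : ∀ x ∈ M D d e, ρ * x * ρ⁻¹ ∈ M D d e := by
    intro x hx
    have h1 := c.M_conj_v (c.M_conj_e hx)
    have e1 : ρ * x * ρ⁻¹ = v * (e * x * e) * v := by
      rw [hρ, mul_inv_rev, inv_of_sq c.ee, inv_of_sq c.vv]; group
    rw [e1]; exact h1
  have hsM := c.E_sub_M hs
  -- the partial products
  have main : ∀ j : ℕ, ∃ P ∈ M D d e,
      (ρ * (s * cm v P) * ρ⁻¹) * ((ρ ^ j)⁻¹ * s * ρ ^ j) =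
        s * cm v P * (ρ ^ (j + 1) * s * (ρ ^ (j + 1))⁻¹) := by
    intro j
    induction j with
    | zero =>
      refine ⟨1, c.E_sub_M (one_mem _), ?_⟩
      have e2 : cm v (1 : G) = 1 := cm_of_comm c.vv (one_mul 1) (Commute.one_right v)
      rw [e2, mul_one, pow_zero, inv_one, one_mul, mul_one, zero_add, pow_one]
      exact c.M_comm (hMcρ s hsM) hsM
    | succ j ih =>
      obtain ⟨P, hP, ih⟩ := ih
      set X : G := ρ ^ (j + 1) * s * (ρ ^ (j + 1))⁻¹ with hX
      set Y : G := (ρ ^ (j + 1))⁻¹ * s * ρ ^ (j + 1) with hY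
      have hXM : X ∈ M D d e := hMρ _
      have hYM : Y ∈ M D d e := hMρ' _
      have hcP : cm v P ∈ M D d e := c.E_sub_M (c.cm_v_mem hP)
      have hcX : cm v X = X * Y := by
        unfold cm; rw [hvρ]
      have e3 : cm v (P * X) = cm v P * (X * Y) := by
        rw [cm_mul c.vv (c.M_sq hP) (c.M_comm hP hXM) (c.M_comm hcP hXM), hcX]
      refine ⟨P * X, c.M_mul hP hXM, ?_⟩
      set X' : G := ρ ^ (j + 1 + 1) * s * (ρ ^ (j + 1 + 1))⁻¹ with hX'
      set Y' : G := (ρ ^ j)⁻¹ * s * ρ ^ j with hY'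
      have hX'M : X' ∈ M D d e := hMρ _
      have hY'M : Y' ∈ M D d e := hMρ' _
      have e4 : ρ * X * ρ⁻¹ = X' := by
        rw [hX, hX', pow_succ' ρ (j + 1)]; group
      have e5 : ρ * Y * ρ⁻¹ = Y' := by
        rw [hY, hY', pow_succ ρ j, mul_inv_rev]
        calc ρ * (ρ⁻¹ * (ρ ^ j)⁻¹ * s * (ρ ^ j * ρ)) * ρ⁻¹ = (ρ ^ j)⁻¹ * s * ρ ^ j := by group
          _ = _ := rfl
      rw [e3]
      have hR : ρ * (s * cm v P) * ρ⁻¹ ∈ M D d e := hMcρ _ (c.M_mul hsM hcP)
      calc ρ * (s * (cm v P * (X * Y))) * ρ⁻¹ * Y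
          = (ρ * (s * cm v P) * ρ⁻¹) * (ρ * X * ρ⁻¹) * (ρ * Y * ρ⁻¹) * Y := by group
        _ = (ρ * (s * cm v P) * ρ⁻¹) * X' * Y' * Y := by rw [e4, e5]
        _ = (ρ * (s * cm v P) * ρ⁻¹) * (X' * Y') * Y := by group
        _ = (ρ * (s * cm v P) * ρ⁻¹) * (Y' * X') * Y := by rw [(c.M_comm hX'M hY'M).eq]
        _ = ((ρ * (s * cm v P) * ρ⁻¹) * Y') * X' * Y := by group
        _ = (s * cm v P * X) * (X' * Y) := by rw [ih]; group
        _ = (s * cm v P * X) * (Y * X') := by rw [(c.M_comm hX'M hYM).eq]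
        _ = s * (cm v P * (X * Y)) * X' := by group
  obtain ⟨P, hP, hPk⟩ := main k
  have hρk : ρ ^ (2 * k + 1) = 1 := by rw [← hk, pow_orderOf_eq_one]
  have e6 : ρ ^ (k + 1) = (ρ ^ k)⁻¹ := by
    rw [eq_inv_iff_mul_eq_one, ← pow_add, ← hρk]; congr 1; ring
  have e7 : ρ ^ (k + 1) * s * (ρ ^ (k + 1))⁻¹ = (ρ ^ k)⁻¹ * s * ρ ^ k := by
    rw [e6, inv_inv]
  rw [e7] at hPk
  have e8 : ρ * (s * cm v P) * ρ⁻¹ = s * cm v P := mul_right_cancel hPk
  have hcP : cm v P ∈ EG D d := c.cm_v_mem hP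
  have hRE : s * cm v P ∈ EG D d := mul_mem hs hcP
  have hRv : Commute v (s * cm v P) := c.commv hRE
  have hRρ : Commute ρ (s * cm v P) := by
    show ρ * (s * cm v P) = s * cm v P * ρ
    calc ρ * (s * cm v P) = (ρ * (s * cm v P) * ρ⁻¹) * ρ := by group
      _ = s * cm v P * ρ := by rw [e8]
  have hRe : Commute e (s * cm v P) := by
    have e9 : e = v * ρ := by rw [hρ, ← mul_assoc, c.vv, one_mul]
    rw [e9]; exact hRv.mul_left hRρ
  have hRD : v * (s * cm v P) ∈ D := by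
    rw [(c.comm hs hcP).eq]
    exact mul_cm_mem c.h c.hvD (c.M_sq hP) (c.M_comm hP hsM) (c.commv hs) hD
  have h1 := c.eq_one (c.sq hRE) hRv hRe hRD
  refine ⟨P, hP, ?_⟩
  calc s = s * (cm v P * cm v P) := by rw [c.sq hcP, mul_one]
    _ = (s * cm v P) * cm v P := by group
    _ = cm v P := by rw [h1, one_mul]

/-- The subgroup `V_v` of the `s ∈ ⟨E_d⟩` with `v s ∈ D`. -/
theorem mem_V_iff (c : Cfg D d v e) {s : G} :
    (s ∈ EG D d ∧ v * s ∈ D) ↔ ∃ x ∈ M D d e, s = cm v x := by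
  constructor
  · rintro ⟨h1, h2⟩; exact c.exists_cm h1 h2
  · rintro ⟨x, hx, rfl⟩
    exact ⟨c.cm_v_mem hx, mul_cm_mem' c.h c.hvD (c.M_sq hx)⟩

/-- `V_v` as a subgroup. -/
def V (c : Cfg D d v e) : Subgroup G where
  carrier := {s | s ∈ EG D d ∧ v * s ∈ D}
  mul_mem' := by
    rintro s t hs ht
    obtain ⟨x, hx, rfl⟩ := c.mem_V_iff.1 hs
    refine ⟨mul_mem hs.1 ht.1, ?_⟩
    exact mul_cm_mem c.h c.hvD (c.M_sq hx) (c.M_comm hx (c.E_sub_M ht.1)) (c.commv ht.1) ht.2
  one_mem' := ⟨one_mem _, by rw [mul_one]; exact c.hvD⟩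
  inv_mem' := by
    rintro s hs
    have e1 : s⁻¹ = s := inv_of_sq (c.sq hs.1)
    rw [e1]; exact hs

theorem mem_V (c : Cfg D d v e) {s : G} : s ∈ c.V ↔ s ∈ EG D d ∧ v * s ∈ D := Iff.rfl

/-- `v [f b, v] ∈ D`, `[f b, v] ∈ E_d` for `b ∈ E_d`. -/
theorem s_mem (c : Cfg D d v e) {b : G} (hb : b ∈ EC D d) :
    cm v (cm e b) ∈ EC D d ∧ cm v (cm e b) ∈ c.V := by
  obtain ⟨k1, k2, k3, k4⟩ := c.key hb
  have hn : ¬ Commute (cm e b) v := k4 v c.hvD c.hev
  have h1 : SimR D (cm v (cm e b)) d := c.deep.2.2 _ k2 (fun hh => hn hh.symm)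
  have h2 : cm v (cm e b) ∈ D := (WSet_comm c.h k2 c.deep.1 hn).1
  refine ⟨⟨h2, h1⟩, Subgroup.subset_closure ⟨h2, h1⟩, ?_⟩
  exact mul_cm_mem' c.h c.hvD (sq_of_mem c.h k1)

/-- An element of `V_v` commuting with `e` is trivial. -/
theorem V_eq_one (c : Cfg D d v e) {s : G} (hs : s ∈ c.V) (hse : Commute e s) : s = 1 :=
  c.eq_one (c.sq hs.1) (c.commv hs.1) hse hs.2

/-- Conjugation by powers of `u w` preserves `M`. -/
theorem M_conj_pow {M : Set G} {u w : G} (hu : u * u = 1) (hw : w * w = 1)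
    (hMu : ∀ x ∈ M, u * x * u ∈ M) (hMw : ∀ x ∈ M, w * x * w ∈ M) (n : ℕ) {x : G} (hx : x ∈ M) :
    (u * w) ^ n * x * ((u * w) ^ n)⁻¹ ∈ M := by
  induction n with
  | zero => simpa using hx
  | succ n ih =>
    have h1 := hMu _ (hMw _ ih)
    have e1 : (u * w) ^ (n + 1) * x * ((u * w) ^ (n + 1))⁻¹ =
        u * (w * ((u * w) ^ n * x * ((u * w) ^ n)⁻¹) * w) * u := by
      rw [pow_succ' (u * w) n, mul_inv_rev, mul_inv_rev, inv_of_sq hw, inv_of_sq hu]
      group
    rw [e1]; exact h1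

/-- Conjugation by `g` maps `V_v` onto `f⟨E_d⟩`. -/
theorem exists_g (c : Cfg D d v e) : ∃ g : G, g * v * g⁻¹ = e ∧
    (∀ x ∈ M D d e, g * x * g⁻¹ ∈ M D d e) ∧ (∀ x ∈ M D d e, g⁻¹ * x * g ∈ M D d e) := by
  obtain ⟨m, hm⟩ := Opp.exists_conj_pow c.vv c.ee (Opp.symm' c.h c.he c.hvD c.hev)
  refine ⟨(v * e) ^ m, hm, ?_, ?_⟩
  · intro x hx
    exact M_conj_pow c.vv c.ee (fun x hx => c.M_conj_v hx) (fun x hx => c.M_conj_e hx) m hx
  · intro x hx
    have h1 := M_conj_pow c.ee c.vv (fun x hx => c.M_conj_e hx) (fun x hx => c.M_conj_v hx) m hx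
    have e1 : ((v * e) ^ m)⁻¹ = (e * v) ^ m := by
      rw [← inv_pow, mul_inv_rev, inv_of_sq c.ee, inv_of_sq c.vv]
    have e2 : (v * e) ^ m = ((e * v) ^ m)⁻¹ := by rw [← e1, inv_inv]
    rw [e1, e2]
    exact h1

theorem surj_of_inj {T : Set G} {F : G → G} (hm : ∀ x ∈ T, F x ∈ T)
    (hi : ∀ x ∈ T, ∀ y ∈ T, F x = F y → x = y) : ∀ y ∈ T, ∃ x ∈ T, F x = y := by
  let F' : T → T := fun x => ⟨F x, hm x x.2⟩
  have hinj : Function.Injective F' := by
    intro x y hxy
    exact Subtype.ext (hi x x.2 y y.2 (congrArg Subtype.val hxy))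
  have hsur := Finite.surjective_of_injective hinj
  intro y hy
  obtain ⟨x, hx⟩ := hsur ⟨y, hy⟩
  exact ⟨x, x.2, congrArg Subtype.val hx⟩

/-- The pair theorem. -/
theorem pair (c : Cfg D d v e) : ∃ g : G, g * v * g⁻¹ = e ∧
    (∀ a ∈ EC D d, SimR D (cm e a) (g * d * g⁻¹)) ∧
    (∀ z ∈ D, SimR D z (g * d * g⁻¹) → e * z ∈ D → ∃ a ∈ EC D d, v * a ∈ D ∧ z = cm e a) ∧
    (∀ a ∈ EC D d, v * a ∈ D → ∃ z ∈ D, SimR D z (g * d * g⁻¹) ∧ e * z ∈ D ∧ a = cm v z) := by
  obtain ⟨g, hgv, hgM, hgM'⟩ := c.exists_g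
  -- conjugation by `g⁻¹` maps `f⟨E_d⟩` to `V_v`
  have hgv' : g⁻¹ * e * g = v := by rw [← hgv]; group
  have hback : ∀ a ∈ EG D d, g⁻¹ * cm e a * g ∈ c.V := by
    intro a ha
    have h1 := cm_conj g⁻¹ e a
    rw [inv_inv, hgv'] at h1
    rw [h1]
    exact c.mem_V_iff.2 ⟨_, hgM' _ (c.E_sub_M ha), rfl⟩
  have hVD : ∀ s ∈ c.V, s ∈ D → s ∈ EC D d := fun s hs hsD =>
    ⟨hsD, sim_of_mem_EG c.h c.hc c.hd hsD hs.1⟩
  set T : Set G := {b | b ∈ EC D d ∧ v * b ∈ D} with hTdef
  have hTV : ∀ b ∈ T, b ∈ c.V := fun b hb => ⟨Subgroup.subset_closure hb.1, hb.2⟩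
  have hinvD : ∀ x ∈ D, g⁻¹ * x * g ∈ D := by
    intro x hx
    have := c.h.conj_mem x hx g⁻¹
    rwa [inv_inv] at this
  have hbackT : ∀ a ∈ EC D d, g⁻¹ * cm e a * g ∈ T := by
    intro a ha
    have h1 := hback a (Subgroup.subset_closure ha)
    exact ⟨hVD _ h1 (hinvD _ (c.key ha).1), h1.2⟩
  have hfinj : ∀ x ∈ T, ∀ y ∈ T, cm e x = cm e y → x = y := by
    intro x hx y hy hxy
    have hxE := (hTV x hx).1
    have hyE := (hTV y hy).1
    have h1 : cm e (x * y) = 1 := by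
      rw [c.f_mul hxE hyE, hxy, (c.f_facts hyE).2.2.1]
    have h2 : Commute e (x * y) := comm_of_cm c.ee (c.sq (mul_mem hxE hyE)) h1
    have h3 := c.V_eq_one (mul_mem (hTV x hx) (hTV y hy)) h2
    calc x = x * (y * y) := by rw [c.sq hyE, mul_one]
      _ = (x * y) * y := by group
      _ = y := by rw [h3, one_mul]
  -- P1
  have hP1 : ∀ t ∈ T, ∃ a ∈ T, g⁻¹ * cm e a * g = t := by
    apply surj_of_inj (F := fun a => g⁻¹ * cm e a * g)
    · intro x hx; exact hbackT x hx.1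
    · intro x hx y hy hxy
      apply hfinj x hx y hy
      simpa using hxy
  -- the map `s`
  have hP3 : ∀ t ∈ T, ∃ b ∈ T, cm v (cm e b) = t := by
    apply surj_of_inj (F := fun b => cm v (cm e b))
    · intro x hx
      obtain ⟨h1, h2⟩ := c.s_mem hx.1
      exact ⟨h1, h2.2⟩
    · intro x hx y hy hxy
      have hxE := (hTV x hx).1
      have hyE := (hTV y hy).1
      have hxyE : x * y ∈ EG D d := mul_mem hxE hyE
      apply hfinj x hx y hy
      obtain ⟨x1, x2, x3, x4⟩ := c.f_facts hxE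
      obtain ⟨y1, y2, y3, y4⟩ := c.f_facts hyE
      have h1 : cm v (cm e x * cm e y) = cm v (cm e x) * cm v (cm e y) :=
        cm_mul c.vv x3 (c.f_comm hxE hyE) (y1 _ x4).symm
      have h2 : cm v (cm e (x * y)) = 1 := by
        rw [c.f_mul hxE hyE, h1, hxy, c.sq y4]
      have h3 := c.f_facts hxyE
      have h4 : Commute v (cm e (x * y)) := comm_of_cm c.vv h3.2.2.1 h2
      have h5 : e * cm e (x * y) ∈ D := mul_cm_mem' c.h c.he (c.sq hxyE)
      have h6 : cm e (x * y) = 1 := by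
        by_contra hne
        have hve : Opp v e := Opp.symm' c.h c.he c.hvD c.hev
        refine not_odd_mul_two c.h c.hvD h5 hve.2 ?_ h3.2.2.1 hne
          (h4.mul_left h3.2.1.symm) (by group)
        intro h1
        apply hve.1
        calc v = v * (e * e) := by rw [c.ee, mul_one]
          _ = (v * e) * e := by group
          _ = e := by rw [h1, one_mul]
      rw [c.f_mul hxE hyE] at h6
      calc cm e x = cm e x * (cm e y * cm e y) := by rw [y3, mul_one]
        _ = (cm e x * cm e y) * cm e y := by group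
        _ = cm e y := by rw [h6, one_mul]
  have hP2 : ∀ a ∈ EC D d, SimR D (cm e a) (g * d * g⁻¹) := by
    intro a ha
    have h1 := (hbackT a ha).1.2.conj c.h g
    have e1 : g * (g⁻¹ * cm e a * g) * g⁻¹ = cm e a := by group
    rwa [e1] at h1
  refine ⟨g, hgv, hP2, ?_, ?_⟩
  · intro z hz hsz hez
    have h1 : g⁻¹ * z * g ∈ T := by
      refine ⟨⟨hinvD z hz, ?_⟩, ?_⟩
      · rw [← simR_conj_iff c.h g]
        have e1 : g * (g⁻¹ * z * g) * g⁻¹ = z := by group
        rw [e1]; exact hsz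
      · have e1 : v * (g⁻¹ * z * g) = g⁻¹ * (e * z) * g := by rw [← hgv]; group
        rw [e1]; exact hinvD _ hez
    obtain ⟨a, ha, haz⟩ := hP1 _ h1
    refine ⟨a, ha.1, ha.2, ?_⟩
    have e2 : g * (g⁻¹ * cm e a * g) * g⁻¹ = g * (g⁻¹ * z * g) * g⁻¹ := by rw [haz]
    calc z = g * (g⁻¹ * z * g) * g⁻¹ := by group
      _ = g * (g⁻¹ * cm e a * g) * g⁻¹ := e2.symm
      _ = cm e a := by group
  · intro a ha hva
    obtain ⟨b, hb, hab⟩ := hP3 a ⟨ha, hva⟩
    exact ⟨cm e b, (c.key hb.1).1, hP2 b hb.1, mul_cm_mem' c.h c.he (sq_of_mem c.h hb.1.1),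
      hab.symm⟩

end Cfg

/-- A member `x` of `W_d` opposite to `e`, with a commutator outside the class of `d`, has no
product in `D` with a member of the class of `d`. -/
theorem bad_mem [Finite G] (h : IsRootInvolutionSet D) (hc : IsConnectedSet (OddAdj D) D)
    {d z e x : G} (hd : d ∈ D) (he : e ∈ D) (hzW : z ∈ WSet D d) (hze : Deep D z e)
    (hP1 : ∀ z' ∈ D, SimR D z' z → e * z' ∈ D → ∃ a ∈ D, SimR D a d ∧ z' = a * (e * a * e))
    (hP2 : ∀ a ∈ D, SimR D a d → SimR D (a * (e * a * e)) z)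
    (hW : ∀ a ∈ D, SimR D a d → a * (e * a * e) ∈ WSet D d)
    (hx : x ∈ WSet D d) (hex : Opp e x)
    (hxn : ∃ y ∈ WSet D d, ¬ Commute x y ∧ ¬ SimR D (y * (x * y * x)) d)
    {a : G} (ha : a ∈ D) (hsa : SimR D a d) : x * a ∉ D := by
  intro hxa
  have hzD := hzW.1
  have hxD := hx.1
  have hxx := sq_of_mem h hxD
  have haa := sq_of_mem h ha
  have hee := sq_of_mem h he
  have hxe : Opp x e := Opp.symm' h he hxD hex
  have c : Cfg D z e x := ⟨h, hc, hzD, hze, hxD, hxe, WSet_not_opp hx hzW⟩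
  obtain ⟨g', hg', -, P1, P3⟩ := c.pair
  have hbx : Deep D (g' * z * g'⁻¹) x := by
    have := deep_conj h hze g'
    rwa [hg'] at this
  set b : G := g' * z * g'⁻¹ with hb
  have hbD : b ∈ D := h.conj_mem z hzD g'
  have hz'W := hW a ha hsa
  obtain ⟨b', hb'D, hsb', hxb', hz'b'⟩ := P3 (a * (e * a * e)) ⟨hz'W.1, hP2 a ha hsa⟩
    (mul_cm_mem' h he haa)
  obtain ⟨z'', hz''EC, hez'', hb'z''⟩ := P1 b' hb'D hsb' hxb'
  have hz''D := hz''EC.1
  have hz''W : z'' ∈ WSet D d := by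
    obtain ⟨a', ha', hsa', hza'⟩ := hP1 z'' hz''D hz''EC.2 hez''
    rw [hza']; exact hW a' ha' hsa'
  unfold cm at hb'z'' hz'b'
  have hb'a : b' ≠ a := by
    rintro rfl
    obtain ⟨y, hy, hny, hnS⟩ := hxn
    have h1 : SimR D b d := hsb'.symm.trans hsa
    exact hnS ((hbx.2.2 y (WSet_of_sim h hc hbD hd h1 hy) hny).trans h1)
  have hbb := sq_of_mem h hb'D
  have hzz := sq_of_mem h hz''D
  have hnz : ¬ Commute z'' x := by
    intro hcom
    apply ne_one_of_mem h hb'D
    rw [hb'z'', ← hcom.eq, mul_assoc, hxx, mul_one, hzz]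
  have hb'W : b' ∈ WSet D d := by rw [hb'z'']; exact WSet_comm h hz''W hx hnz
  have c1 : Commute b' a := WSet_commute_sim h hc hd ha hsa hb'W
  have c2 : Commute x a := WSet_commute_sim h hc hd ha hsa hx
  have c3 : Commute x b' := WSet_commute_sim h hc hbD hb'D hsb' hbx.1
  have c4 : Commute (a * (e * a * e)) a := WSet_commute_sim h hc hd ha hsa hz'W
  have c5 : Commute z'' a := WSet_commute_sim h hc hd ha hsa hz''W
  have ht1 : b' * a ≠ 1 := by
    intro h1
    apply hb'a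
    calc b' = (b' * a) * a := by rw [mul_assoc, haa, mul_one]
      _ = a := by rw [h1, one_mul]
  have htt : (b' * a) * (b' * a) = 1 := by
    calc (b' * a) * (b' * a) = b' * (a * b') * a := by group
      _ = b' * (b' * a) * a := by rw [← c1.eq]
      _ = (b' * b') * (a * a) := by group
      _ = 1 := by rw [hbb, haa, one_mul]
  -- `t = b' a` commutes with `e`
  have e1 : e * b' * e = b' * (a * (e * a * e)) := by
    rw [hz'b', ← mul_assoc b' b', hbb, one_mul]
  have e2 : e * a * e = (a * (e * a * e)) * a := by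
    rw [c4.eq, ← mul_assoc a a, haa, one_mul]
  have hz's : (a * (e * a * e)) * (a * (e * a * e)) = 1 := sq_of_mem h hz'W.1
  have c6 : Commute (b' * a) e := by
    have e3 : e * (b' * a) * e = b' * a := by
      calc e * (b' * a) * e = e * b' * 1 * a * e := by group
        _ = e * b' * (e * e) * a * e := by rw [hee]
        _ = (e * b' * e) * (e * a * e) := by group
        _ = (b' * (a * (e * a * e))) * ((a * (e * a * e)) * a) := by rw [e1, ← e2]
        _ = b' * ((a * (e * a * e)) * (a * (e * a * e))) * a := by group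
        _ = b' * a := by rw [hz's, mul_one]
    show b' * a * e = e * (b' * a)
    calc b' * a * e = (e * (b' * a) * e) * e := by rw [e3]
      _ = e * (b' * a) * (e * e) := by group
      _ = e * (b' * a) := by rw [hee, mul_one]
  have c7 : Commute (b' * a) x := (c3.symm).mul_left c2.symm
  have hmem : (b' * a) * x ∈ D := by
    have h1 := conj_mem' h hxa hz''D
    have e4 : z'' * (x * a) * z'' = (b' * a) * x := by
      calc z'' * (x * a) * z'' = z'' * x * (a * z'') := by group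
        _ = z'' * x * (z'' * a) := by rw [c5.eq]
        _ = z'' * x * z'' * a := by group
        _ = z'' * (x * z'' * (x * x)) * a := by rw [hxx]; group
        _ = (z'' * (x * z'' * x)) * x * a := by group
        _ = b' * x * a := by rw [← hb'z'']
        _ = b' * (x * a) := by group
        _ = b' * (a * x) := by rw [c2.eq]
        _ = (b' * a) * x := by group
    rwa [e4] at h1
  refine not_odd_mul_two h hmem he (x := x * e) (t := b' * a) hxe.2 ?_ htt ht1 ?_ ?_
  · intro h1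
    apply hxe.1
    calc x = (x * e) * e := by rw [mul_assoc, hee, mul_one]
      _ = e := by rw [h1, one_mul]
  · exact (c7.symm).mul_left c6.symm
  · calc (b' * a) * x * e = x * (b' * a) * e := by rw [c7.eq]
      _ = x * ((b' * a) * e) := by group
      _ = x * (e * (b' * a)) := by rw [c6.eq]
      _ = x * e * (b' * a) := by group

/-- **The commutators of `W_d` lie in `E(d)`.** -/
theorem all_deep [Finite G] (h : IsRootInvolutionSet D) (hc : IsConnectedSet (OddAdj D) D)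
    {d : G} (hd : d ∈ D) :
    ∀ w ∈ WSet D d, ∀ y ∈ WSet D d, ¬ Commute w y → SimR D (y * (w * y * w)) d := by
  classical
  by_contra hcon
  push Not at hcon
  obtain ⟨w0, hw0, y0, hy0, hwy0, hns0⟩ := hcon
  set S : Set G := {w | w ∈ WSet D d ∧ ∃ y ∈ WSet D d, ¬ Commute w y ∧
    ¬ SimR D (y * (w * y * w)) d} with hS
  have hnil : Group.IsNilpotent (Subgroup.closure (WSet D d) : Subgroup G) :=
    (WSet_isPGroup h d).isNilpotent
  obtain ⟨w1, hw1S, hw1⟩ := exists_deepest (Δ := WSet D d) (S := S) (fun w hw => hw.1)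
    ⟨w0, hw0, y0, hy0, hwy0, hns0⟩ (fun h1 => ne_one_of_mem h h1.1.1 rfl) hnil
  have hw1W := hw1S.1
  have hw1D := hw1W.1
  have hww1 := sq_of_mem h hw1D
  have hD2 : Deep2 D d w1 := by
    refine ⟨hw1W, ?_⟩
    intro y hy hny x hx hnx
    by_contra hns
    apply hw1 y hy
    have hyy := sq_of_mem h hy.1
    have h4 := WSet_order_four h hw1W hy hny
    have e1 : ⁅w1, y⁆ = y * (w1 * y * w1) := by
      rw [commutatorElement_def, inv_of_sq hww1, inv_of_sq hyy,
        ← comm_symm hww1 hyy h4]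
      group
    rw [e1]
    refine ⟨?_, x, hx, hnx, hns⟩
    exact WSet_comm h hy hw1W (fun hh => hny hh.symm)
  obtain ⟨x0, hx0W, hnc0, hns⟩ := hw1S.2
  set v : G := x0 * (w1 * x0 * w1) with hv
  have hvW : v ∈ WSet D d := WSet_comm h hx0W hw1W (fun hh => hnc0 hh.symm)
  have hvD := hvW.1
  have hvv := sq_of_mem h hvD
  have hdeep : Deep D d v := ⟨hvW, hns, fun x hx hnx => hD2.2 x0 hx0W hnc0 x hx hnx⟩
  obtain ⟨e, he, hev, hed⟩ := exists_opp_not_opp h hc hvD hd hns
  have hee := sq_of_mem h he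
  -- adjust `x`
  obtain ⟨x, hxW, hnc1, hvx, hex⟩ : ∃ x ∈ WSet D d, ¬ Commute w1 x ∧ v = x * (w1 * x * w1) ∧
      Opp e x := by
    have hxx := sq_of_mem h hx0W.1
    have h4 := WSet_order_four h hx0W hw1W (fun hh => hnc0 hh.symm)
    have c1 : Commute x0 (w1 * x0 * w1) := commute_of_order_four hxx hww1 h4
    have e1 : x0 * v = w1 * x0 * w1 := by rw [hv, ← mul_assoc x0 x0, hxx, one_mul]
    have h5 : w1 * x0 * w1 ∈ WSet D d := WSet_conj_comm h hx0W hw1D hw1W.2.1
    rcases opp_or_opp_of_line h hx0W.1 hvD ((Commute.refl x0).mul_right c1)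
      (by rw [e1]; exact h5.1) he hev with h6 | h6
    · exact ⟨x0, hx0W, hnc0, hv, h6⟩
    · rw [e1] at h6
      refine ⟨w1 * x0 * w1, h5, ?_, ?_, h6⟩
      · intro hh
        apply hnc0
        have h7 := hh.eq
        show w1 * x0 = x0 * w1
        calc w1 * x0 = (w1 * x0) * (w1 * w1) := by rw [hww1, mul_one]
          _ = (w1 * x0 * w1) * w1 := by group
          _ = w1 * (w1 * x0 * w1) := by rw [h7]
          _ = (w1 * w1) * x0 * w1 := by group
          _ = x0 * w1 := by rw [hww1, one_mul]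
      · rw [hv, c1.eq]
        calc w1 * x0 * w1 * x0 = w1 * x0 * w1 * (1 * x0 * 1) := by group
          _ = w1 * x0 * w1 * ((w1 * w1) * x0 * (w1 * w1)) := by rw [hww1]
          _ = w1 * x0 * w1 * (w1 * (w1 * x0 * w1) * w1) := by group
  have hxD := hxW.1
  have hxx := sq_of_mem h hxD
  have hxw4 : orderOf (x * w1) = 4 := WSet_order_four h hxW hw1W (fun hh => hnc1 hh.symm)
  -- adjust `w1`
  obtain ⟨w, hwW, hwD2, hnc, hvxw, hew⟩ : ∃ w ∈ WSet D d, Deep2 D d w ∧ ¬ Commute w x ∧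
      v = x * (w * x * w) ∧ Opp e w := by
    have hv2 : v = w1 * (x * w1 * x) := by rw [hvx]; exact comm_symm hxx hww1 hxw4
    have c1 : Commute w1 (x * w1 * x) := by
      refine commute_of_order_four hww1 hxx ?_
      rw [orderOf_mul_comm' hww1 hxx]; exact hxw4
    have e1 : w1 * v = x * w1 * x := by rw [hv2, ← mul_assoc w1 w1, hww1, one_mul]
    have h5 : x * w1 * x ∈ WSet D d := WSet_conj_comm h hw1W hxD hxW.2.1
    rcases opp_or_opp_of_line h hw1D hvD (by rw [hv2]; exact (Commute.refl w1).mul_right c1)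
      (by rw [e1]; exact h5.1) he hev with h6 | h6
    · exact ⟨w1, hw1W, hD2, hnc1, hvx, h6⟩
    · rw [e1] at h6
      refine ⟨x * w1 * x, h5, ?_, ?_, ?_, h6⟩
      · have h7 := deep2_conj h hD2 x
        rw [inv_of_sq hxx, hxW.2.1.eq, mul_assoc d, hxx, mul_one] at h7
        exact h7
      · intro hh
        apply hnc1
        have h7 := hh.eq
        show w1 * x = x * w1
        calc w1 * x = (x * x) * (w1 * x) := by rw [hxx, one_mul]
          _ = x * (x * w1 * x) := by group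
          _ = (x * w1 * x) * x := by rw [h7]
          _ = x * w1 * (x * x) := by group
          _ = x * w1 := by rw [hxx, mul_one]
      · have e2 : (x * w1 * x) * x * (x * w1 * x) = x * w1 * x * w1 * x := by
          calc (x * w1 * x) * x * (x * w1 * x) = x * w1 * (x * x) * x * w1 * x := by group
            _ = _ := by rw [hxx, mul_one]
        rw [e2]
        calc v = w1 * (x * w1 * x) := hv2
          _ = (x * x) * (w1 * x * w1 * x) := by rw [hxx, one_mul]; group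
          _ = x * (x * w1 * x * w1 * x) := by group
  have hwD := hwW.1
  have hww := sq_of_mem h hwD
  have hxw4' : orderOf (x * w) = 4 := WSet_order_four h hxW hwW (fun hh => hnc hh.symm)
  have hvwx : v = w * (x * w * x) := by rw [hvxw]; exact comm_symm hxx hww hxw4'
  -- the classes attached to `e`
  have c : Cfg D d v e := ⟨h, hc, hd, hdeep, he, hev, hed⟩
  obtain ⟨g, hgv, gP2, gP1, -⟩ := c.pair
  have key := fun (a : G) (ha : a ∈ D) (hs : SimR D a d) => comm_class h hc hd hvW he hev hed ha hs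
  have hW : ∀ a ∈ D, SimR D a d → a * (e * a * e) ∈ WSet D d := fun a ha hs =>
    (key a ha hs).2.2.2.1
  obtain ⟨z, hzD, hzW, hzg, hza0⟩ : ∃ z ∈ D, z ∈ WSet D d ∧ SimR D z (g * d * g⁻¹) ∧
      z = d * (e * d * e) :=
    ⟨cm e d, (c.key (mem_EC_self hd)).1, (c.key (mem_EC_self hd)).2.1, gP2 d (mem_EC_self hd), rfl⟩
  have hze : Deep D z e := by
    have h1 := deep_conj h hdeep g
    rw [hgv] at h1
    have hgD : g * d * g⁻¹ ∈ D := h.conj_mem d hd g
    refine ⟨WSet_of_sim h hc hzD hgD hzg h1.1, fun hh => h1.2.1 (hh.trans hzg), ?_⟩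
    intro x hx hn
    exact (h1.2.2 x (WSet_of_sim h hc hgD hzD hzg.symm hx) hn).trans hzg.symm
  have hP1 : ∀ z' ∈ D, SimR D z' z → e * z' ∈ D →
      ∃ a ∈ D, SimR D a d ∧ z' = a * (e * a * e) := by
    intro z' hz' hsz hez
    obtain ⟨a, ha, -, haz⟩ := gP1 z' hz' (hsz.trans hzg) hez
    exact ⟨a, ha.1, ha.2, haz⟩
  have hP2 : ∀ a ∈ D, SimR D a d → SimR D (a * (e * a * e)) z := fun a ha hs =>
    (gP2 a ⟨ha, hs⟩).trans hzg.symm
  have hzz := sq_of_mem h hzD
  have nx : ∀ a ∈ D, SimR D a d → x * a ∉ D := fun a ha hsa =>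
    bad_mem h hc hd he hzW hze hP1 hP2 hW hxW hex
      ⟨w, hwW, fun hh => hnc hh.symm, by rw [← hvwx]; exact hns⟩ ha hsa
  have nw : ∀ a ∈ D, SimR D a d → w * a ∉ D := fun a ha hsa =>
    bad_mem h hc hd he hzW hze hP1 hP2 hW hwW hew
      ⟨x, hxW, hnc, by rw [← hvxw]; exact hns⟩ ha hsa
  have hnz : ∀ v' ∈ D, Opp e v' → ¬ Commute z v' := by
    intro v' hv' hev'
    rw [hza0]
    exact (key d hd (SimR.refl D d)).2.2.2.2.2 v' hv' hev'
  have nzx := hnz x hxD hex
  have nzw := hnz w hwD hew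
  have nzv := hnz v hvD hev
  have hzw4 : orderOf (z * w) = 4 := WSet_order_four h hzW hwW nzw
  have hzx4 : orderOf (z * x) = 4 := WSet_order_four h hzW hxW nzx
  have hzv4 : orderOf (z * v) = 4 := WSet_order_four h hzW hvW nzv
  -- `q = [w, z]` commutes with `x`
  set q : G := w * (z * w * z) with hq
  have hq2 : q = z * (w * z * w) := (comm_symm hzz hww hzw4).symm
  have hqW : q ∈ WSet D d := by rw [hq2]; exact WSet_comm h hzW hwW nzw
  have hqq := sq_of_mem h hqW.1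
  have hqx : Commute q x := by
    by_contra hn
    have h1 := hwD2.2 z hzW (fun hh => nzw hh.symm) x hxW (by rw [← hq2]; exact hn)
    rw [← hq2] at h1
    have h2 : x * (q * x * q) ∈ WSet D d := WSet_comm h hxW hqW (fun hh => hn hh.symm)
    refine nx _ h2.1 h1 ?_
    rw [← mul_assoc x x, hxx, one_mul]
    exact conj_mem' h hxD hqW.1
  -- `δ = [v, z]` is in the class of `d`
  set δ : G := v * (z * v * z) with hδ
  have hδ2 : δ = z * (v * z * v) := (comm_symm hzz hvv hzv4).symm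
  have hδW : δ ∈ WSet D d := by rw [hδ2]; exact WSet_comm h hzW hvW nzv
  have hδD := hδW.1
  have hδs : SimR D δ d := by
    have h1 := hdeep.2.2 z hzW (fun hh => nzv hh.symm)
    rw [hδ2]; exact h1
  have cδx : Commute x δ := WSet_commute_sim h hc hd hδD hδs hxW
  have cδv : Commute v δ := WSet_commute_sim h hc hd hδD hδs hvW
  have cδw : Commute w δ := WSet_commute_sim h hc hd hδD hδs hwW
  have cvx : Commute v x := by
    rw [hvxw]
    exact ((Commute.refl x).mul_right (commute_of_order_four hxx hww hxw4')).symm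
  have cvw : Commute v w := by
    rw [hvwx]
    have h4 : orderOf (w * x) = 4 := by rw [orderOf_mul_comm' hww hxx]; exact hxw4'
    exact ((Commute.refl w).mul_right (commute_of_order_four hww hxx h4)).symm
  have hid := hall_witt_inv hxx hww hzz hvv hvxw hvwx hq hδ hqx.eq cδx.symm.eq cvx.eq cvw.eq
    cδv.symm.eq
  set p : G := x * (z * x * z) with hp
  have hp2 : p = z * (x * z * x) := (comm_symm hzz hxx hzx4).symm
  rw [← hp2] at hid
  have hpD : p ∈ D := by rw [hp2]; exact (WSet_comm h hzW hxW nzx).1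
  refine nw δ hδD hδs ?_
  have e5 : w * δ = p * w * p := by
    rw [cδw.eq, ← hid]
    calc p * (w * p * w) * w = p * w * p * (w * w) := by group
      _ = p * w * p := by rw [hww, mul_one]
  rw [e5]
  exact conj_mem' h hwD hpD

/-- Members of `W_d` outside `E_d` are deep. -/
theorem deep_of_mem [Finite G] (h : IsRootInvolutionSet D) (hc : IsConnectedSet (OddAdj D) D)
    {d w : G} (hd : d ∈ D) (hw : w ∈ WSet D d) (hns : ¬ SimR D w d) : Deep D d w :=
  ⟨hw, hns, fun x hx hn => all_deep h hc hd w hw x hx hn⟩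

theorem exists_cfg [Finite G] (h : IsRootInvolutionSet D) (hc : IsConnectedSet (OddAdj D) D)
    {d w : G} (hd : d ∈ D) (hw : w ∈ WSet D d) (hns : ¬ SimR D w d) : ∃ e, Cfg D d w e := by
  obtain ⟨e, he, hew, hed⟩ := exists_opp_not_opp h hc hw.1 hd hns
  exact ⟨e, h, hc, hd, deep_of_mem h hc hd hw hns, he, hew, hed⟩

/-- **The subgroups `V_w`.** -/
theorem exists_V [Finite G] (h : IsRootInvolutionSet D) (hc : IsConnectedSet (OddAdj D) D)
    {d w : G} (hd : d ∈ D) (hw : w ∈ WSet D d) (hns : ¬ SimR D w d) :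
    ∃ V : Subgroup G, V ≤ EG D d ∧ (∀ s ∈ EG D d, w * s ∈ D ↔ s ∈ V) ∧ ∃ e ∈ V, e ∈ EC D d := by
  obtain ⟨e, c⟩ := exists_cfg h hc hd hw hns
  refine ⟨c.V, fun s hs => hs.1, fun s hs => ⟨fun h1 => ⟨hs, h1⟩, fun h1 => h1.2⟩, ?_⟩
  obtain ⟨h1, h2⟩ := c.s_mem (mem_EC_self hd)
  exact ⟨_, h2, h1⟩

end Cfsg.Agent.H736.Hole
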