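import Mathlib
import Cfsg.Agent.H736.RootV
import Cfsg.Agent.H733.RootNd4

/-!
# The classes `E_d ∪ {1}` are subgroups for non-degenerate classes of root involutions
-/

set_option autoImplicit false

namespace Cfsg.Agent.H736.Hole

open Cfsg Cfsg.Agent.H737

universe u

theorem eq_bot_of_pCore {G : Type*} [Group G] (hO : Cfsg.pCore 2 G = ⊥)
    (N : Subgroup G) (hN : N.Normal) (hp : IsPGroup 2 N) : N = ⊥ := by
  have h1 : N ≤ Cfsg.pCore 2 G := le_sSup ⟨hN, hp⟩
  rw [hO] at h1
  exact le_bot_iff.1 h1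

theorem sameCommutingClass_eq_EC {G : Type*} [Group G] [Finite G] {D : Set G}
    (h : IsRootInvolutionSet D) (hc : IsConnectedSet (OddAdj D) D) {d : G} (hd : d ∈ D) :
    Cfsg.sameCommutingClass D d = EC D d := by
  ext e
  constructor
  · rintro ⟨h1, h2⟩
    exact ⟨h1, ((sim_iff_commutingMembers h hc hd h1).1 h2).symm⟩
  · rintro ⟨h1, h2⟩
    exact ⟨h1, (sim_iff_commutingMembers h hc hd h1).2 h2.symm⟩

theorem sameCommutingSubgroup_eq_EG {G : Type*} [Group G] [Finite G] {D : Set G}
    (h : IsRootInvolutionSet D) (hc : IsConnectedSet (OddAdj D) D) {d : G} (hd : d ∈ D) :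
    Cfsg.sameCommutingSubgroup D d = EG D d := by
  unfold Cfsg.sameCommutingSubgroup EG
  rw [sameCommutingClass_eq_EC h hc hd]

/-- Nontrivial elements of `⟨E_d⟩` do not commute with members opposite to `d`. -/
theorem not_commute_EG {G : Type u} [Group G] [Finite G] {D : Set G}
    (hD : IsNondegenerateRootInvolutionSet D) (hcl : IsRootInvolutionClass D)
    (hZ : Subgroup.center G = ⊥) :
    ∀ d ∈ D, ∀ t ∈ EG D d, t ≠ 1 → ∀ x ∈ D, Opp x d → ¬ Commute t x := by
  intro d hd t ht hne x hx hxd hcom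
  have h := hD.1
  have hc : IsConnectedSet (OddAdj D) D :=
    Cfsg.Agent.H733.odd_connected hcl ⟨x, hx, d, hd, hxd⟩
  have htop := Cfsg.Agent.H733.closure_eq_top hD hcl hd hx hxd
  apply hne
  have hcen : t ∈ Subgroup.center G := by
    rw [Subgroup.mem_center_iff]
    intro g
    have hg : g ∈ Subgroup.closure (Cfsg.productPartners D d ∪ {x}) := by rw [htop]; trivial
    have h1 : Commute g t := by
      induction hg using Subgroup.closure_induction with
      | mem y hy =>
        rcases hy with hy | hy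
        · exact comm_EG h hc hd hy.1.1 hy.1.2.1 ht
        · rw [Set.mem_singleton_iff] at hy; rw [hy]; exact hcom.symm
      | one => exact Commute.one_left t
      | mul a b _ _ iha ihb => exact iha.mul_left ihb
      | inv a _ iha => exact iha.inv_left
    exact h1.eq
  rw [hZ, Subgroup.mem_bot] at hcen
  exact hcen

/-- **The product of two different members of one class lies in `D`.** -/
theorem mul_mem_of_sim {G : Type u} [Group G] [Finite G] {D : Set G}
    (hD : IsNondegenerateRootInvolutionSet D) (hcl : IsRootInvolutionClass D)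
    (hO : Cfsg.pCore 2 G = ⊥) (hZ : Subgroup.center G = ⊥) {a b : G} (ha : a ∈ D) (hb : b ∈ D)
    (hab : SimR D b a) (hne : a ≠ b) : a * b ∈ D := by
  have h := hD.1
  obtain ⟨p, hp, q, hq, hpq, hpqo⟩ := hD.2.2.1
  have hc : IsConnectedSet (OddAdj D) D :=
    Cfsg.Agent.H733.odd_connected hcl ⟨p, hp, q, hq, hpq, hpqo⟩
  exact mul_mem_class h hc (eq_bot_of_pCore hO) (not_commute_EG hD hcl hZ)
    (fun d hd w hw hns => exists_V h hc hd hw hns) ha hb hab hne

/-- **`⟨E_d⟩ = E_d ∪ {1}`.** -/
theorem mem_EG_iff {G : Type u} [Group G] [Finite G] {D : Set G}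
    (hD : IsNondegenerateRootInvolutionSet D) (hcl : IsRootInvolutionClass D)
    (hO : Cfsg.pCore 2 G = ⊥) (hZ : Subgroup.center G = ⊥) {d : G} (hd : d ∈ D) {x : G} :
    x ∈ EG D d ↔ x = 1 ∨ x ∈ EC D d := by
  have h := hD.1
  obtain ⟨p, hp, q, hq, hpq, hpqo⟩ := hD.2.2.1
  have hc : IsConnectedSet (OddAdj D) D :=
    Cfsg.Agent.H733.odd_connected hcl ⟨p, hp, q, hq, hpq, hpqo⟩
  constructor
  · intro hx
    induction hx using Subgroup.closure_induction with
    | mem y hy => exact Or.inr hy
    | one => exact Or.inl rfl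
    | mul a b ha hb iha ihb =>
      rcases iha with rfl | iha
      · rw [one_mul]; exact ihb
      · rcases ihb with rfl | ihb
        · rw [mul_one]; exact Or.inr iha
        · by_cases hab : a = b
          · left; rw [hab]; exact sq_of_mem h ihb.1
          · right
            have h1 : SimR D b a := ihb.2.trans iha.2.symm
            have h2 : a * b ∈ D := mul_mem_of_sim hD hcl hO hZ iha.1 ihb.1 h1 hab
            exact ⟨h2, sim_of_mem_EG h hc hd h2 (mul_mem ha hb)⟩
    | inv a ha iha =>
      rw [inv_of_sq (EG_sq h hc hd ha)]; exact iha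
  · rintro (rfl | hx)
    · exact one_mem _
    · exact Subgroup.subset_closure hx

/-- **Part (A) of the root involution theorem.** -/
theorem sameCommutingSubgroup_coe {G : Type u} [Group G] [Finite G] {D : Set G}
    (hD : IsNondegenerateRootInvolutionSet D) (hcl : IsRootInvolutionClass D)
    (hO : Cfsg.pCore 2 G = ⊥) (hZ : Subgroup.center G = ⊥) {d : G} (hd : d ∈ D) :
    (Cfsg.sameCommutingSubgroup D d : Set G) = Cfsg.sameCommutingClass D d ∪ {1} := by
  have h := hD.1
  obtain ⟨p, hp, q, hq, hpq, hpqo⟩ := hD.2.2.1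
  have hc : IsConnectedSet (OddAdj D) D :=
    Cfsg.Agent.H733.odd_connected hcl ⟨p, hp, q, hq, hpq, hpqo⟩
  rw [sameCommutingSubgroup_eq_EG h hc hd, sameCommutingClass_eq_EC h hc hd]
  ext x
  rw [SetLike.mem_coe, mem_EG_iff hD hcl hO hZ hd]
  simp only [Set.mem_union, Set.mem_singleton_iff]
  tauto

end Cfsg.Agent.H736.Hole
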