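import Mathlib
import Cfsg.Agent.H736.HoleEnd

/-!
# Root involutions, non-degenerate case: points and lines

Setting `ND D`: `D` a connected set of root involutions in which every `⟨E_d⟩ = EG D d` is
`E_d ∪ {1}` (`nd_of`: true for non-degenerate classes with `O₂(G) = Z(G) = 1`).

* `ND.mul_mem`: `w s ∈ D` for `w ∈ W_d` outside `E_d` and `s ∈ ⟨E_d⟩`; `ND.W_iff`: `W_d = X_d ∪ {d}`.
* `Col D a b` : `a`, `b` are different points of a line; `LS D a b = ⟨E_a⟩⟨E_b⟩`.
* `ND.LS_mem`, `ND.EG_le_LS`: the nontrivial elements of a line are in `D`, with their classes.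
* `Cfg` (near configuration): `d ∈ X_v`, `e` opposite to `v`, not to `d`; `z = [d, e]`.
-/

set_option autoImplicit false

namespace Cfsg.Agent.H736.Hole

open Cfsg Cfsg.Agent.H737

universe u

variable {G : Type*} [Group G] {D : Set G}

/-- The setting: connected set of root involutions, `⟨E_d⟩ = E_d ∪ {1}`. -/
structure ND (D : Set G) : Prop where
  h : IsRootInvolutionSet D
  hc : IsConnectedSet (OddAdj D) D
  hE : ∀ d ∈ D, ∀ x ∈ EG D d, x = 1 ∨ x ∈ EC D d

theorem nd_of {G : Type u} [Group G] [Finite G] {D : Set G}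
    (hD : IsNondegenerateRootInvolutionSet D) (hcl : IsRootInvolutionClass D)
    (hO : Cfsg.pCore 2 G = ⊥) (hZ : Subgroup.center G = ⊥) : ND D where
  h := hD.1
  hc := by
    obtain ⟨p, hp, q, hq, hpq, hpqo⟩ := hD.2.2.1
    exact Cfsg.Agent.H733.odd_connected hcl ⟨p, hp, q, hq, hpq, hpqo⟩
  hE := fun _ hd _ hx => (mem_EG_iff hD hcl hO hZ hd).1 hx

namespace ND

variable [Finite G]

theorem mem_EG_iff (N : ND D) {d x : G} (hd : d ∈ D) : x ∈ EG D d ↔ x = 1 ∨ x ∈ EC D d := by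
  refine ⟨N.hE d hd x, ?_⟩
  rintro (rfl | h1)
  · exact one_mem _
  · exact Subgroup.subset_closure h1

theorem mem_EC (N : ND D) {d x : G} (hd : d ∈ D) (hx : x ∈ EG D d) (hx1 : x ≠ 1) : x ∈ EC D d :=
  (N.hE d hd x hx).resolve_left hx1

theorem mem_D (N : ND D) {d x : G} (hd : d ∈ D) (hx : x ∈ EG D d) (hx1 : x ≠ 1) : x ∈ D :=
  (N.mem_EC hd hx hx1).1

theorem EG_eq (N : ND D) {d x : G} (hd : d ∈ D) (hx : x ∈ EG D d) (hx1 : x ≠ 1) :
    EG D x = EG D d := Hole.EG_eq (N.mem_EC hd hx hx1).2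

theorem self_mem (_N : ND D) {d : G} (hd : d ∈ D) : d ∈ EG D d :=
  Subgroup.subset_closure (mem_EC_self hd)

/-- Elements of `⟨E_d⟩` commuting with a member not commuting with `d` are trivial. -/
theorem eq_one_of_comm (N : ND D) {d x y : G} (hd : d ∈ D) (hx : x ∈ EG D d) (hy : y ∈ D)
    (hyd : ¬ Commute y d) (hxy : Commute y x) : x = 1 := by
  by_contra hne
  have h1 := N.mem_EC hd hx hne
  exact hyd (sim_centralize N.h N.hc hy h1.1 hd h1.2 hxy)

end ND

namespace Cfg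

variable [Finite G] {d v e : G}

theorem f_inj (c : Cfg D d v e) (N : ND D) {a b : G} (ha : a ∈ EG D d) (hb : b ∈ EG D d)
    (hab : cm e a = cm e b) : a = b := by
  have h1 : cm e (a * b) = 1 := by
    rw [c.f_mul ha hb, hab, (c.f_facts hb).2.2.1]
  have h2 : a * b = 1 := by
    by_contra hne
    exact ne_one_of_mem c.h (c.key (N.mem_EC c.hd (mul_mem ha hb) hne)).1 h1
  calc a = a * (b * b) := by rw [c.sq hb, mul_one]
    _ = (a * b) * b := by group
    _ = b := by rw [h2, one_mul]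

theorem s_mul (c : Cfg D d v e) {a b : G} (ha : a ∈ EG D d) (hb : b ∈ EG D d) :
    cm v (cm e (a * b)) = cm v (cm e a) * cm v (cm e b) := by
  obtain ⟨a1, a2, a3, a4⟩ := c.f_facts ha
  obtain ⟨b1, b2, b3, b4⟩ := c.f_facts hb
  rw [c.f_mul ha hb]
  exact cm_mul c.vv a3 (c.f_comm ha hb) (b1 _ a4).symm

theorem s_inj (c : Cfg D d v e) (N : ND D) {a b : G} (ha : a ∈ EG D d) (hb : b ∈ EG D d)
    (hab : cm v (cm e a) = cm v (cm e b)) : a = b := by
  have h1 : cm v (cm e (a * b)) = 1 := by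
    rw [c.s_mul ha hb, hab, c.sq (c.f_facts hb).2.2.2]
  have h2 : a * b = 1 := by
    by_contra hne
    exact ne_one_of_mem c.h (c.s_mem (N.mem_EC c.hd (mul_mem ha hb) hne)).1.1 h1
  calc a = a * (b * b) := by rw [c.sq hb, mul_one]
    _ = (a * b) * b := by group
    _ = b := by rw [h2, one_mul]

/-- Every element of `⟨E_d⟩` is of the form `[f b, v]`. -/
theorem s_surj (c : Cfg D d v e) (N : ND D) {s : G} (hs : s ∈ EG D d) :
    ∃ b ∈ EG D d, cm v (cm e b) = s :=
  surj_of_inj (T := (EG D d : Set G)) (F := fun b => cm v (cm e b))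
    (fun x hx => (c.f_facts hx).2.2.2) (fun x hx y hy hxy => c.s_inj N hx hy hxy) s hs

theorem mul_mem_D (c : Cfg D d v e) (N : ND D) {s : G} (hs : s ∈ EG D d) : v * s ∈ D := by
  obtain ⟨b, hb, rfl⟩ := c.s_surj N hs
  exact mul_cm_mem' c.h c.hvD (c.f_facts hb).2.2.1

end Cfg

namespace ND

variable [Finite G]

/-- `w s ∈ D` for `w ∈ W_d - E_d`, `s ∈ ⟨E_d⟩`. -/
theorem mul_mem (N : ND D) {d w s : G} (hd : d ∈ D) (hw : w ∈ WSet D d) (hns : ¬ SimR D w d)
    (hs : s ∈ EG D d) : w * s ∈ D := by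
  obtain ⟨e, c⟩ := exists_cfg N.h N.hc hd hw hns
  exact c.mul_mem_D N hs

/-- `w s ∈ D` for `w ∈ W_d`, `s ∈ ⟨E_d⟩` with `w s ≠ 1`. -/
theorem mul_mem' (N : ND D) {d w s : G} (hd : d ∈ D) (hw : w ∈ WSet D d)
    (hs : s ∈ EG D d) (hne : w * s ≠ 1) : w * s ∈ D := by
  by_cases hws : SimR D w d
  · exact N.mem_D hd (Subgroup.mul_mem _ (Subgroup.subset_closure ⟨hw.1, hws⟩) hs) hne
  · exact N.mul_mem hd hw hws hs

/-- `W_d = X_d ∪ {d}`. -/
theorem W_iff (N : ND D) {d w : G} (hd : d ∈ D) :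
    w ∈ WSet D d ↔ w ∈ D ∧ Commute w d ∧ (w = d ∨ w * d ∈ D) := by
  constructor
  · intro hw
    refine ⟨hw.1, hw.2.1, ?_⟩
    by_cases hwd : w = d
    · exact Or.inl hwd
    · right
      refine N.mul_mem' hd hw (N.self_mem hd) ?_
      intro h1
      apply hwd
      calc w = (w * d) * d := by rw [mul_assoc, sq_of_mem N.h hd, mul_one]
        _ = d := by rw [h1, one_mul]
  · rintro ⟨h1, h2, rfl | h3⟩
    · exact self_mem_WSet N.h h1
    · exact partner_mem_WSet N.h hd h1 h2 h3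

theorem W_symm (N : ND D) {d w : G} (hd : d ∈ D) (hw : w ∈ WSet D d) : d ∈ WSet D w := by
  obtain ⟨h1, h2, h3⟩ := (N.W_iff hd).1 hw
  refine (N.W_iff h1).2 ⟨hd, h2.symm, ?_⟩
  rcases h3 with rfl | h3
  · exact Or.inl rfl
  · right; rwa [h2.symm.eq]

/-- `[W_d, W_d] ⊆ ⟨E_d⟩`. -/
theorem comm_mem (N : ND D) {d w y : G} (hd : d ∈ D) (hw : w ∈ WSet D d) (hy : y ∈ WSet D d) :
    cm y w ∈ EG D d := by
  by_cases hyw : Commute y w
  · rw [cm_of_comm (sq_of_mem N.h hy.1) (sq_of_mem N.h hw.1) hyw]; exact one_mem _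
  · have h1 := all_deep N.h N.hc hd y hy w hw hyw
    exact Subgroup.subset_closure ⟨(WSet_comm N.h hw hy (fun hh => hyw hh.symm)).1, h1⟩

/-- `b` is on a line with `a`, and not in the class of `a`. -/
def _root_.Cfsg.Agent.H736.Hole.Col (D : Set G) (a b : G) : Prop :=
  a ∈ D ∧ b ∈ WSet D a ∧ ¬ SimR D b a

theorem _root_.Cfsg.Agent.H736.Hole.Col.left {a b : G} (c : Col D a b) : a ∈ D := c.1

theorem _root_.Cfsg.Agent.H736.Hole.Col.right {a b : G} (c : Col D a b) : b ∈ D := c.2.1.1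

theorem _root_.Cfsg.Agent.H736.Hole.Col.comm {a b : G} (c : Col D a b) : Commute b a := c.2.1.2.1

theorem col_symm (N : ND D) {a b : G} (c : Col D a b) : Col D b a :=
  ⟨c.right, N.W_symm c.1 c.2.1, fun hh => c.2.2 hh.symm⟩

theorem col_sim_right (N : ND D) {a b b' : G} (c : Col D a b) (hb' : b' ∈ EC D b) : Col D a b' := by
  refine ⟨c.1, ?_, fun hh => c.2.2 (hb'.2.symm.trans hh)⟩
  exact N.W_symm hb'.1 (WSet_of_sim N.h N.hc hb'.1 c.right hb'.2 (N.W_symm c.1 c.2.1))

theorem col_sim_left (N : ND D) {a b a' : G} (c : Col D a b) (ha' : a' ∈ EC D a) : Col D a' b :=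
  N.col_symm (N.col_sim_right (N.col_symm c) ha')

theorem col_of (N : ND D) {a b : G} (ha : a ∈ D) (hb : b ∈ D) (hab : Commute b a)
    (habD : b * a ∈ D) (hns : ¬ SimR D b a) : Col D a b :=
  ⟨ha, partner_mem_WSet N.h ha hb hab habD, hns⟩

theorem col_conj (N : ND D) {a b : G} (c : Col D a b) (g : G) :
    Col D (g * a * g⁻¹) (g * b * g⁻¹) :=
  ⟨N.h.conj_mem a c.1 g, WSet_conj N.h c.2.1 g, fun hh => c.2.2 ((simR_conj_iff N.h g _ _).1 hh)⟩

/-- The line of `a` and `b`. -/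
def _root_.Cfsg.Agent.H736.Hole.LS (D : Set G) (a b : G) : Subgroup G := EG D a ⊔ EG D b

theorem LS_comm' (N : ND D) {a b s t : G} (c : Col D a b) (hs : s ∈ EG D a) (ht : t ∈ EG D b) :
    Commute s t := by
  by_cases ht1 : t = 1
  · rw [ht1]; exact Commute.one_right s
  · have h1 := N.col_sim_right c (N.mem_EC c.right ht ht1)
    exact (comm_EG N.h N.hc c.left h1.right h1.comm hs).symm

theorem mem_LS (N : ND D) {a b x : G} (c : Col D a b) :
    x ∈ LS D a b ↔ ∃ s ∈ EG D a, ∃ t ∈ EG D b, x = s * t := by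
  constructor
  · intro hx
    unfold LS at hx
    rw [Subgroup.sup_eq_closure] at hx
    induction hx using Subgroup.closure_induction with
    | mem y hy =>
      rcases hy with hy | hy
      · exact ⟨y, hy, 1, one_mem _, (mul_one y).symm⟩
      · exact ⟨1, one_mem _, y, hy, (one_mul y).symm⟩
    | one => exact ⟨1, one_mem _, 1, one_mem _, (one_mul 1).symm⟩
    | mul y y' _ _ ihy ihy' =>
      obtain ⟨s, hs, t, ht, rfl⟩ := ihy
      obtain ⟨s', hs', t', ht', rfl⟩ := ihy'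
      refine ⟨s * s', Subgroup.mul_mem _ hs hs', t * t', Subgroup.mul_mem _ ht ht', ?_⟩
      have h1 := (N.LS_comm' c hs' ht).eq
      calc s * t * (s' * t') = s * (t * s') * t' := by group
        _ = s * (s' * t) * t' := by rw [h1]
        _ = _ := by group
    | inv y _ ihy =>
      obtain ⟨s, hs, t, ht, rfl⟩ := ihy
      refine ⟨s⁻¹, inv_mem hs, t⁻¹, inv_mem ht, ?_⟩
      rw [mul_inv_rev]
      exact ((N.LS_comm' c (inv_mem hs) (inv_mem ht)).eq).symm
  · rintro ⟨s, hs, t, ht, rfl⟩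
    exact Subgroup.mul_mem _ (Subgroup.mem_sup_left hs) (Subgroup.mem_sup_right ht)

theorem EG_inter (N : ND D) {a b x : G} (c : Col D a b) (ha : x ∈ EG D a) (hb : x ∈ EG D b) :
    x = 1 := by
  by_contra hne
  have h1 := (N.mem_EC c.left ha hne).2
  have h2 := (N.mem_EC c.right hb hne).2
  exact c.2.2 (h2.symm.trans h1)

theorem LS_comm (N : ND D) {a b x y : G} (c : Col D a b) (hx : x ∈ LS D a b)
    (hy : y ∈ LS D a b) : Commute x y := by
  obtain ⟨s, hs, t, ht, rfl⟩ := (N.mem_LS c).1 hx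
  obtain ⟨s', hs', t', ht', rfl⟩ := (N.mem_LS c).1 hy
  have c1 := EG_comm N.h N.hc c.left hs hs'
  have c2 := EG_comm N.h N.hc c.right ht ht'
  exact (c1.mul_right (N.LS_comm' c hs ht')).mul_left ((N.LS_comm' c hs' ht).symm.mul_right c2)

theorem LS_sq (N : ND D) {a b x : G} (c : Col D a b) (hx : x ∈ LS D a b) : x * x = 1 := by
  obtain ⟨s, hs, t, ht, rfl⟩ := (N.mem_LS c).1 hx
  have h1 := (N.LS_comm' c hs ht).eq
  calc s * t * (s * t) = s * (t * s) * t := by group
    _ = s * (s * t) * t := by rw [h1]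
    _ = (s * s) * (t * t) := by group
    _ = 1 := by rw [EG_sq N.h N.hc c.left hs, EG_sq N.h N.hc c.right ht, one_mul]

/-- The nontrivial elements of a line are members of `D`. -/
theorem LS_mem (N : ND D) {a b x : G} (c : Col D a b) (hx : x ∈ LS D a b) (hx1 : x ≠ 1) :
    x ∈ D := by
  obtain ⟨s, hs, t, ht, rfl⟩ := (N.mem_LS c).1 hx
  by_cases ht1 : t = 1
  · rw [ht1, mul_one] at hx1 ⊢
    exact N.mem_D c.left hs hx1
  · have h1 := N.col_sim_right c (N.mem_EC c.right ht ht1)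
    rw [(N.LS_comm' c hs ht).eq]
    exact N.mul_mem c.left h1.2.1 h1.2.2 hs

/-- `⟨E_{b a}⟩ ≤ ⟨E_a⟩⟨E_b⟩`. -/
theorem EG_le_LS_aux (N : ND D) {a b : G} (c : Col D a b) : EG D (b * a) ≤ LS D a b := by
  obtain ⟨e, q⟩ := exists_cfg N.h N.hc c.left c.2.1 c.2.2
  have haE := N.self_mem c.left
  obtain ⟨x, hx, hax⟩ := q.mem_V_iff.1 ⟨haE, N.mul_mem c.left c.2.1 c.2.2 haE⟩
  have hxx := q.M_sq hx
  have hbb := sq_of_mem N.h c.right
  set g : G := b * x with hg
  have e1 : b * a = g * b * g⁻¹ := by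
    rw [hg, mul_inv_rev, inv_of_sq hbb, inv_of_sq hxx, hax]
    unfold cm; group
  intro y hy
  have h1 : g⁻¹ * y * g ∈ EG D b := by
    have h2 := EG_conj N.h hy g⁻¹
    have e2 : g⁻¹ * (b * a) * g⁻¹⁻¹ = b := by rw [e1]; group
    rwa [e2, inv_inv] at h2
  set t : G := g⁻¹ * y * g with ht
  have htt := EG_sq N.h N.hc c.right h1
  have e3 : y = b * (x * t * x) * b := by
    calc y = g * t * g⁻¹ := by rw [ht]; group
      _ = b * (x * t * x) * b := by
        rw [hg, mul_inv_rev, inv_of_sq hbb, inv_of_sq hxx]; group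
  -- `x t x ∈ LS`
  have h3 : x * t * x ∈ LS D a b := by
    by_cases ht1 : t = 1
    · rw [ht1, mul_one, hxx]; exact one_mem _
    have hct := N.col_sim_right c (N.mem_EC c.right h1 ht1)
    obtain ⟨s, hs, s', hs', hxe⟩ := hx
    obtain ⟨k1, k2, k3, k4⟩ := q.f_facts hs'
    have hcs : Commute s t := N.LS_comm' c hs h1
    have hcx : x * t * x = (cm e s' * t * cm e s') := by
      rw [hxe]
      have hk := (k1 s hs).eq
      calc s * cm e s' * t * (s * cm e s') = s * cm e s' * (t * s) * cm e s' := by group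
        _ = s * cm e s' * (s * t) * cm e s' := by rw [hcs.eq]
        _ = s * (cm e s' * s) * t * cm e s' := by group
        _ = s * (s * cm e s') * t * cm e s' := by rw [hk]
        _ = (s * s) * (cm e s' * t * cm e s') := by group
        _ = _ := by rw [EG_sq N.h N.hc c.left hs, one_mul]
    rw [hcx, conj_eq_mul_cm htt]
    refine Subgroup.mul_mem _ (Subgroup.mem_sup_right h1) (Subgroup.mem_sup_left ?_)
    by_cases hs1 : s' = 1
    · rw [hs1, q.f_one]
      have : cm (1 : G) t = 1 := cm_of_comm (one_mul 1) htt (Commute.one_left t)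
      rw [this]; exact one_mem _
    · exact N.comm_mem c.left hct.2.1 (q.key (N.mem_EC c.left hs' hs1)).2.1
  have hb : b ∈ LS D a b := Subgroup.mem_sup_right (N.self_mem c.right)
  rw [e3]
  exact Subgroup.mul_mem _ (Subgroup.mul_mem _ hb h3) hb

/-- The class of a nontrivial element of a line lies in the line. -/
theorem EG_le_LS (N : ND D) {a b x : G} (c : Col D a b) (hx : x ∈ LS D a b) (hx1 : x ≠ 1) :
    EG D x ≤ LS D a b := by
  obtain ⟨s, hs, t, ht, rfl⟩ := (N.mem_LS c).1 hx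
  by_cases ht1 : t = 1
  · rw [ht1, mul_one] at hx1 ⊢
    rw [N.EG_eq c.left hs hx1]; exact le_sup_left
  by_cases hs1 : s = 1
  · rw [hs1, one_mul] at hx1 ⊢
    rw [N.EG_eq c.right ht hx1]; exact le_sup_right
  have h1 := N.mem_EC c.left hs hs1
  have h2 := N.mem_EC c.right ht ht1
  have h3 := N.EG_le_LS_aux (N.col_sim_left (N.col_sim_right c h2) h1)
  have h4 : LS D s t = LS D a b := by
    unfold LS; rw [Hole.EG_eq h1.2, Hole.EG_eq h2.2]
  rw [h4] at h3
  rwa [(N.LS_comm' c hs ht).eq]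

theorem LS_eq_of_sim (_N : ND D) {a b a' b' : G} (h1 : a' ∈ EC D a) (h2 : b' ∈ EC D b) :
    LS D a' b' = LS D a b := by
  unfold LS; rw [Hole.EG_eq h1.2, Hole.EG_eq h2.2]

theorem LS_swap (_N : ND D) (a b : G) : LS D a b = LS D b a := by
  unfold LS; rw [sup_comm]

theorem LS_conj (N : ND D) {a b x : G} (hx : x ∈ LS D a b) (g : G) :
    g * x * g⁻¹ ∈ LS D (g * a * g⁻¹) (g * b * g⁻¹) := by
  unfold LS at hx ⊢
  rw [Subgroup.sup_eq_closure] at hx
  induction hx using Subgroup.closure_induction with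
  | mem y hy =>
    rcases hy with hy | hy
    · exact Subgroup.mem_sup_left (EG_conj N.h hy g)
    · exact Subgroup.mem_sup_right (EG_conj N.h hy g)
  | one => simp
  | mul y y' _ _ ihy ihy' =>
    have e : g * (y * y') * g⁻¹ = (g * y * g⁻¹) * (g * y' * g⁻¹) := by group
    rw [e]; exact Subgroup.mul_mem _ ihy ihy'
  | inv y _ ihy =>
    have e : g * y⁻¹ * g⁻¹ = (g * y * g⁻¹)⁻¹ := by group
    rw [e]; exact inv_mem ihy

/-- The order of `⟨E_d⟩` does not depend on `d`. -/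
theorem card_EG (N : ND D) {a b : G} (ha : a ∈ D) (hb : b ∈ D) :
    Nat.card (EG D a) = Nat.card (EG D b) := by
  obtain ⟨g, hg⟩ := exists_conj_of_connected N.h N.hc ha hb
  refine Nat.card_congr ⟨fun x => ⟨g * x * g⁻¹, ?_⟩, fun x => ⟨g⁻¹ * x * g, ?_⟩, ?_, ?_⟩
  · have := EG_conj N.h x.2 g
    rwa [hg] at this
  · have h1 := EG_conj N.h x.2 g⁻¹
    have e : g⁻¹ * b * g⁻¹⁻¹ = a := by rw [← hg]; group
    rwa [e, inv_inv] at h1
  · intro x; apply Subtype.ext; simp only; group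
  · intro x; apply Subtype.ext; simp only; group

/-- A line is determined by two of its points. -/
theorem LS_eq (N : ND D) {a b a' b' : G} (c : Col D a b) (ha' : a' ∈ LS D a b)
    (hb' : b' ∈ LS D a b) (c' : Col D a' b') : LS D a' b' = LS D a b := by
  have h1 : LS D a' b' ≤ LS D a b :=
    sup_le (N.EG_le_LS c ha' (ne_one_of_mem N.h c'.left))
      (N.EG_le_LS c hb' (ne_one_of_mem N.h c'.right))
  have hcard : ∀ {a b : G}, Col D a b → Nat.card (LS D a b) = Nat.card (EG D a) * Nat.card (EG D b) := by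
    intro a b c
    rw [← Nat.card_prod]
    refine (Nat.card_congr (Equiv.ofBijective
      (fun p : EG D a × EG D b => (⟨p.1 * p.2, Subgroup.mul_mem _ (Subgroup.mem_sup_left p.1.2)
        (Subgroup.mem_sup_right p.2.2)⟩ : LS D a b)) ⟨?_, ?_⟩)).symm
    · rintro ⟨s, t⟩ ⟨s', t'⟩ hst
      have h1 : (s : G) * t = s' * t' := congrArg Subtype.val hst
      have h2 : (s' : G)⁻¹ * s = t' * (t : G)⁻¹ := by
        calc (s' : G)⁻¹ * s = (s' : G)⁻¹ * (s * t) * (t : G)⁻¹ := by group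
          _ = (s' : G)⁻¹ * (s' * t') * (t : G)⁻¹ := by rw [h1]
          _ = _ := by group
      have h3 : (s' : G)⁻¹ * s = 1 := by
        refine N.EG_inter c (Subgroup.mul_mem _ (inv_mem s'.2) s.2) ?_
        rw [h2]; exact Subgroup.mul_mem _ t'.2 (inv_mem t.2)
      have h4 : (s : G) = s' := by
        calc (s : G) = s' * ((s' : G)⁻¹ * s) := by group
          _ = s' := by rw [h3, mul_one]
      have h5 : (t : G) = t' := by rw [h4] at h1; exact mul_left_cancel h1
      exact Prod.ext (Subtype.ext h4) (Subtype.ext h5)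
    · rintro ⟨x, hx⟩
      obtain ⟨s, hs, t, ht, rfl⟩ := (N.mem_LS c).1 hx
      exact ⟨(⟨s, hs⟩, ⟨t, ht⟩), rfl⟩
  refine Subgroup.eq_of_le_of_card_ge h1 (le_of_eq ?_)
  rw [hcard c, hcard c', N.card_EG c.left c'.left, N.card_EG c.right c'.right]

/-- Two elements of a line are in one class or collinear. -/
theorem col_of_LS (N : ND D) {a b x y : G} (c : Col D a b) (hx : x ∈ LS D a b)
    (hy : y ∈ LS D a b) (hx1 : x ≠ 1) (hy1 : y ≠ 1) (hns : ¬ SimR D y x) : Col D x y := by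
  have hxD := N.LS_mem c hx hx1
  have hyD := N.LS_mem c hy hy1
  refine N.col_of hxD hyD (N.LS_comm c hy hx) ?_ hns
  refine N.LS_mem c (Subgroup.mul_mem _ hy hx) ?_
  intro h1
  apply hns
  have : y = x := by
    calc y = (y * x) * x := by rw [mul_assoc, N.LS_sq c hx, mul_one]
      _ = x := by rw [h1, one_mul]
  rw [this]; exact SimR.refl D x

end ND

end Cfsg.Agent.H736.Hole
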