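import Mathlib
import Cfsg.Agent.H736.Lines

/-!
# Root involutions: near pairs

`Path D v d z e`: points `v - d - z - e` (consecutive ones collinear) with `e` opposite to `v`.  The
group `⟨E(v), E(e)⟩` normalises the line `M = E(d) E(z)`; the elements of `E(v)` act as shears with axis
`E(d)`, those of `E(e)` as shears with axis `E(z)`.
-/

set_option autoImplicit false

namespace Cfsg.Agent.H736.Hole

open Cfsg Cfsg.Agent.H737

variable {G : Type*} [Group G] {D : Set G}

/-- `v - d - z - e` is a path of points with opposite ends. -/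
structure Path (D : Set G) (v d z e : G) : Prop where
  vd : Col D d v
  dz : Col D d z
  ze : Col D z e
  opp : Opp e v

namespace Path

variable {v d z e : G}

theorem hv (p : Path D v d z e) : v ∈ D := p.vd.2.1.1
theorem hd (p : Path D v d z e) : d ∈ D := p.dz.1
theorem hz (p : Path D v d z e) : z ∈ D := p.dz.2.1.1
theorem he (p : Path D v d z e) : e ∈ D := p.ze.2.1.1

variable [Finite G]

theorem symm (p : Path D v d z e) (N : ND D) : Path D e z d v :=
  ⟨p.ze, N.col_symm p.dz, p.vd, Opp.symm' N.h p.he p.hv p.opp⟩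

theorem sim (p : Path D v d z e) (N : ND D) {v' d' z' e' : G} (hv' : v' ∈ EC D v)
    (hd' : d' ∈ EC D d) (hz' : z' ∈ EC D z) (he' : e' ∈ EC D e) : Path D v' d' z' e' := by
  refine ⟨N.col_sim_left (N.col_sim_right p.vd hv') hd', N.col_sim_left (N.col_sim_right p.dz hz') hd',
    N.col_sim_left (N.col_sim_right p.ze he') hz', ?_⟩
  have h1 : Opp e v' := (hv'.2 e p.he).2 p.opp
  have h2 : Opp v' e := Opp.symm' N.h p.he hv'.1 h1
  exact Opp.symm' N.h hv'.1 he'.1 ((he'.2 v' hv'.1).2 h2)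

theorem conj (p : Path D v d z e) (N : ND D) (g : G) :
    Path D (g * v * g⁻¹) (g * d * g⁻¹) (g * z * g⁻¹) (g * e * g⁻¹) :=
  ⟨N.col_conj p.vd g, N.col_conj p.dz g, N.col_conj p.ze g, (opp_conj g e v).2 p.opp⟩

theorem ncv (p : Path D v d z e) (N : ND D) : ¬ Commute v z := fun hh =>
  p.ze.2.1.2.2 v p.hv hh (Opp.symm' N.h p.he p.hv p.opp)

theorem nce (p : Path D v d z e) (N : ND D) : ¬ Commute e d := (p.symm N).ncv N

theorem cfg (p : Path D v d z e) (N : ND D) : Cfg D d v e :=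
  ⟨N.h, N.hc, p.hd, deep_of_mem N.h N.hc p.hd p.vd.2.1 p.vd.2.2, p.he, p.opp,
    WSet_not_opp p.ze.2.1 (N.W_symm p.hd p.dz.2.1)⟩

/-- `[s, e] ∈ E(z)` for `s ∈ E(d)`. -/
theorem f_mem (p : Path D v d z e) (N : ND D) {s : G} (hs : s ∈ EG D d) : cm e s ∈ EG D z := by
  by_cases hs1 : s = 1
  · rw [hs1, (p.cfg N).f_one]; exact one_mem _
  · have h1 := N.col_sim_left p.dz (N.mem_EC p.hd hs hs1)
    exact N.comm_mem p.hz (N.W_symm h1.1 h1.2.1) p.ze.2.1

/-- `[t, v] ∈ E(d)` for `t ∈ E(z)`. -/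
theorem g_mem (p : Path D v d z e) (N : ND D) {t : G} (ht : t ∈ EG D z) : cm v t ∈ EG D d :=
  (p.symm N).f_mem N ht

theorem f_surj (p : Path D v d z e) (N : ND D) {t : G} (ht : t ∈ EG D z) :
    ∃ s ∈ EG D d, cm e s = t := by
  let F : EG D d → EG D z := fun s => ⟨cm e s, p.f_mem N s.2⟩
  have hinj : Function.Injective F := fun a b hab =>
    Subtype.ext ((p.cfg N).f_inj N a.2 b.2 (congrArg Subtype.val hab))
  have hb : Function.Bijective F :=
    (Nat.bijective_iff_injective_and_card F).2 ⟨hinj, N.card_EG p.hd p.hz⟩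
  obtain ⟨s, hs⟩ := hb.2 ⟨t, ht⟩
  exact ⟨s, s.2, congrArg Subtype.val hs⟩

theorem mem_M_iff (p : Path D v d z e) (N : ND D) {x : G} : x ∈ Cfg.M D d e ↔ x ∈ LS D d z := by
  rw [N.mem_LS p.dz]
  constructor
  · rintro ⟨a, ha, b, hb, rfl⟩
    exact ⟨a, ha, _, p.f_mem N hb, rfl⟩
  · rintro ⟨a, ha, t, ht, rfl⟩
    obtain ⟨b, hb, rfl⟩ := p.f_surj N ht
    exact ⟨a, ha, b, hb, rfl⟩

theorem conj_v (p : Path D v d z e) (N : ND D) {x : G} (hx : x ∈ LS D d z) :
    v * x * v ∈ LS D d z :=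
  (p.mem_M_iff N).1 ((p.cfg N).M_conj_v ((p.mem_M_iff N).2 hx))

theorem conj_e (p : Path D v d z e) (N : ND D) {x : G} (hx : x ∈ LS D d z) :
    e * x * e ∈ LS D d z :=
  (p.mem_M_iff N).1 ((p.cfg N).M_conj_e ((p.mem_M_iff N).2 hx))

/-- `E(v)` normalises the line. -/
theorem conj_EGv (p : Path D v d z e) (N : ND D) {x y : G} (hx : x ∈ LS D d z) (hy : y ∈ EG D v) :
    y * x * y⁻¹ ∈ LS D d z := by
  by_cases hy1 : y = 1
  · rw [hy1]; simpa using hx
  · have h1 := N.mem_EC p.hv hy hy1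
    rw [inv_of_sq (EG_sq N.h N.hc p.hv hy)]
    exact (p.sim N h1 (mem_EC_self p.hd) (mem_EC_self p.hz) (mem_EC_self p.he)).conj_v N hx

theorem conj_EGe (p : Path D v d z e) (N : ND D) {x y : G} (hx : x ∈ LS D d z) (hy : y ∈ EG D e) :
    y * x * y⁻¹ ∈ LS D d z := by
  rw [N.LS_swap] at hx ⊢
  exact (p.symm N).conj_EGv N hx hy

/-- The group `⟨E(v), E(e)⟩`. -/
def _root_.Cfsg.Agent.H736.Hole.YG (D : Set G) (v e : G) : Subgroup G := EG D v ⊔ EG D e

theorem conj_Y (p : Path D v d z e) (N : ND D) {y : G} (hy : y ∈ YG D v e) :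
    ∀ x ∈ LS D d z, y * x * y⁻¹ ∈ LS D d z := by
  unfold YG at hy
  rw [Subgroup.sup_eq_closure] at hy
  induction hy using Subgroup.closure_induction with
  | mem y hy =>
    intro x hx
    rcases hy with hy | hy
    · exact p.conj_EGv N hx hy
    · exact p.conj_EGe N hx hy
  | one => intro x hx; simpa using hx
  | mul y y' _ _ ihy ihy' =>
    intro x hx
    have e1 : y * y' * x * (y * y')⁻¹ = y * (y' * x * y'⁻¹) * y⁻¹ := by group
    rw [e1]; exact ihy _ (ihy' x hx)
  | inv y _ ihy =>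
    intro x hx
    have hinj : Set.InjOn (fun x => y * x * y⁻¹) (LS D d z : Set G) := by
      intro a _ b _ hab; simpa using hab
    obtain ⟨x', hx', hxx'⟩ := Cfg.surj_of_inj (T := (LS D d z : Set G))
      (F := fun x => y * x * y⁻¹) (fun x hx => ihy x hx) (fun a ha b hb hab => hinj ha hb hab) x hx
    have e1 : y⁻¹ * x * y⁻¹⁻¹ = x' := by rw [← hxx']; group
    rw [e1]; exact hx'

/-- `C_M(v) = E(d)`. -/
theorem comm_v_iff (p : Path D v d z e) (N : ND D) {x : G} (hx : x ∈ LS D d z) :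
    Commute v x ↔ x ∈ EG D d := by
  constructor
  · intro hvx
    obtain ⟨s, hs, t, ht, rfl⟩ := (N.mem_LS p.dz).1 hx
    have hvs : Commute v s := (p.cfg N).commv hs
    have hvt : Commute v t := by
      have e1 : t = s⁻¹ * (s * t) := by group
      rw [e1]; exact hvs.inv_right.mul_right hvx
    have ht1 := N.eq_one_of_comm p.hz ht p.hv (p.ncv N) hvt
    rw [ht1, mul_one]; exact hs
  · intro hxd; exact (p.cfg N).commv hxd

theorem comm_e_iff (p : Path D v d z e) (N : ND D) {x : G} (hx : x ∈ LS D d z) :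
    Commute e x ↔ x ∈ EG D z := (p.symm N).comm_v_iff N (by rwa [N.LS_swap])

/-- Same for all nontrivial elements of `E(v)`. -/
theorem comm_iff (p : Path D v d z e) (N : ND D) {y x : G} (hy : y ∈ EG D v) (hy1 : y ≠ 1)
    (hx : x ∈ LS D d z) : Commute y x ↔ x ∈ EG D d :=
  (p.sim N (N.mem_EC p.hv hy hy1) (mem_EC_self p.hd) (mem_EC_self p.hz)
    (mem_EC_self p.he)).comm_v_iff N hx

/-- `[x, y] ∈ E(d)` for `x ∈ M`, `y ∈ E(v)`. -/
theorem cm_mem (p : Path D v d z e) (N : ND D) {y x : G} (hy : y ∈ EG D v)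
    (hx : x ∈ LS D d z) : cm y x ∈ EG D d := by
  by_cases hy1 : y = 1
  · rw [hy1, cm_of_comm (one_mul 1) (N.LS_sq p.dz hx) (Commute.one_left x)]; exact one_mem _
  have q := p.sim N (N.mem_EC p.hv hy hy1) (mem_EC_self p.hd) (mem_EC_self p.hz)
    (mem_EC_self p.he)
  exact (q.cfg N).cm_v_mem ((q.mem_M_iff N).2 hx)

theorem cm_mul_right (p : Path D v d z e) (N : ND D) {y x x' : G} (hy : y ∈ EG D v)
    (hx : x ∈ LS D d z) (hx' : x' ∈ LS D d z) : cm y (x * x') = cm y x * cm y x' :=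
  cm_mul (EG_sq N.h N.hc p.hv hy) (N.LS_sq p.dz hx) (N.LS_comm p.dz hx hx')
    (N.LS_comm p.dz (Subgroup.mem_sup_left (p.cm_mem N hy hx)) hx')

theorem cm_mul_left (p : Path D v d z e) (N : ND D) {y y' x : G} (hy : y ∈ EG D v)
    (hy' : y' ∈ EG D v) (hx : x ∈ LS D d z) : cm (y * y') x = cm y x * cm y' x := by
  have hyy := (EG_comm N.h N.hc p.hv hy hy').eq
  have hxx := N.LS_sq p.dz hx
  have h1 := p.cm_mem N hy' hx
  have h2 : Commute y (cm y' x) := by
    by_cases hy1 : y = 1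
    · rw [hy1]; exact Commute.one_left _
    · exact (p.comm_iff N hy hy1 (Subgroup.mem_sup_left h1)).2 h1
  have hy2 := EG_sq N.h N.hc p.hv hy
  unfold cm at h2 ⊢
  calc x * (y * y' * x * (y * y')) = x * (y * y' * x * (y' * y)) := by rw [hyy]
    _ = x * (y * (x * x) * (y' * x * y') * y) := by rw [hxx]; group
    _ = x * (y * x * (x * (y' * x * y')) * y) := by group
    _ = x * (y * x * ((x * (y' * x * y')) * y)) := by group
    _ = x * (y * x * (y * (x * (y' * x * y')))) := by rw [← h2.eq]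
    _ = x * (y * x * y) * (x * (y' * x * y')) := by group

/-- For `x ∈ M - E(d)` the elements `[x, y]`, `y ∈ E(v)`, are all elements of `E(d)`, each once. -/
theorem cm_bij (p : Path D v d z e) (N : ND D) {x : G} (hx : x ∈ LS D d z) (hxd : x ∉ EG D d)
    {s : G} (hs : s ∈ EG D d) : ∃ y ∈ EG D v, cm y x = s := by
  let F : EG D v → EG D d := fun y => ⟨cm y x, p.cm_mem N y.2 hx⟩
  have hinj : Function.Injective F := by
    intro a b hab
    have h1 : cm (a : G) x = cm (b : G) x := congrArg Subtype.val hab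
    have h2 : cm ((a : G) * b) x = 1 := by
      rw [p.cm_mul_left N a.2 b.2 hx, h1, EG_sq N.h N.hc p.hd (p.cm_mem N b.2 hx)]
    have h3 : Commute ((a : G) * b) x :=
      comm_of_cm (EG_sq N.h N.hc p.hv (Subgroup.mul_mem _ a.2 b.2)) (N.LS_sq p.dz hx) h2
    have h4 : (a : G) * b = 1 := by
      by_contra hne
      exact hxd ((p.comm_iff N (Subgroup.mul_mem _ a.2 b.2) hne hx).1 h3)
    apply Subtype.ext
    calc (a : G) = a * (b * b) := by rw [EG_sq N.h N.hc p.hv b.2, mul_one]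
      _ = (a * b) * b := by group
      _ = b := by rw [h4, one_mul]
  have hb : Function.Bijective F :=
    (Nat.bijective_iff_injective_and_card F).2 ⟨hinj, N.card_EG p.hv p.hd⟩
  obtain ⟨y, hy⟩ := hb.2 ⟨s, hs⟩
  exact ⟨y, y.2, congrArg Subtype.val hy⟩

/-- `E(v)` is transitive on the points of `M` different from `E(d)`. -/
theorem exists_move (p : Path D v d z e) (N : ND D) {x : G} (hx : x ∈ LS D d z)
    (hxd : x ∉ EG D d) : ∃ y ∈ EG D v, y * x * y ∈ EG D z := by
  obtain ⟨s, hs, t, ht, hst⟩ := (N.mem_LS p.dz).1 hx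
  obtain ⟨y, hy, hyx⟩ := p.cm_bij N hx hxd hs
  refine ⟨y, hy, ?_⟩
  rw [conj_eq_mul_cm (N.LS_sq p.dz hx), hyx, hst, (N.LS_comm' p.dz hs ht).eq, mul_assoc,
    EG_sq N.h N.hc p.hd hs, mul_one]
  exact ht

/-- Some element of `E(v)` has product of order three with `e`. -/
theorem exists_three (p : Path D v d z e) (N : ND D) : ∃ y ∈ EC D v, (y * e) ^ 3 = 1 := by
  have c := p.cfg N
  -- choose `y` with `[z', y] = d`, where `z' = [d, e]`
  have hdE := N.self_mem p.hd
  have hz' := p.f_mem N hdE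
  set z' : G := cm e d with hz'def
  have hdd := sq_of_mem N.h p.hd
  have hee := sq_of_mem N.h p.he
  have hz'1 : z' ≠ 1 := fun h1 => p.nce N (comm_of_cm hee hdd h1)
  have hz'L : z' ∈ LS D d z := Subgroup.mem_sup_right hz'
  have hz'd : z' ∉ EG D d := fun h1 => hz'1 (N.EG_inter p.dz h1 hz')
  obtain ⟨y, hy, hyz⟩ := p.cm_bij N hz'L hz'd hdE
  have hy1 : y ≠ 1 := by
    rintro rfl
    rw [cm_of_comm (one_mul 1) (N.LS_sq p.dz hz'L) (Commute.one_left z')] at hyz
    exact ne_one_of_mem N.h p.hd hyz.symm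
  have hyC := N.mem_EC p.hv hy hy1
  have hyD := hyC.1
  have hyy := sq_of_mem N.h hyD
  refine ⟨y, hyC, ?_⟩
  have hyd : Commute y d := (p.comm_iff N hy hy1 (Subgroup.mem_sup_left hdE)).2 hdE
  have hez : Commute e z' := (p.comm_e_iff N hz'L).2 hz'
  -- `u = (y e)^3` commutes with `d`
  have a1 : e * d * e = d * z' := conj_eq_mul_cm hdd
  have a2 : e * z' * e = z' := by rw [hez.eq, mul_assoc, hee, mul_one]
  have a3 : y * d * y = d := by rw [hyd.eq, mul_assoc, hyy, mul_one]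
  have a4 : y * z' * y = z' * d := by
    rw [conj_eq_mul_cm (N.LS_sq p.dz hz'L), hyz]
  have hdz : Commute d z' := N.LS_comm p.dz (Subgroup.mem_sup_left hdE) hz'L
  have hz'z' := N.LS_sq p.dz hz'L
  set u : G := (y * e) ^ 3 with hu
  have hud : Commute u d := by
    have b1 : (y * e) * d * (y * e)⁻¹ = z' := by
      rw [mul_inv_rev, inv_of_sq hyy, inv_of_sq hee]
      calc y * e * d * (e * y) = y * (e * d * e) * y := by group
        _ = y * (d * z') * y := by rw [a1]
        _ = y * d * (y * y) * z' * y := by rw [hyy]; group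
        _ = (y * d * y) * (y * z' * y) := by group
        _ = d * (z' * d) := by rw [a3, a4]
        _ = d * (d * z') := by rw [hdz.eq]
        _ = z' := by rw [← mul_assoc, hdd, one_mul]
    have b2 : (y * e) * z' * (y * e)⁻¹ = z' * d := by
      rw [mul_inv_rev, inv_of_sq hyy, inv_of_sq hee]
      calc y * e * z' * (e * y) = y * (e * z' * e) * y := by group
        _ = z' * d := by rw [a2, a4]
    have b3 : u * d * u⁻¹ = d := by
      calc u * d * u⁻¹ = (y * e) * ((y * e) * ((y * e) * d * (y * e)⁻¹) * (y * e)⁻¹) * (y * e)⁻¹ := by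
            rw [hu, pow_succ, pow_two]; group
        _ = (y * e) * (z' * d) * (y * e)⁻¹ := by rw [b1, b2]
        _ = ((y * e) * z' * (y * e)⁻¹) * ((y * e) * d * (y * e)⁻¹) := by group
        _ = (z' * d) * z' := by rw [b1, b2]
        _ = d * (z' * z') := by rw [← hdz.eq]; group
        _ = d := by rw [hz'z', mul_one]
    show u * d = d * u
    calc u * d = (u * d * u⁻¹) * u := by group
      _ = d * u := by rw [b3]
  -- `y u` is a member of `D` commuting with `d`
  have hyv : y * u * y = u⁻¹ := by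
    have h1 : y * (y * e) * y = (y * e)⁻¹ := by
      rw [mul_inv_rev, inv_of_sq hyy, inv_of_sq hee, ← mul_assoc, hyy, one_mul]
    have h2 : y * u * y⁻¹ = (y * (y * e) * y⁻¹) ^ 3 := by rw [hu]; exact conj_pow.symm
    rw [inv_of_sq hyy, h1, inv_pow] at h2
    exact h2
  have hodd : Odd (orderOf u) := by
    have h1 : Opp y e := Opp.symm' N.h p.he hyD ((hyC.2 e p.he).2 p.opp)
    exact h1.2.of_dvd_nat (orderOf_pow_dvd 3)
  have hyuD : y * u ∈ D := by
    obtain ⟨k, hk⟩ := exists_pow_sq hodd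
    have h3 : (u ^ k)⁻¹ * y * u ^ k = y * u := by
      have h4 : y * (u ^ k) * y = (u ^ k)⁻¹ := by
        have : y * u ^ k * y⁻¹ = (y * u * y⁻¹) ^ k := (conj_pow).symm
        rw [inv_of_sq hyy, hyv, inv_pow] at this
        exact this
      calc (u ^ k)⁻¹ * y * u ^ k = (y * u ^ k * y) * y * u ^ k := by rw [h4]
        _ = y * u ^ k * (y * y) * u ^ k := by group
        _ = y * (u ^ k * u ^ k) := by rw [hyy]; group
        _ = y * (u ^ 2) ^ k := by rw [← pow_mul u 2 k, ← pow_add u k k, two_mul]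
        _ = y * u := by rw [hk]
    have h5 := N.h.conj_mem y hyD (u ^ k)⁻¹
    rw [inv_inv, h3] at h5
    exact h5
  have hyW : y ∈ WSet D d := (N.col_sim_right p.vd hyC).2.1
  have hyud : Commute (y * u) d := hyd.mul_left hud
  by_contra hne
  refine hyW.2.2 (y * u) hyuD hyud ⟨?_, ?_⟩
  · intro h1
    apply hne
    have : y * u = y * 1 := by rw [mul_one]; exact h1
    exact mul_left_cancel this
  · have e1 : y * u * y = u⁻¹ := hyv
    rw [e1, orderOf_inv]; exact hodd

end Path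

end Cfsg.Agent.H736.Hole
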