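/-
Abstract root subgroups: lines, consequences of the gamma lemma (helper736, section 63; S5041, S5042, S5038).
-/
import Cfsg.Agent.H736.Gamma
import Cfsg.Agent.H733.Connected

set_option autoImplicit false
open Cfsg Cfsg.Agent.H731 Cfsg.Agent.H733

namespace Cfsg.Agent.H736

variable {G : Type*} [Group G] {S : Set (Subgroup G)} {A B C D E F : Subgroup G}

theorem eAdj_symm (h : EAdj S S A B) : EAdj S S B A :=
  ⟨h.2.1, h.1, linePartners_symm h.1 h.2.2⟩

theorem eAdj_dAdj (h : EAdj S S A B) : DAdj S A B :=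
  ⟨h.1, h.2.1, h.2.2.1.2.1.symm, h.2.2.1.2.2⟩

/-- In the commutator case `A` is a line partner of `[A, B]`, as an edge. -/
theorem rcc_eAdj (hS : IsRootSubgroupSet S) (hF : ∀ A ∈ S, ∃ A' ∈ S, IsRankOnePair A A') (hA : A ∈ S)
    (h : RootCommutatorCase S A B) : EAdj S S A ⁅A, B⁆ :=
  eAdj_symm ⟨h.1, hA, rcc_linePartners hS hA (hF A hA) h⟩

/-- Every member of a class with a commutator pair has a line partner. -/
theorem exists_linePartner (hS : IsRootSubgroupSet S) (hcl : IsConjClassOfSubgroups S)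
    (hF : ∀ A ∈ S, ∃ A' ∈ S, IsRankOnePair A A') (hR : ∃ A ∈ S, ∃ B ∈ S, RootCommutatorCase S A B) (hA : A ∈ S) :
    ∃ B, B ∈ linePartners S A := by
  obtain ⟨A0, hA0, B0, hB0, h0⟩ := hR
  have h1 := rcc_eAdj hS hF hA0 h0
  obtain ⟨g, rfl⟩ := hcl.2 A0 hA0 A hA
  exact ⟨conjBy ⁅A0, B0⁆ g, linePartners_conj hS h1.2.2 g⟩

/-- A rank one pair is joined by a path of length three in `𝓔(S)`. -/
theorem rankOne_eReach (hS : IsRootSubgroupSet S) (hF : ∀ A ∈ S, ∃ A' ∈ S, IsRankOnePair A A')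
    (hA : A ∈ S) (hC : C ∈ S) (h : IsRankOnePair A C) (hB : ∃ B, B ∈ linePartners S A) :
    Relation.ReflTransGen (EAdj S S) A C := by
  obtain ⟨B, hB⟩ := hB
  obtain ⟨E, hE, hEC, hAF, hAFE, -⟩ := gamma hS hF hA hC h hB
  have h1 : EAdj S S A E := by
    have := rcc_eAdj hS hF hA hAF
    rwa [hAFE] at this
  have h2 : EAdj S S E ⁅E, C⁆ := rcc_eAdj hS hF hE hEC
  have h3 : EAdj S S C ⁅E, C⁆ := by
    have := rcc_eAdj hS hF hC (rootCommutatorCase_symm hEC)
    rwa [Subgroup.commutator_comm] at this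
  exact ((Relation.ReflTransGen.single h1).tail h2).tail (eAdj_symm h3)

theorem class_partner (hS : IsRootSubgroupClass S) (hnd : IsNondegenerateRootSet S) :
    ∀ A ∈ S, ∃ A' ∈ S, IsRankOnePair A A' :=
  fun _ hA => class_exists_partner hS.1 hS.2 hnd.2.1 hA

/-- S5041. -/
theorem eConnected (hS : IsRootSubgroupClass S) (hnd : IsNondegenerateRootSet S) :
    IsConnectedFamily (EAdj S S) S := by
  have hF := class_partner hS hnd
  have hc := connected_of_class hS.1 hS.2 hnd.2.1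
  intro A hA B hB
  have h := hc A hA B hB
  clear hB
  induction h with
  | refl => exact Relation.ReflTransGen.refl
  | @tail B C _ h2 ih =>
    exact ih.trans (rankOne_eReach hS.1 hF h2.1 h2.2.1 h2.2.2
      (exists_linePartner hS.1 hS.2 hF hnd.2.2 h2.1))

theorem dConnected (hS : IsRootSubgroupClass S) (hnd : IsNondegenerateRootSet S) :
    IsConnectedFamily (DAdj S) S := fun A hA B hB => by
  have h := eConnected hS hnd A hA B hB
  clear hB
  induction h with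
  | refl => exact Relation.ReflTransGen.refl
  | tail _ h2 ih => exact ih.tail (eAdj_dAdj h2)

/-- If `x ∈ F` and `A^x = A` with `(A, F)` in the commutator case then `x = 1`. -/
theorem rcc_conjBy_ne (hS : IsRootSubgroupSet S) (hF : ∀ A ∈ S, ∃ A' ∈ S, IsRankOnePair A A') (hA : A ∈ S)
    (h : RootCommutatorCase S A F) {x : G} (hx : x ∈ F) (hx1 : x ≠ 1) : conjBy A x ≠ A := by
  intro h1
  have h2 : ⁅A, F⁆ ≤ A := by
    rw [← h.2.2.2 x hx hx1, Subgroup.closure_le]
    rintro _ ⟨a, ha, rfl⟩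
    show a * x * a⁻¹ * x⁻¹ ∈ A
    have h3 : a * x * a⁻¹ * x⁻¹ = a * (x * a⁻¹ * x⁻¹) := by simp [mul_assoc]
    rw [h3]
    refine A.mul_mem ha ?_
    have := conj_mem_conjBy (A.inv_mem ha) x
    rwa [h1] at this
  have h3 := rcc_inf_commutator hS hA (hF A hA) h
  rw [inf_eq_right.2 h2] at h3
  exact rcc_not_commute hS h h3

/-- **Line flip**: on every line `A C` through `A`, with `O` a rank one partner of `A`, there are members `E, F, D` with
`A E = A C`, `F = [E, O]`, `[A, F] = E` and `[E, D] = A`. -/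
theorem line_flip (hS : IsRootSubgroupSet S) (hF : ∀ A ∈ S, ∃ A' ∈ S, IsRankOnePair A A')
    (hA : A ∈ S) (hB : B ∈ S) (h : IsRankOnePair A B) (hC : C ∈ linePartners S A) :
    ∃ E ∈ S, ∃ D ∈ S, RootCommutatorCase S E B ∧ RootCommutatorCase S A ⁅E, B⁆ ∧ ⁅A, ⁅E, B⁆⁆ = E ∧
      RootCommutatorCase S E D ∧ ⁅E, D⁆ = A ∧ A ⊔ E = A ⊔ C := by
  obtain ⟨E, hE, hEB, hAF, hAFE, hsup⟩ := gamma hS hF hA hB h hC
  obtain ⟨O, hO, hEO⟩ := hF E hE
  have hEA : A ∈ linePartners S E := by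
    have := rcc_eAdj hS hF hA hAF
    rw [hAFE] at this
    exact (eAdj_symm this).2.2
  obtain ⟨E', hE', hE'O, hEF', hEFE', hsup'⟩ := gamma hS hF hE hO hEO hEA
  -- `E'` is a member of the line `A E` different from `E`
  have hne : E' ≠ E := by
    intro h1
    have := rcc_ne_commutator hS hEF'
    rw [hEFE'] at this
    exact this h1.symm
  have hmem : E' ∈ membersIn S (A ⊔ ⁅A, ⁅E, B⁆⁆) := by
    refine ⟨hE', ?_⟩
    rw [hAFE, sup_comm A E, ← hsup']
    exact le_sup_right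
  rw [rcc_membersIn hS hA (hF A hA) hAF] at hmem
  rcases hmem with ⟨x, hx, hxE⟩ | hmem
  · have hxE' : conjBy A x = E' := hxE
    have hEx : conjBy E x⁻¹ = E := by
      refine conjBy_of_commute fun e he => ?_
      refine (rcc_comm_left hEB (Subgroup.inv_mem _ hx) he)
    refine ⟨E, hE, conjBy ⁅E', O⁆ x⁻¹, hS.conj_mem _ hE'O.1 _, hEB, hAF, hAFE, ?_, ?_, hsup⟩
    · have := rootCommutatorCase_conj hS.conj_mem hEF' x⁻¹
      rwa [hEx] at this
    · have h1 : ⁅E, conjBy ⁅E', O⁆ x⁻¹⁆ = conjBy ⁅E, ⁅E', O⁆⁆ x⁻¹ := by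
        rw [conjBy_commutator E, hEx]
      rw [h1, hEFE', ← hxE', conjBy_conjBy, inv_mul_cancel, conjBy_one]
  · exfalso
    rw [Set.mem_singleton_iff, hAFE] at hmem
    exact hne hmem

/-- S5042. -/
theorem generated (hS : IsRootSubgroupClass S) (hnd : IsNondegenerateRootSet S) (hA : A ∈ S)
    (hB : B ∈ rankOnePartners S A) : (⨆ C ∈ linePartners S A, C) ⊔ B = ⊤ := by
  have hF := class_partner hS hnd
  set H := (⨆ C ∈ linePartners S A, C) ⊔ B with hH
  have hBH : B ≤ H := le_sup_right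
  have hLH : ∀ C ∈ linePartners S A, C ≤ H := by
    intro C hC
    have h1 : C ≤ ⨆ C ∈ linePartners S A, C := le_iSup₂_of_le C hC le_rfl
    exact h1.trans le_sup_left
  -- the line flip inside `H`
  have key : ∀ C ∈ linePartners S A, A ≤ H ∧ ∃ x ∈ H, C = conjBy A x := by
    intro C hC
    obtain ⟨E, hE, D, hD, hEB, hAF, hAFE, hED, hEDA, hsup⟩ := line_flip hS.1 hF hA hB.1 hB.2 hC
    have hAE : EAdj S S A E := by
      have := rcc_eAdj hS.1 hF hA hAF
      rwa [hAFE] at this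
    have hDA : EAdj S S D A := by
      have := rcc_eAdj hS.1 hF hD (rootCommutatorCase_symm hED)
      rwa [Subgroup.commutator_comm, hEDA] at this
    have hEH : E ≤ H := hLH E hAE.2.2
    have hDH : D ≤ H := hLH D (eAdj_symm hDA).2.2
    have hFH : ⁅E, B⁆ ≤ H := (Subgroup.commutator_le_sup E B).trans (sup_le hEH hBH)
    have hAH : A ≤ H := by
      rw [← hEDA]
      exact (Subgroup.commutator_le_sup E D).trans (sup_le hEH hDH)
    refine ⟨hAH, ?_⟩
    -- `E` is conjugate to `A` in `H`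
    have hEA : ∃ x ∈ H, E = conjBy A x := by
      obtain ⟨x, hx, hx1⟩ := member_exists_ne_one hS.1 hEB.1
      have h1 : conjBy A x ∈ membersIn S (E ⊔ ⁅E, D⁆) := by
        refine ⟨hS.1.conj_mem A hA x, ?_⟩
        rw [hEDA, sup_comm]
        have := conjBy_le_sup_commutator (A := A) hx
        rwa [hAFE] at this
      rw [rcc_membersIn hS.1 hE (hF E hE) hED] at h1
      rcases h1 with ⟨y, hy, hyE⟩ | h1
      · have hyE' : conjBy E y = conjBy A x := hyE
        refine ⟨y⁻¹ * x, H.mul_mem (H.inv_mem (hDH hy)) (hFH hx), ?_⟩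
        rw [← conjBy_conjBy, ← hyE', conjBy_conjBy, inv_mul_cancel, conjBy_one]
      · exfalso
        rw [Set.mem_singleton_iff, hEDA] at h1
        exact rcc_conjBy_ne hS.1 hF hA hAF hx hx1 h1
    have hmem : C ∈ membersIn S (A ⊔ ⁅A, ⁅E, B⁆⁆) := by
      refine ⟨hC.1.1, ?_⟩
      rw [hAFE, hsup]
      exact le_sup_right
    rw [rcc_membersIn hS.1 hA (hF A hA) hAF] at hmem
    rcases hmem with ⟨x, hx, hxC⟩ | hmem
    · exact ⟨x, hFH hx, hxC.symm⟩
    · rw [Set.mem_singleton_iff, hAFE] at hmem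
      rw [hmem]
      exact hEA
  -- everything is conjugate to `A` in `H`
  have hall : ∀ D ∈ S, ∃ x ∈ H, D = conjBy A x := by
    intro D hD
    have h := eConnected hS hnd A hA D hD
    clear hD
    induction h with
    | refl => exact ⟨1, H.one_mem, (conjBy_one A).symm⟩
    | @tail C D _ h2 ih =>
      obtain ⟨x, hx, rfl⟩ := ih
      have h3 : conjBy D x⁻¹ ∈ linePartners S A := by
        have := linePartners_conj hS.1 h2.2.2 x⁻¹
        rwa [conjBy_conjBy, inv_mul_cancel, conjBy_one] at this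
      obtain ⟨y, hy, h4⟩ := (key _ h3).2
      refine ⟨x * y, H.mul_mem hx hy, ?_⟩
      rw [← conjBy_conjBy, ← h4, conjBy_conjBy, mul_inv_cancel, conjBy_one]
  obtain ⟨C, hC⟩ := exists_linePartner hS.1 hS.2 hF hnd.2.2 hA
  have hAH : A ≤ H := (key C hC).1
  refine le_of_forall_member hS.1 fun D hD => ?_
  obtain ⟨x, hx, rfl⟩ := hall D hD
  calc conjBy A x ≤ conjBy H x := conjBy_le_conjBy.2 hAH
    _ = H := conjBy_of_mem hx

/-- S5038: the members normalizing a line generate a group which is doubly transitive on the members of the line. -/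
theorem line_two_transitive (hS : IsRootSubgroupSet S) (hF : ∀ A ∈ S, ∃ A' ∈ S, IsRankOnePair A A')
    (hA : A ∈ S) (hB : B ∈ linePartners S A) :
    ∀ C₁ ∈ membersIn S (A ⊔ B), ∀ C₂ ∈ membersIn S (A ⊔ B), ∀ D₁ ∈ membersIn S (A ⊔ B),
      ∀ D₂ ∈ membersIn S (A ⊔ B), C₁ ≠ C₂ → D₁ ≠ D₂ →
        ∃ x ∈ ⨆ E ∈ normalizingMembers S (A ⊔ B), E, conjBy C₁ x = D₁ ∧ conjBy C₂ x = D₂ := by
  obtain ⟨O, hO, hAO⟩ := hF A hA
  obtain ⟨E, hE, D, hD, hEO, hAF, hAFE, hED, hEDA, hsup⟩ := line_flip hS hF hA hO hAO hB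
  set K := ⨆ E ∈ normalizingMembers S (A ⊔ B), E with hK
  have hFK : ⁅E, O⁆ ≤ K := by
    refine le_iSup₂_of_le _ ⟨hEO.1, le_normalizer_of_conjBy fun x hx => ?_⟩ le_rfl
    rw [← hsup, conjBy_sup]
    have h1 : conjBy E x = E := by
      refine conjBy_of_commute fun e he => rcc_comm_left hEO hx he
    have hle : ∀ x ∈ ⁅E, O⁆, conjBy A x ≤ A ⊔ E := by
      intro x hx
      have := conjBy_le_sup_commutator (A := A) hx
      rwa [hAFE] at this
    rw [h1]
    apply le_antisymm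
    · exact sup_le (hle x hx) le_sup_right
    · refine sup_le ?_ le_sup_right
      have h2 := hle x⁻¹ (Subgroup.inv_mem _ hx)
      rw [← conjBy_le_conjBy (g := x), conjBy_conjBy, mul_inv_cancel, conjBy_one, conjBy_sup, h1] at h2
      exact h2
  have hDK : D ≤ K := by
    refine le_iSup₂_of_le _ ⟨hD, le_normalizer_of_conjBy fun x hx => ?_⟩ le_rfl
    rw [← hsup, conjBy_sup]
    have h1 : conjBy A x = A := by
      refine conjBy_of_commute fun a ha => ?_
      rw [← hEDA] at ha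
      exact (rcc_comm_right hED ha hx).symm
    have hle : ∀ x ∈ D, conjBy E x ≤ A ⊔ E := by
      intro x hx
      have := conjBy_le_sup_commutator (A := E) hx
      rwa [hEDA, sup_comm] at this
    rw [h1]
    apply le_antisymm
    · exact sup_le le_sup_left (hle x hx)
    · refine sup_le le_sup_left ?_
      have h2 := hle x⁻¹ (Subgroup.inv_mem _ hx)
      rw [← conjBy_le_conjBy (g := x), conjBy_conjBy, mul_inv_cancel, conjBy_one, conjBy_sup, h1] at h2
      exact h2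
  have hmem : ∀ C ∈ membersIn S (A ⊔ B), C = E ∨ ∃ x ∈ ⁅E, O⁆, C = conjBy A x := by
    intro C hC
    have h1 : C ∈ membersIn S (A ⊔ ⁅A, ⁅E, O⁆⁆) := by
      rwa [hAFE, hsup]
    rw [rcc_membersIn hS hA (hF A hA) hAF] at h1
    rcases h1 with ⟨x, hx, hxC⟩ | h1
    · exact Or.inr ⟨x, hx, hxC.symm⟩
    · rw [Set.mem_singleton_iff, hAFE] at h1
      exact Or.inl h1
  have hKn : ∀ x ∈ K, conjBy (A ⊔ B) x = A ⊔ B := by
    intro x hx
    have h1 : K ≤ Subgroup.normalizer ((A ⊔ B : Subgroup G) : Set G) := by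
      rw [hK]
      exact iSup₂_le fun E hE => hE.2
    exact mem_normalizer_iff_conjBy.1 (h1 hx)
  -- `A` is conjugate to `E`
  have hAE : ∃ x ∈ K, conjBy A x = E := by
    obtain ⟨x, hx, hx1⟩ := member_exists_ne_one hS hEO.1
    have h1 : conjBy A x ∈ membersIn S (E ⊔ ⁅E, D⁆) := by
      refine ⟨hS.conj_mem A hA x, ?_⟩
      rw [hEDA, sup_comm]
      have := conjBy_le_sup_commutator (A := A) hx
      rwa [hAFE] at this
    rw [rcc_membersIn hS hE (hF E hE) hED] at h1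
    rcases h1 with ⟨y, hy, hyE⟩ | h1
    · have hyE' : conjBy E y = conjBy A x := hyE
      refine ⟨y⁻¹ * x, K.mul_mem (K.inv_mem (hDK hy)) (hFK hx), ?_⟩
      rw [← conjBy_conjBy, ← hyE', conjBy_conjBy, inv_mul_cancel, conjBy_one]
    · exfalso
      rw [Set.mem_singleton_iff, hEDA] at h1
      exact rcc_conjBy_ne hS hF hA hAF hx hx1 h1
  -- every pair is conjugate to `(A, E)`
  have hpair : ∀ C₁ ∈ membersIn S (A ⊔ B), ∀ C₂ ∈ membersIn S (A ⊔ B), C₁ ≠ C₂ →
      ∃ x ∈ K, conjBy C₁ x = A ∧ conjBy C₂ x = E := by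
    intro C₁ hC₁ C₂ hC₂ hne
    have h1 : ∃ x ∈ K, conjBy C₂ x = E := by
      rcases hmem C₂ hC₂ with h1 | ⟨x, hx, h1⟩
      · exact ⟨1, K.one_mem, by rw [h1, conjBy_one]⟩
      · obtain ⟨y, hy, h2⟩ := hAE
        refine ⟨y * x⁻¹, K.mul_mem hy (K.inv_mem (hFK hx)), ?_⟩
        rw [h1, conjBy_conjBy, inv_mul_cancel_right, h2]
    obtain ⟨x, hx, h2⟩ := h1
    have h3 : conjBy C₁ x ∈ membersIn S (A ⊔ B) := by
      have := (mem_membersIn_conj_iff hS (g := x)).2 hC₁
      rwa [hKn x hx] at this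
    rcases hmem _ h3 with h4 | ⟨y, hy, h4⟩
    · exact absurd (conjBy_inj.1 (h4.trans h2.symm)) hne
    · refine ⟨y⁻¹ * x, K.mul_mem (K.inv_mem (hFK hy)) hx, ?_, ?_⟩
      · rw [← conjBy_conjBy, h4, conjBy_conjBy, inv_mul_cancel, conjBy_one]
      · rw [← conjBy_conjBy, h2]
        exact conjBy_of_commute fun e he => rcc_comm_left hEO (Subgroup.inv_mem _ hy) he
  intro C₁ hC₁ C₂ hC₂ D₁ hD₁ D₂ hD₂ hC hD'
  obtain ⟨x, hx, h1, h2⟩ := hpair C₁ hC₁ C₂ hC₂ hC
  obtain ⟨y, hy, h3, h4⟩ := hpair D₁ hD₁ D₂ hD₂ hD'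
  refine ⟨y⁻¹ * x, K.mul_mem (K.inv_mem hy) hx, ?_, ?_⟩
  · rw [← conjBy_conjBy, h1, ← h3, conjBy_conjBy, inv_mul_cancel, conjBy_one]
  · rw [← conjBy_conjBy, h2, ← h4, conjBy_conjBy, inv_mul_cancel, conjBy_one]

end Cfsg.Agent.H736
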