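import Mathlib
import Cfsg.Agent.H731.FarR
import Cfsg.Agent.H737.FarNC

/-!
# Rank 2 geometry of a class of root involutions: the torus fixes two lines on a middle point

Over the coordinates `NC` of helper737: for `k ∈ M_p ∩ C(x) ∩ C(y)` we compare `⁅f_s, k⁆` with
`k^{w_s}` (`zeta_mem`), get the formula `⁅β_s, k⁆ = p (e + κ₀ s)` (`kappa`), the self-centralising
property `alpha` of `M_y ∩ M_p` in `M_p ∩ C(y)`, and that the torus fixes only two lines on `y`
(`two_lines`).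
-/

set_option autoImplicit false
set_option linter.unusedSectionVars false

namespace Cfsg.Agent.H736.FarK

open Cfsg Cfsg.Agent.H737 Cfsg.Agent.H736.Hole Cfsg.Agent.H737.Far

variable {G : Type*} [Group G] {D : Set G} {F : Type} [Field F] [Fintype F]

variable {f y p x : F → G}

section basic

theorem z0 {u : F → G} (h : ∀ s t, u (s + t) = u s * u t) : u 0 = 1 := by
  have h1 := h 0 0
  rw [add_zero] at h1
  exact (mul_eq_left.1 h1.symm)

theorem zsq {u : F → G} (h2 : ∀ s : F, s + s = 0) (h : ∀ s t, u (s + t) = u s * u t) (s : F) :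
    u s * u s = 1 := by rw [← h, h2, z0 h]

theorem zinv {u : F → G} (h2 : ∀ s : F, s + s = 0) (h : ∀ s t, u (s + t) = u s * u t) (s : F) :
    (u s)⁻¹ = u s := inv_of_sq (zsq h2 h s)

theorem zcomm {u : F → G} (h : ∀ s t, u (s + t) = u s * u t) (s t : F) :
    Commute (u s) (u t) := by
  show u s * u t = u t * u s
  rw [← h, ← h, add_comm]

theorem f0 (c : NC D f y p x) : f 0 = 1 := z0 c.f_add
theorem y0 (c : NC D f y p x) : y 0 = 1 := z0 c.y_add
theorem p0 (c : NC D f y p x) : p 0 = 1 := z0 c.p_add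
theorem x0 (c : NC D f y p x) : x 0 = 1 := z0 c.x_add
theorem ff (c : NC D f y p x) (s : F) : f s * f s = 1 := zsq c.two c.f_add s
theorem yy (c : NC D f y p x) (s : F) : y s * y s = 1 := zsq c.two c.y_add s
theorem pp (c : NC D f y p x) (s : F) : p s * p s = 1 := zsq c.two c.p_add s
theorem xx (c : NC D f y p x) (s : F) : x s * x s = 1 := zsq c.two c.x_add s
theorem fi (c : NC D f y p x) (s : F) : (f s)⁻¹ = f s := zinv c.two c.f_add s
theorem yi (c : NC D f y p x) (s : F) : (y s)⁻¹ = y s := zinv c.two c.y_add s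
theorem pi (c : NC D f y p x) (s : F) : (p s)⁻¹ = p s := zinv c.two c.p_add s
theorem xi (c : NC D f y p x) (s : F) : (x s)⁻¹ = x s := zinv c.two c.x_add s

theorem y_inj (R : R2 D) (c : NC D f y p x) {s t : F} (h : y s = y t) : s = t := by
  by_contra hne
  have h1 : s + t ≠ 0 := by
    intro h0
    apply hne
    have h2 := c.two t
    calc s = s + (t + t) := by rw [h2, add_zero]
      _ = (s + t) + t := by rw [add_assoc]
      _ = t := by rw [h0, zero_add]
  apply ne_one_of_mem R.N.h (c.y_D _ h1)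
  rw [c.y_add, h, yy c]

theorem wN_sq (c : NC D f y p x) (s : F) : wN f x s * wN f x s = 1 := by
  unfold wN
  calc f s * x s⁻¹ * f s * (f s * x s⁻¹ * f s)
      = f s * x s⁻¹ * (f s * f s) * x s⁻¹ * f s := by group
    _ = f s * (x s⁻¹ * x s⁻¹) * f s := by rw [ff c]; group
    _ = 1 := by rw [xx c, mul_one, ff c]

theorem wN_inv (c : NC D f y p x) (s : F) : (wN f x s)⁻¹ = wN f x s := inv_of_sq (wN_sq c s)

end basic

variable [Finite G]

section setup

variable (R : R2 D) (c : NC D f y p x)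
include R c

theorem nc_xy : ¬ Commute (x 1) (y 1) := by
  intro h
  have h1 := c.xy 1 1
  rw [h.eq, mul_assoc, xx c, mul_one, mul_one] at h1
  exact ne_one_of_mem R.N.h (c.p_D 1 one_ne_zero) (mul_eq_left.1 h1.symm)

theorem nc_fp : ¬ Commute (f 1) (p 1) := by
  intro h
  have h1 := c.fp 1 1
  rw [h.eq, mul_assoc, ff c, mul_one, mul_one] at h1
  exact ne_one_of_mem R.N.h (c.y_D 1 one_ne_zero) (mul_eq_left.1 h1.symm)

theorem ns_xp : ¬ SimR D (x 1) (p 1) := fun hs =>
  nc_xy R c (R.comm_EG (c.p_D 1 one_ne_zero) (c.y_D 1 one_ne_zero) (c.yp 1 1)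
    (R.mem_of_sim (c.x_D 1 one_ne_zero) hs)).symm

theorem ns_fy : ¬ SimR D (f 1) (y 1) := fun hs =>
  nc_fp R c (R.comm_EG (c.y_D 1 one_ne_zero) (c.p_D 1 one_ne_zero) (c.yp 1 1).symm
    (R.mem_of_sim (c.f_D 1 one_ne_zero) hs)).symm

theorem ns_py : ¬ SimR D (p 1) (y 1) := fun hs =>
  nc_xy R c (R.comm_EG (c.p_D 1 one_ne_zero) (c.x_D 1 one_ne_zero) (c.px 1 1).symm
    (R.mem_of_sim (c.y_D 1 one_ne_zero) hs.symm))

theorem fE (s : F) : f s ∈ EG D (f 1) := (c.f_iff _).2 ⟨s, rfl⟩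
theorem yE (s : F) : y s ∈ EG D (y 1) := (c.y_iff _).2 ⟨s, rfl⟩
theorem pE (s : F) : p s ∈ EG D (p 1) := (c.p_iff _).2 ⟨s, rfl⟩
theorem xE (s : F) : x s ∈ EG D (x 1) := (c.x_iff _).2 ⟨s, rfl⟩

theorem fM (s : F) : f s ∈ MG D (y 1) := by
  by_cases hs : s = 0
  · rw [hs, f0 c]; exact one_mem _
  · exact mem_MG (c.f_D s hs) (c.fy s 1)

theorem pM (s : F) : p s ∈ MG D (y 1) := by
  by_cases hs : s = 0
  · rw [hs, p0 c]; exact one_mem _
  · exact mem_MG (c.p_D s hs) (c.yp 1 s).symm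

theorem yM (s : F) : y s ∈ MG D (y 1) := R.EG_le_MG (c.y_D 1 one_ne_zero) (yE R c s)

theorem yM' (s : F) : y s ∈ MG D (p 1) := by
  by_cases hs : s = 0
  · rw [hs, y0 c]; exact one_mem _
  · exact mem_MG (c.y_D s hs) (c.yp s 1)

theorem xM (s : F) : x s ∈ MG D (p 1) := by
  by_cases hs : s = 0
  · rw [hs, x0 c]; exact one_mem _
  · exact mem_MG (c.x_D s hs) (c.px 1 s).symm

theorem pM' (s : F) : p s ∈ MG D (p 1) := R.EG_le_MG (c.p_D 1 one_ne_zero) (pE R c s)

theorem kp {k : G} (hk : k ∈ MG D (p 1)) (t : F) : Commute k (p t) :=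
  R.MG_comm (c.p_D 1 one_ne_zero) hk (pE R c t)

theorem gy {g : G} (hg : g ∈ MG D (y 1)) (t : F) : Commute g (y t) :=
  R.MG_comm (c.y_D 1 one_ne_zero) hg (yE R c t)

theorem ky {k : G} (hk : k ∈ MG D (p 1)) (hky : Commute k (y 1)) (t : F) : Commute k (y t) :=
  R.comm_class (c.p_D 1 one_ne_zero) (c.y_D 1 one_ne_zero) (c.yp 1 1)
    (fun hs => ns_py R c hs.symm) hk hky (yE R c t)

theorem kx {k : G} (hk : k ∈ MG D (p 1)) (hkx : Commute k (x 1)) (t : F) : Commute k (x t) :=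
  R.comm_class (c.p_D 1 one_ne_zero) (c.x_D 1 one_ne_zero) (c.px 1 1).symm
    (ns_xp R c) hk hkx (xE R c t)

theorem gf {g : G} (hg : g ∈ MG D (y 1)) (hgf : Commute g (f 1)) (t : F) : Commute g (f t) :=
  R.comm_class (c.y_D 1 one_ne_zero) (c.f_D 1 one_ne_zero) (c.fy 1 1)
    (ns_fy R c) hg hgf (fE R c t)

theorem kf_mem {k : G} (hky : Commute k (y 1)) (t : F) : k * f t * k⁻¹ ∈ MG D (y 1) := by
  have h1 := R.MG_conj (fM R c t) k
  rwa [conj_eq_of_comm hky] at h1

/-- elements of `M_y` act on `E(f)` by scalars. -/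
theorem scal {g : G} (hg : g ∈ MG D (y 1)) : ∃ r : F, ∀ s : F, f s * g * f s = g * y (s * r) := by
  obtain ⟨e, he, h1⟩ := R.MG_conj_eq (c.y_D 1 one_ne_zero) (fM R c 1) hg
  obtain ⟨r, rfl⟩ := (c.y_iff e).1 he
  refine ⟨r, ?_⟩
  have h2 : Commute (g * p r) (f 1) := by
    have h3 : f 1 * (g * p r) * (f 1)⁻¹ = g * p r := by
      have h4 := c.fp 1 r
      rw [one_mul] at h4
      calc f 1 * (g * p r) * (f 1)⁻¹ = (f 1 * g * (f 1)⁻¹) * (f 1 * p r * (f 1)⁻¹) := by group
        _ = g * y r * (p r * y r) := by rw [h1]; rw [fi c, h4]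
        _ = g * (y r * p r) * y r := by group
        _ = g * (p r * y r) * y r := by rw [(c.yp r r).eq]
        _ = g * p r * (y r * y r) := by group
        _ = g * p r := by rw [yy c, mul_one]
    exact (comm_of_conj_eq h3).symm
  intro s
  have h5 := gf R c (mul_mem hg (pM R c r)) h2 s
  have h6 := c.fp s r
  calc f s * g * f s = f s * (g * (p r * p r)) * f s := by rw [pp c, mul_one]
    _ = (f s * (g * p r)) * p r * f s := by group
    _ = ((g * p r) * f s) * p r * f s := by rw [h5.eq]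
    _ = g * p r * (f s * p r * f s) := by group
    _ = g * p r * (p r * y (s * r)) := by rw [h6]
    _ = g * (p r * p r) * y (s * r) := by group
    _ = g * y (s * r) := by rw [pp c, mul_one]

/-- `ρ(s,t) = ⁅f_s, k f_t k⁻¹⁆ = y (κ₀ s t)`. -/
theorem rho {k : G} (hk : k ∈ MG D (p 1)) (hky : Commute k (y 1)) :
    ∃ κ₀ : F, ∀ s t : F, f s * (k * f t * k⁻¹) * f s = (k * f t * k⁻¹) * y (κ₀ * s * t) := by
  have hk' : k⁻¹ ∈ MG D (p 1) := inv_mem hk
  have hky' : Commute k⁻¹ (y 1) := hky.inv_left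
  have h1 : ∀ t, ∃ r : F, ∀ s : F, f s * (k * f t * k⁻¹) * f s = (k * f t * k⁻¹) * y (s * r) :=
    fun t => scal R c (kf_mem R c hky t)
  have h2 : ∀ s, ∃ r : F, ∀ t : F, f t * (k⁻¹ * f s * k) * f t = (k⁻¹ * f s * k) * y (t * r) := by
    intro s
    have h3 := scal R c (kf_mem R c hky' s)
    rw [inv_inv] at h3
    exact h3
  choose r hr using h1
  choose r' hr' using h2
  have key : ∀ s t, s * r t = t * r' s := by
    intro s t
    have h3 := hr s
    have h4 : (k⁻¹ * f s * k) * f t * (k⁻¹ * f s * k) = f t * y (s * r t) := by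
      have hkt := ky R c hk hky (s * r t)
      calc (k⁻¹ * f s * k) * f t * (k⁻¹ * f s * k)
          = k⁻¹ * (f s * (k * f t * k⁻¹) * f s) * k := by group
        _ = k⁻¹ * (k * f t * k⁻¹ * y (s * r t)) * k := by rw [hr t s]
        _ = f t * k⁻¹ * (y (s * r t) * k) := by group
        _ = f t * k⁻¹ * (k * y (s * r t)) := by rw [hkt.eq]
        _ = f t * y (s * r t) := by group
    have h5 := hr' s t
    set g : G := k⁻¹ * f s * k with hg
    have hgg : g * g = 1 := by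
      rw [hg]
      calc k⁻¹ * f s * k * (k⁻¹ * f s * k) = k⁻¹ * (f s * f s) * k := by group
        _ = 1 := by rw [ff c]; group
    have h6 : f t * g * f t * g = y (t * r' s) := by
      have hgM : g ∈ MG D (y 1) := by
        have := kf_mem R c hky' s
        rwa [inv_inv] at this
      calc f t * g * f t * g = g * y (t * r' s) * g := by rw [h5]
        _ = g * (y (t * r' s) * g) := by group
        _ = g * (g * y (t * r' s)) := by rw [(gy R c hgM _).eq]
        _ = (g * g) * y (t * r' s) := by group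
        _ = y (t * r' s) := by rw [hgg, one_mul]
    have h7 : f t * g * f t * g = y (s * r t) := by
      calc f t * g * f t * g = f t * (g * f t * g) := by group
        _ = f t * (f t * y (s * r t)) := by rw [h4]
        _ = (f t * f t) * y (s * r t) := by group
        _ = y (s * r t) := by rw [ff c, one_mul]
    exact y_inj R c (h7.symm.trans h6)
  refine ⟨r' 1, ?_⟩
  intro s t
  have h8 : r t = t * r' 1 := by rw [← key 1 t, one_mul]
  rw [hr t s, h8]
  congr 2
  ring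

/-- `⁅f_s, k⁆`. -/
def bk (f : F → G) (k : G) (s : F) : G := f s * k * f s * k⁻¹

/-- `k^{w_s}`. -/
def ck (f x : F → G) (k : G) (s : F) : G := wN f x s * k * wN f x s

theorem bk_eq (k : G) (s : F) : bk f k s = f s * (k * f s * k⁻¹) := by unfold bk; group

theorem bk_mem {k : G} (hky : Commute k (y 1)) (s : F) : bk f k s ∈ MG D (y 1) := by
  rw [bk_eq R c]; exact mul_mem (fM R c s) (kf_mem R c hky s)

/-- `k f_s k⁻¹` acts on `E(p)` as `f_s`. -/
theorem kf_p {k : G} (hk : k ∈ MG D (p 1)) (hky : Commute k (y 1)) (s u : F) :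
    (k * f s * k⁻¹) * p u * (k * f s * k⁻¹) = p u * y (s * u) := by
  have h1 := kp R c hk u
  have h2 := ky R c hk hky (s * u)
  have h3 : k⁻¹ * p u * k = p u := by rw [mul_assoc, ← h1.eq]; group
  calc (k * f s * k⁻¹) * p u * (k * f s * k⁻¹) = k * (f s * (k⁻¹ * p u * k) * f s) * k⁻¹ := by
        group
    _ = k * (p u * y (s * u)) * k⁻¹ := by rw [h3, c.fp]
    _ = (k * p u) * y (s * u) * k⁻¹ := by group
    _ = p u * (k * y (s * u)) * k⁻¹ := by rw [h1.eq]; group
    _ = p u * y (s * u) := by rw [h2.eq]; group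

theorem bk_p {k : G} (hk : k ∈ MG D (p 1)) (hky : Commute k (y 1)) (s u : F) :
    Commute (bk f k s) (p u) := by
  apply comm_of_conj_eq
  rw [bk_eq R c]
  have h1 := kf_p R c hk hky s u
  have h2 : (k * f s * k⁻¹)⁻¹ = k * f s * k⁻¹ := by
    calc (k * f s * k⁻¹)⁻¹ = k * (f s)⁻¹ * k⁻¹ := by group
      _ = _ := by rw [fi c]
  calc f s * (k * f s * k⁻¹) * p u * (f s * (k * f s * k⁻¹))⁻¹
      = f s * ((k * f s * k⁻¹) * p u * (k * f s * k⁻¹)⁻¹) * (f s)⁻¹ := by group
    _ = f s * (p u * y (s * u)) * f s := by rw [h2, h1, fi c]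
    _ = f s * p u * (y (s * u) * f s) := by group
    _ = (f s * p u * f s) * y (s * u) := by rw [← (c.fy s (s * u)).eq]; group
    _ = p u * (y (s * u) * y (s * u)) := by rw [c.fp]; group
    _ = p u := by rw [yy c, mul_one]

theorem ck_mem {k : G} (hk : k ∈ MG D (p 1)) {s : F} (hs : s ≠ 0) : ck f x k s ∈ MG D (y 1) := by
  have h1 := R.MG_conj hk (wN f x s)
  rw [wN_inv c, c.w_p hs, one_mul] at h1
  rw [R.MG_eq (c.y_D 1 one_ne_zero) (yE R c s) (R.ne_one (c.y_D s hs))] at h1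
  exact h1

theorem ck_p {k : G} (hk : k ∈ MG D (p 1)) (hky : Commute k (y 1)) {s : F} (hs : s ≠ 0) (u : F) :
    Commute (ck f x k s) (p u) := by
  have h1 := ky R c hk hky (u * s)
  have h2 : wN f x s * p u = y (u * s) * wN f x s := by
    rw [← c.w_p hs u, mul_assoc, wN_sq c, mul_one]
  have h3 : wN f x s * y (u * s) = p u * wN f x s := by
    have h4 := c.w_y hs (u * s)
    rw [mul_assoc u, mul_inv_cancel₀ hs, mul_one] at h4
    rw [← h4, mul_assoc, wN_sq c, mul_one]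
  unfold ck
  show wN f x s * k * wN f x s * p u = p u * (wN f x s * k * wN f x s)
  calc wN f x s * k * wN f x s * p u = wN f x s * k * (wN f x s * p u) := by group
    _ = wN f x s * (k * y (u * s)) * wN f x s := by rw [h2]; group
    _ = (wN f x s * y (u * s)) * k * wN f x s := by rw [h1.eq]; group
    _ = p u * (wN f x s * k * wN f x s) := by rw [h3]; group

/-- `b_s = ⁅f_s, k⁆`, `c_s = k^{w_s}` : `b_s⁻¹ c_s ∈ M_y ∩ M_p` -/
theorem zeta_mem {k : G} (hk : k ∈ MG D (p 1))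
    (hkx : Commute k (x 1)) (hky : Commute k (y 1)) {s : F} (hs : s ≠ 0) :
    (f s * k * f s * k⁻¹)⁻¹ * (wN f x s * k * wN f x s) ∈ MG D (y 1) ⊓ MG D (p 1) := by
  show (bk f k s)⁻¹ * ck f x k s ∈ MG D (y 1) ⊓ MG D (p 1)
  have hb := bk_mem R c hky s
  have hc := ck_mem R c hk hs
  have hζ : (bk f k s)⁻¹ * ck f x k s ∈ MG D (y 1) := mul_mem (inv_mem hb) hc
  refine Subgroup.mem_inf.2 ⟨hζ, ?_⟩
  apply semireg R c.swap hζ
    (((bk_p R c hk hky s 1).inv_left).mul_left (ck_p R c hk hky hs 1))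
  -- `z₁ = (f k f) x₁ (f k f)⁻¹`
  set b := bk f k s with hbdef
  set cc := ck f x k s with hcdef
  set z : G := (f s * k * f s) * x 1 * (f s * k * f s)⁻¹ with hz
  have hkx1 := hkx
  have h1 : b * x 1 * b⁻¹ = z := by
    have h2 : k⁻¹ * x 1 * k = x 1 := by rw [mul_assoc, ← hkx.eq]; group
    rw [hbdef, hz]; unfold bk
    calc f s * k * f s * k⁻¹ * x 1 * (f s * k * f s * k⁻¹)⁻¹
        = (f s * k * f s) * (k⁻¹ * x 1 * k) * (f s * k * f s)⁻¹ := by group
      _ = _ := by rw [h2]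
  have hzp : Commute z (p 1) := by
    have h3 : Commute (f s * k * f s) (p 1) := by
      have h4 : f s * k * f s = b * k := by rw [hbdef]; unfold bk; group
      rw [h4]
      exact (bk_p R c hk hky s 1).mul_left (kp R c hk 1)
    rw [hz]
    exact (h3.mul_left (c.px 1 1).symm).mul_left h3.inv_left
  have hzD : z ∈ D := R.h.conj_mem (x 1) (c.x_D 1 one_ne_zero) _
  have hzM : z ∈ MG D (p 1) := mem_MG hzD hzp
  have hwx : wN f x s = x s⁻¹ * f s * x s⁻¹ := c.fx s hs
  have hcc : cc = x s⁻¹ * (f s * k * f s) * x s⁻¹ := by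
    have h5 := kx R c hk hkx s⁻¹
    rw [hcdef]; unfold ck
    rw [hwx]
    calc x s⁻¹ * f s * x s⁻¹ * k * (x s⁻¹ * f s * x s⁻¹)
        = x s⁻¹ * f s * (x s⁻¹ * k) * x s⁻¹ * f s * x s⁻¹ := by group
      _ = x s⁻¹ * f s * (k * x s⁻¹) * x s⁻¹ * f s * x s⁻¹ := by rw [h5.eq]
      _ = x s⁻¹ * f s * k * (x s⁻¹ * x s⁻¹) * f s * x s⁻¹ := by group
      _ = _ := by rw [xx c]; group
  have h6 : cc * x 1 * cc⁻¹ = x s⁻¹ * z * (x s⁻¹)⁻¹ := by
    have h7 : x s⁻¹ * x 1 * (x s⁻¹)⁻¹ = x 1 := conj_eq_of_comm (zcomm c.x_add s⁻¹ 1)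
    rw [hcc, hz]
    calc x s⁻¹ * (f s * k * f s) * x s⁻¹ * x 1 * (x s⁻¹ * (f s * k * f s) * x s⁻¹)⁻¹
        = x s⁻¹ * ((f s * k * f s) * (x s⁻¹ * x 1 * (x s⁻¹)⁻¹) * (f s * k * f s)⁻¹) * (x s⁻¹)⁻¹ := by
          group
      _ = _ := by rw [h7]
  obtain ⟨e, he, h8⟩ := R.MG_conj_eq (c.p_D 1 one_ne_zero) (xM R c s⁻¹) hzM
  obtain ⟨u, rfl⟩ := (c.p_iff e).1 he
  have h9 : b⁻¹ * cc * x 1 * (b⁻¹ * cc)⁻¹ = x 1 * p u := by
    have h10 : Commute b (p u) := bk_p R c hk hky s u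
    have h11 : b⁻¹ * p u * b = p u := by rw [mul_assoc, ← h10.eq]; group
    calc b⁻¹ * cc * x 1 * (b⁻¹ * cc)⁻¹ = b⁻¹ * (cc * x 1 * cc⁻¹) * b := by group
      _ = b⁻¹ * (z * p u) * b := by rw [h6, h8]
      _ = (b⁻¹ * z * b) * (b⁻¹ * p u * b) := by group
      _ = (b⁻¹ * (b * x 1 * b⁻¹) * b) * (b⁻¹ * p u * b) := by rw [h1]
      _ = x 1 * p u := by rw [h11]; group
  rw [h9]
  exact (Commute.refl (x 1)).mul_left (c.px u 1)

theorem BG_left {β : G} (hβ : β ∈ BG D f y p x) : β ∈ MG D (y 1) := hβ.1.1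
theorem BG_right {β : G} (hβ : β ∈ BG D f y p x) : β ∈ MG D (p 1) := hβ.1.2
theorem BG_f {β : G} (hβ : β ∈ BG D f y p x) (s : F) : Commute β (f s) :=
  ((Subgroup.mem_centralizer_iff.1 hβ.2) (f s) (Or.inl ⟨s, rfl⟩)).symm
theorem BG_x {β : G} (hβ : β ∈ BG D f y p x) (s : F) : Commute β (x s) :=
  ((Subgroup.mem_centralizer_iff.1 hβ.2) (x s) (Or.inr ⟨s, rfl⟩)).symm

/-- with `e, κ₀ ∈ F`: `k² = p e` and for each `s ≠ 0` some `β ∈ B` (the `B`-part of `b_s⁻¹ c_s`) has
`⁅β, k⁆ = p (e + κ₀ s)`; `κ₀ = 0` iff `k ∈ M_y`. -/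
theorem kappa {k : G} (hk : k ∈ MG D (p 1))
    (hkx : Commute k (x 1)) (hky : Commute k (y 1)) :
    ∃ e κ₀ : F, k * k = p e ∧ (κ₀ = 0 → k ∈ MG D (y 1)) ∧ ∀ s : F, s ≠ 0 → ∀ u v : F,
      ∀ β ∈ BG D f y p x,
        (f s * k * f s * k⁻¹)⁻¹ * (wN f x s * k * wN f x s) = y u * p v * β →
          β * k * β⁻¹ * k⁻¹ = p (e + κ₀ * s) := by
  obtain ⟨e, he⟩ := (c.p_iff _).1 (R.MG_sq (c.p_D 1 one_ne_zero) hk)
  obtain ⟨κ₀, hκ⟩ := rho R c hk hky
  refine ⟨e, κ₀, he, ?_, ?_⟩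
  · intro h0
    apply semireg R c hk hky
    have h1 := hκ 1 1
    rw [h0, zero_mul, zero_mul, y0 c, mul_one] at h1
    have h2 : f 1 * (k * f 1 * k⁻¹) * (f 1)⁻¹ = k * f 1 * k⁻¹ := by rw [fi c]; exact h1
    exact (comm_of_conj_eq h2).symm
  · intro s hs u v β hβ hζ
    have hζmem := zeta_mem R c hk hkx hky hs
    have hζsq : (y u * p v * β) * (y u * p v * β) = 1 := by
      rw [← hζ]
      exact Z_sq R c (Subgroup.mem_inf.1 hζmem).1 (Subgroup.mem_inf.1 hζmem).2
    have hβk : β * k * β⁻¹ * k⁻¹ ∈ EG D (p 1) :=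
      R.comm_MG (c.p_D 1 one_ne_zero) (BG_right R c hβ) hk
    obtain ⟨a, ha⟩ := (c.p_iff _).1 hβk
    have ha' : β * k * β⁻¹ = p a * k := by rw [← ha]; group
    set b := bk f k s with hbdef
    set cc := ck f x k s with hcdef
    have hζ' : cc = b * (y u * p v * β) := by
      rw [← hζ]
      show cc = b * (b⁻¹ * cc)
      group
    have hkfinv : (k * f s * k⁻¹) * (k * f s * k⁻¹) = 1 := by
      calc (k * f s * k⁻¹) * (k * f s * k⁻¹) = k * (f s * f s) * k⁻¹ := by group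
        _ = 1 := by rw [ff c]; group
    have hkfM := kf_mem R c hky s
    have hbM : b ∈ MG D (y 1) := bk_mem R c hky s
    have hbb : b * b = y (κ₀ * s * s) := by
      have h1 := gy R c hkfM (κ₀ * s * s)
      rw [hbdef, bk_eq R c]
      calc f s * (k * f s * k⁻¹) * (f s * (k * f s * k⁻¹))
          = (f s * (k * f s * k⁻¹) * f s) * (k * f s * k⁻¹) := by group
        _ = (k * f s * k⁻¹) * y (κ₀ * s * s) * (k * f s * k⁻¹) := by rw [hκ s s]
        _ = y (κ₀ * s * s) * ((k * f s * k⁻¹) * (k * f s * k⁻¹)) := by rw [h1.eq]; group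
        _ = _ := by rw [hkfinv, mul_one]
    -- conjugation by `p a`
    have hpf : p a * (k * f s * k⁻¹) * p a = (k * f s * k⁻¹) * y (s * a) := by
      have h1 := kf_p R c hk hky s a
      have h3 := gy R c hkfM (s * a)
      have h2 : (k * f s * k⁻¹) * p a = p a * y (s * a) * (k * f s * k⁻¹) := by
        rw [← h1, mul_assoc _ (k * f s * k⁻¹) (k * f s * k⁻¹), hkfinv, mul_one]
      calc p a * (k * f s * k⁻¹) * p a = p a * ((k * f s * k⁻¹) * p a) := by group
        _ = (p a * p a) * y (s * a) * (k * f s * k⁻¹) := by rw [h2]; group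
        _ = y (s * a) * (k * f s * k⁻¹) := by rw [pp c, one_mul]
        _ = _ := by rw [h3.eq]
    have hβb : β * b * β⁻¹ = b * y (s * a) := by
      have h1 := BG_f R c hβ s
      have h2 : β * f s * β⁻¹ = f s := conj_eq_of_comm h1
      rw [hbdef, bk_eq R c]
      calc β * (f s * (k * f s * k⁻¹)) * β⁻¹
          = (β * f s * β⁻¹) * ((β * k * β⁻¹) * (β * f s * β⁻¹) * (β * k * β⁻¹)⁻¹) := by group
        _ = f s * (p a * k * f s * (p a * k)⁻¹) := by rw [h2, ha']
        _ = f s * (p a * (k * f s * k⁻¹) * (p a)⁻¹) := by group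
        _ = f s * (p a * (k * f s * k⁻¹) * p a) := by rw [pi c]
        _ = _ := by rw [hpf]; group
    have hccsq : cc * cc = y (e * s) := by
      rw [hcdef]; unfold ck
      calc wN f x s * k * wN f x s * (wN f x s * k * wN f x s)
          = wN f x s * k * (wN f x s * wN f x s) * k * wN f x s := by group
        _ = wN f x s * (k * k) * wN f x s := by rw [wN_sq c]; group
        _ = y (e * s) := by rw [he, c.w_p hs]
    -- compute `cc * cc`
    have hby := gy R c hbM u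
    have hbp : Commute b (p v) := bk_p R c hk hky s v
    have h5 : (y u * p v * β) * b * (y u * p v * β)⁻¹ = b * y (s * a) := by
      have hys : Commute (p v) (y (s * a)) := (c.yp _ _).symm
      calc (y u * p v * β) * b * (y u * p v * β)⁻¹
          = y u * (p v * (β * b * β⁻¹) * (p v)⁻¹) * (y u)⁻¹ := by group
        _ = y u * (p v * (b * y (s * a)) * (p v)⁻¹) * (y u)⁻¹ := by rw [hβb]
        _ = y u * (b * y (s * a)) * (y u)⁻¹ := by
          rw [conj_eq_of_comm (hbp.symm.mul_right hys)]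
        _ = b * y (s * a) := by
          rw [conj_eq_of_comm (hby.symm.mul_right (zcomm c.y_add _ _))]
    have h6 : cc * cc = y (κ₀ * s * s) * y (s * a) := by
      calc cc * cc = b * (y u * p v * β) * (b * (y u * p v * β)) := by rw [← hζ']
        _ = b * ((y u * p v * β) * b * (y u * p v * β)⁻¹) *
            ((y u * p v * β) * (y u * p v * β)) := by group
        _ = b * b * y (s * a) := by rw [h5, hζsq]; group
        _ = _ := by rw [hbb]
    have h7 : e * s = κ₀ * s * s + s * a := by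
      apply y_inj R c
      rw [← hccsq, h6, c.y_add]
    have h8 : a = e + κ₀ * s := by
      have h9 := c.two (κ₀ * s * s)
      have h10 : s * a = s * (e + κ₀ * s) := by
        calc s * a = (κ₀ * s * s + κ₀ * s * s) + s * a := by rw [h9, zero_add]
          _ = κ₀ * s * s + (κ₀ * s * s + s * a) := by ring
          _ = κ₀ * s * s + e * s := by rw [← h7]
          _ = s * (e + κ₀ * s) := by ring
      exact mul_left_cancel₀ hs h10
    rw [ha, h8]

/-- For `k ∈ M_p ∩ C(y)` some `y_r k` commutes with `x₁`. -/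
theorem exists_adj {k : G} (hk : k ∈ MG D (p 1)) :
    ∃ r : F, Commute (y r * k) (x 1) := by
  obtain ⟨e, he, h1⟩ := R.MG_conj_eq (c.p_D 1 one_ne_zero) hk (xM R c 1)
  obtain ⟨r, rfl⟩ := (c.p_iff e).1 he
  refine ⟨r, ?_⟩
  apply comm_of_conj_eq
  have h2 : y r * x 1 * y r = x 1 * p r := by
    have h3 := c.xy 1 r
    rw [one_mul] at h3
    have h4 : x 1 * y r = y r * p r * x 1 := by rw [← h3, mul_assoc _ (x 1) (x 1), xx c, mul_one]
    calc y r * x 1 * y r = y r * (x 1 * y r) := by group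
      _ = (y r * y r) * p r * x 1 := by rw [h4]; group
      _ = p r * x 1 := by rw [yy c, one_mul]
      _ = x 1 * p r := (c.px r 1).eq
  calc y r * k * x 1 * (y r * k)⁻¹ = y r * (k * x 1 * k⁻¹) * (y r)⁻¹ := by group
    _ = y r * (x 1 * p r) * y r := by rw [h1, yi c]
    _ = y r * x 1 * (p r * y r) := by group
    _ = (y r * x 1 * y r) * p r := by rw [← (c.yp r r).eq]; group
    _ = x 1 * (p r * p r) := by rw [h2]; group
    _ = x 1 := by rw [pp c, mul_one]

/-- (α) -/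
theorem alpha {k : G} (hk : k ∈ MG D (p 1))
    (hZ : ∀ z ∈ MG D (y 1), z ∈ MG D (p 1) → Commute k z) : k ∈ MG D (y 1) := by
  have hky : Commute k (y 1) := hZ _ (yM R c 1) (yM' R c 1)
  obtain ⟨r, hr⟩ := exists_adj R c hk
  have hk' : y r * k ∈ MG D (p 1) := mul_mem (yM' R c r) hk
  have hky' : Commute (y r * k) (y 1) := (zcomm c.y_add r 1).mul_left hky
  obtain ⟨e, κ₀, he, h0, h1⟩ := kappa R c hk' hr hky'
  have h2 : ∀ s : F, s ≠ 0 → e + κ₀ * s = 0 := by
    intro s hs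
    have hm := zeta_mem R c hk' hr hky' hs
    obtain ⟨u, v, β, hβ, hζ⟩ := Z_decomp R c (Subgroup.mem_inf.1 hm).1 (Subgroup.mem_inf.1 hm).2
    have h3 := h1 s hs u v β hβ hζ
    have h4 : Commute β (y r * k) :=
      ((gy R c (BG_left R c hβ) r)).mul_right (hZ β (BG_left R c hβ) (BG_right R c hβ)).symm
    have h5 : p (e + κ₀ * s) = 1 := by
      rw [← h3, conj_eq_of_comm h4]; group
    by_contra hne
    exact R.ne_one (c.p_D _ hne) h5
  obtain ⟨t, ht, ht1⟩ := c.q
  have h6 : κ₀ = 0 := by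
    have h7 := h2 1 one_ne_zero
    have h8 := h2 t ht
    have h9 : κ₀ * (1 + t) = 0 := by
      have := c.two e
      calc κ₀ * (1 + t) = (e + κ₀ * 1) + (e + κ₀ * t) - (e + e) := by ring
        _ = 0 := by rw [h7, h8, this]; ring
    rcases mul_eq_zero.1 h9 with h10 | h10
    · exact h10
    · exfalso
      apply ht1
      have := c.two 1
      calc t = (1 + t) - (1 + 1) + 1 := by ring
        _ = 1 := by rw [h10, this]; ring
  have h11 := h0 h6
  have : k = (y r)⁻¹ * (y r * k) := by group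
  rw [this]
  exact mul_mem (inv_mem (yM R c r)) h11

/-- Collinearity through `y` is transitive. -/
theorem comm_trans {a b d : G} (ha : a ∈ D) (hb : b ∈ D) (hd : d ∈ D) (hay : Commute a (y 1))
    (hby : Commute b (y 1)) (hdy : Commute d (y 1)) (hns : ¬ SimR D b (y 1)) (hab : Commute a b)
    (hdb : Commute d b) : Commute a d := by
  have hyD := c.y_D 1 one_ne_zero
  have h1 := R.line (y 1) hyD b hb a ha hby hns hay hab
  have h2 := R.line (y 1) hyD b hb d hd hby hns hdy hdb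
  have hcol : Col D (y 1) b := ⟨hyD, R.W hyD hb hby, hns⟩
  exact R.N.LS_comm hcol h1 h2

/-- the torus fixes only the lines `yf`, `yp` on `y`. -/
theorem two_lines {s : F} (hs : s ≠ 0) (hs1 : s ≠ 1) {e : G}
    (he : e ∈ D) (hey : Commute e (y 1)) (hep : ¬ Commute e (p 1))
    (hh : Commute (hN f x s * e * (hN f x s)⁻¹) e) : Commute e (f 1) := by
  obtain ⟨k, hk, hky, hkef⟩ := trans R c he hey hep
  set h := hN f x s with hhdef
  have hfD := c.f_D 1 one_ne_zero
  have hyD := c.y_D 1 one_ne_zero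
  have hpD := c.p_D 1 one_ne_zero
  set e' := k * e * k⁻¹ with he'
  have he'D : e' ∈ D := R.h.conj_mem e he k
  have he'y : Commute e' (y 1) := by
    have h1 : Commute e' (k * y 1 * k⁻¹) := conj_commute_iff.2 hey
    rwa [conj_eq_of_comm hky] at h1
  -- `h` normalises `E(f)`, `E(y)`, `E(p)`
  have hhy : h * y 1 * h⁻¹ = y s⁻¹ := by rw [hhdef, c.h_y hs, one_mul]
  have hhp : h * p 1 * h⁻¹ = p s := by rw [hhdef, c.h_p hs, one_mul]
  have hhf : h * f 1 * h⁻¹ = f (s⁻¹ * s⁻¹) := by rw [hhdef, c.h_f R hs, one_mul]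
  have hsi : s⁻¹ ≠ 0 := inv_ne_zero hs
  -- `k_h`
  set kh := h * k * h⁻¹ with hkh
  have hkhM : kh ∈ MG D (p 1) := by
    have h1 := R.MG_conj hk h
    rw [hhp, R.MG_eq hpD (pE R c s) (R.ne_one (c.p_D s hs))] at h1
    exact h1
  have hkhy : Commute kh (y 1) := by
    have h1 : Commute kh (h * y s * h⁻¹) := conj_commute_iff.2 (ky R c hk hky s)
    rwa [hhdef, c.h_y hs, mul_inv_cancel₀ hs] at h1
  have hhe'D : h * e' * h⁻¹ ∈ D := R.h.conj_mem _ he'D h
  have hhe'y : Commute (h * e' * h⁻¹) (y 1) := by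
    have h1 : Commute (h * e' * h⁻¹) (h * y 1 * h⁻¹) := conj_commute_iff.2 he'y
    rw [hhy] at h1
    exact R.comm_of hyD hhe'D (yE R c _) (R.ne_one (c.y_D _ hsi)) h1
  have hhe'f : Commute (h * e' * h⁻¹) (f 1) := by
    have h1 : Commute (h * e' * h⁻¹) (h * f 1 * h⁻¹) := conj_commute_iff.2 hkef
    rw [hhf] at h1
    exact R.comm_of hfD hhe'D (fE R c _) (R.ne_one (c.f_D _ (mul_ne_zero hsi hsi))) h1
  -- lines on `y`
  have hky1 : k⁻¹ * y 1 * k = y 1 := by rw [mul_assoc, ← hky.eq]; group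
  have hkhy1 : kh⁻¹ * y 1 * kh = y 1 := by rw [mul_assoc, ← hkhy.eq]; group
  have cj : ∀ (g a b : G), Commute a b → Commute (g⁻¹ * a * g) (g⁻¹ * b * g) := by
    intro g a b hab
    have h1 := (conj_commute_iff (g := g⁻¹)).2 hab
    rwa [inv_inv] at h1
  have memD : ∀ (g a : G), a ∈ D → g⁻¹ * a * g ∈ D := by
    intro g a ha
    have h1 := R.h.conj_mem a ha g⁻¹
    rwa [inv_inv] at h1
  -- a = `kh⁻¹ f kh`, b = `h e h⁻¹`, b' = `e`, d = `k⁻¹ f k`
  have ha : kh⁻¹ * f 1 * kh ∈ D := memD _ _ hfD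
  have hd : k⁻¹ * f 1 * k ∈ D := memD _ _ hfD
  have hay : Commute (kh⁻¹ * f 1 * kh) (y 1) := by
    have h1 := cj kh _ _ (c.fy 1 1)
    rwa [hkhy1] at h1
  have hdy : Commute (k⁻¹ * f 1 * k) (y 1) := by
    have h1 := cj k _ _ (c.fy 1 1)
    rwa [hky1] at h1
  have hheD : h * e * h⁻¹ ∈ D := R.h.conj_mem e he h
  have hhe : h * e * h⁻¹ = kh⁻¹ * (h * e' * h⁻¹) * kh := by rw [hkh, he']; group
  have hhey : Commute (h * e * h⁻¹) (y 1) := by
    have h1 := cj kh _ _ hhe'y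
    rw [hkhy1] at h1
    rwa [hhe]
  have hes : ¬ SimR D e (y 1) := fun hs' =>
    hep (R.comm_EG hyD hpD (c.yp 1 1).symm (R.mem_of_sim he hs')).symm
  have hhes : ¬ SimR D (h * e * h⁻¹) (y 1) := by
    intro hs'
    have h1 := R.comm_EG hyD hpD (c.yp 1 1).symm (R.mem_of_sim hheD hs')
    -- `p 1` commutes with `h e h⁻¹`
    have h2 : Commute (h * e * h⁻¹) (h * p s⁻¹ * h⁻¹) := by
      rw [hhdef, c.h_p hs, inv_mul_cancel₀ hs]; exact h1.symm
    have h3 : Commute e (p s⁻¹) := conj_commute_iff.1 h2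
    exact hep (R.comm_of hpD he (pE R c _) (R.ne_one (c.p_D _ hsi)) h3)
  have h1 : Commute (kh⁻¹ * f 1 * kh) (h * e * h⁻¹) := by
    rw [hhe]; exact cj kh _ _ hhe'f.symm
  have h2 : Commute (k⁻¹ * f 1 * k) e := by
    have h3 : e = k⁻¹ * e' * k := by rw [he']; group
    rw [h3]; exact cj k _ _ hkef.symm
  have h3 : Commute (kh⁻¹ * f 1 * kh) e :=
    comm_trans R c ha hheD he hay hhey hey hhes h1 hh.symm
  have h4 : Commute (kh⁻¹ * f 1 * kh) (k⁻¹ * f 1 * k) :=
    comm_trans R c ha he hd hay hey hdy hes h3 h2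
  -- `g = k kh⁻¹` fixes the line of `f`
  have h5 : Commute ((k * kh⁻¹) * f 1 * (k * kh⁻¹)⁻¹) (f 1) := by
    have h6 := (conj_commute_iff (g := k)).2 h4
    have e1 : k * (kh⁻¹ * f 1 * kh) * k⁻¹ = (k * kh⁻¹) * f 1 * (k * kh⁻¹)⁻¹ := by group
    have e2 : k * (k⁻¹ * f 1 * k) * k⁻¹ = f 1 := by group
    rwa [e1, e2] at h6
  have hgp : k * kh⁻¹ ∈ MG D (p 1) := mul_mem hk (inv_mem hkhM)
  have hgy : k * kh⁻¹ ∈ MG D (y 1) :=
    semireg R c hgp (hky.mul_left hkhy.inv_left) h5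
  -- `k` commutes with `B`
  have hkB : ∀ β ∈ BG D f y p x, Commute k β := by
    intro β hβ
    have h6 : β * k * β⁻¹ * k⁻¹ ∈ EG D (p 1) := R.comm_MG hpD (BG_right R c hβ) hk
    obtain ⟨a, ha⟩ := (c.p_iff _).1 h6
    have ha' : β * k * β⁻¹ = p a * k := by rw [← ha]; group
    have hβh : Commute β h := by
      rw [hhdef]; unfold hN wN
      exact ((((BG_f R c hβ _).mul_right (BG_x R c hβ _)).mul_right (BG_f R c hβ _))).mul_right
        (((BG_f R c hβ _).mul_right (BG_x R c hβ _)).mul_right (BG_f R c hβ _))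
    have h7 : β * kh * β⁻¹ = p (a * s) * kh := by
      have h8 : β * h * β⁻¹ = h := conj_eq_of_comm hβh
      calc β * kh * β⁻¹ = (β * h * β⁻¹) * (β * k * β⁻¹) * (β * h * β⁻¹)⁻¹ := by rw [hkh]; group
        _ = h * (p a * k) * h⁻¹ := by rw [h8, ha']
        _ = (h * p a * h⁻¹) * (h * k * h⁻¹) := by group
        _ = _ := by rw [hhdef, c.h_p hs]
    have h9 : Commute β (k * kh⁻¹) :=
      Z_comm R c (BG_left R c hβ) (BG_right R c hβ) hgy hgp
    have h10 : β * k * β⁻¹ = p (a * s) * k := by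
      have h11 : β * (k * kh⁻¹) * β⁻¹ = k * kh⁻¹ := conj_eq_of_comm h9
      have h12 := kp R c hgp (a * s)
      calc β * k * β⁻¹ = (β * (k * kh⁻¹) * β⁻¹) * (β * kh * β⁻¹) := by group
        _ = (k * kh⁻¹) * (p (a * s) * kh) := by rw [h11, h7]
        _ = ((k * kh⁻¹) * p (a * s)) * kh := by group
        _ = p (a * s) * k := by rw [h12.eq]; group
    have h13 : p a = p (a * s) := mul_right_cancel (ha'.symm.trans h10)
    have h14 : a = 0 := by
      by_contra hne
      have h15 : a + a * s ≠ 0 := by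
        intro h0
        have h16 : a * (1 + s) = 0 := by rw [← h0]; ring
        rcases mul_eq_zero.1 h16 with h17 | h17
        · exact hne h17
        · apply hs1
          have := c.two 1
          calc s = (1 + s) - (1 + 1) + 1 := by ring
            _ = 1 := by rw [h17, this]; ring
      apply R.ne_one (c.p_D _ h15)
      rw [c.p_add, ← h13, pp c]
    rw [h14, p0 c, one_mul] at ha'
    exact (comm_of_conj_eq ha').symm
  have hkM : k ∈ MG D (y 1) := by
    apply alpha R c hk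
    intro z hz1 hz2
    obtain ⟨u, v, β, hβ, rfl⟩ := Z_decomp R c hz1 hz2
    exact ((ky R c hk hky u).mul_right (kp R c hk v)).mul_right (hkB β hβ)
  -- `e' = e e''` with `e'' ∈ E(y)`
  obtain ⟨e'', he'', h6⟩ := R.MG_conj_eq hyD hkM (mem_MG he hey)
  have h7 : e = e' * e''⁻¹ := by rw [he', h6]; group
  rw [h7]
  exact hkef.mul_left ((R.comm_EG hyD hfD (c.fy 1 1) he'').symm.inv_left)

end setup

end Cfsg.Agent.H736.FarK
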