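import Mathlib
import Cfsg.Agent.H736.FarK
import Cfsg.Agent.H737.FarB
import Cfsg.Agent.H739.FarE2
import Cfsg.Agent.H738.FarCoord

/-!
# Rank 2 geometry of a class of root involutions: two tori

Two coordinate systems `c : NC D f y p x` and `c2 : NC D f2 y2 p2 x2` on the paths `f – y – p – x` and
`d₀ – f – y – p`, where the torus `H` of `c` fixes the point `d₀ = f2 1`.  Steps 5, 6, 7 of the proof
that there are no far pairs.
-/

set_option autoImplicit false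
set_option linter.unusedSectionVars false

namespace Cfsg.Agent.H736.FarS

open Cfsg Cfsg.Agent.H737 Cfsg.Agent.H736.Hole Cfsg.Agent.H737.Far Cfsg.Agent.H736.FarK

variable {G : Type*} [Group G] {D : Set G} {F : Type} [Field F] [Fintype F] [Finite G]

/-! ### Normalising a class -/

section norm

variable (R : R2 D)
include R

theorem EG_sim {a b : G} (ha : a ∈ D) (hb : b ∈ D) (h : SimR D a b) : EG D a = EG D b :=
  R.EG_eq hb (R.mem_of_sim ha h) (R.ne_one ha)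

theorem sim_comm {a b g : G} (ha : a ∈ D) (hb : b ∈ D) (hg : g ∈ D) (h : SimR D a b) :
    Commute g a ↔ Commute g b :=
  ⟨fun hh => R.comm_EG ha hg hh (R.mem_of_sim hb h.symm),
    fun hh => R.comm_EG hb hg hh (R.mem_of_sim ha h)⟩

theorem nz_eq {a h : G} (ha : a ∈ D) (hh : h * a * h⁻¹ ∈ EG D a) : EG D (h * a * h⁻¹) = EG D a :=
  R.EG_eq ha hh (R.ne_one (R.h.conj_mem a ha h))

theorem nz {a h z : G} (ha : a ∈ D) (hh : h * a * h⁻¹ ∈ EG D a) (hz : z ∈ EG D a) :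
    h * z * h⁻¹ ∈ EG D a := by
  have h1 := R.EG_conj hz h
  rwa [nz_eq R ha hh] at h1

theorem nz_inv {a h z : G} (ha : a ∈ D) (hh : h * a * h⁻¹ ∈ EG D a) (hz : z ∈ EG D a) :
    h⁻¹ * z * h ∈ EG D a := by
  rw [← nz_eq R ha hh] at hz
  have h1 := R.EG_conj hz h⁻¹
  have e : h⁻¹ * (h * a * h⁻¹) * h⁻¹⁻¹ = a := by group
  rw [e, inv_inv] at h1
  exact h1

theorem nz_comm {a h z : G} (ha : a ∈ D) (hh : h * a * h⁻¹ ∈ EG D a) (hz : z ∈ D) :
    Commute (h * z * h⁻¹) a ↔ Commute z a := by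
  have hD := R.h.conj_mem z hz h
  have hh1 : h * a * h⁻¹ ≠ 1 := R.ne_one (R.h.conj_mem a ha h)
  constructor
  · intro h1
    have h2 : Commute (h * z * h⁻¹) (h * a * h⁻¹) := R.comm_EG ha hD h1 hh
    exact conj_commute_iff.1 h2
  · intro h1
    exact R.comm_of ha hD hh hh1 (conj_commute_iff.2 h1)

theorem nz_one {a h z : G} (ha : a ∈ D) (hz : z ∈ EG D a) (hz1 : z ≠ 1)
    (hh : h * z * h⁻¹ ∈ EG D a) : h * a * h⁻¹ ∈ EG D a := by
  have hzD := R.mem_D ha hz hz1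
  have h1 : h * z * h⁻¹ ≠ 1 := R.ne_one (R.h.conj_mem z hzD h)
  have h2 : a ∈ EG D z := by rw [R.EG_eq ha hz hz1]; exact R.self_mem ha
  have h3 := R.EG_conj h2 h
  rwa [R.EG_eq ha hh h1] at h3

end norm

variable {f y p x f2 y2 p2 x2 : F → G}

/-- two coordinate systems on `d₀ – f – y – p – x`, the first torus fixes `d₀`. -/
structure Two (D : Set G) (f y p x f2 y2 p2 x2 : F → G) : Prop where
  c : NC D f y p x
  c2 : NC D f2 y2 p2 x2
  h1 : SimR D (y2 1) (f 1)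
  h2 : SimR D (p2 1) (y 1)
  h3 : SimR D (x2 1) (p 1)
  hH : ∀ s : F, s ≠ 0 → hN f x s * f2 1 * (hN f x s)⁻¹ ∈ EG D (f2 1)

section two

theorem fD (c : NC D f y p x) : f 1 ∈ D := c.f_D 1 one_ne_zero
theorem yD (c : NC D f y p x) : y 1 ∈ D := c.y_D 1 one_ne_zero
theorem pD (c : NC D f y p x) : p 1 ∈ D := c.p_D 1 one_ne_zero
theorem xD (c : NC D f y p x) : x 1 ∈ D := c.x_D 1 one_ne_zero

theorem hN_swap (c : NC D f y p x) {s : F} (hs : s ≠ 0) : hN x f s = hN f x s⁻¹ := by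
  unfold hN
  rw [c.w_swap one_ne_zero, c.w_swap hs, inv_one]

theorem hN_inv (c : NC D f y p x) {s : F} (hs : s ≠ 0) : (hN f x s)⁻¹ = hN f x s⁻¹ := by
  have h1 := c.h_mul hs (inv_ne_zero hs)
  rw [mul_inv_cancel₀ hs, c.h_one] at h1
  exact inv_eq_of_mul_eq_one_right h1.symm

theorem ww (c : NC D f y p x) {a b : F} (ha : a ≠ 0) (hb : b ≠ 0) :
    wN f x a * wN f x b = hN f x (a⁻¹ * b) := by
  rw [c.h_mul (inv_ne_zero ha) hb, ← hN_inv c ha, c.h_inv]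
  unfold hN
  calc wN f x a * wN f x b = wN f x a * 1 * wN f x b := by group
    _ = wN f x a * (wN f x 1 * wN f x 1) * wN f x b := by rw [c.w_sq]
    _ = _ := by group

variable (R : R2 D)
include R

theorem h_nf (c : NC D f y p x) {s : F} (hs : s ≠ 0) :
    hN f x s * f 1 * (hN f x s)⁻¹ ∈ EG D (f 1) := by
  rw [c.h_f R hs]; exact fE R c _
theorem h_ny (c : NC D f y p x) {s : F} (hs : s ≠ 0) :
    hN f x s * y 1 * (hN f x s)⁻¹ ∈ EG D (y 1) := by
  rw [c.h_y hs]; exact yE R c _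
theorem h_np (c : NC D f y p x) {s : F} (hs : s ≠ 0) :
    hN f x s * p 1 * (hN f x s)⁻¹ ∈ EG D (p 1) := by
  rw [c.h_p hs]; exact pE R c _
theorem h_nx (c : NC D f y p x) {s : F} (hs : s ≠ 0) :
    hN f x s * x 1 * (hN f x s)⁻¹ ∈ EG D (x 1) := by
  rw [c.h_x R hs]; exact xE R c _

/-- The normaliser of the two ends normalises the torus. -/
theorem conj_w (c : NC D f y p x) {h : G} (hf : h * f 1 * h⁻¹ ∈ EG D (f 1))
    (hx : h * x 1 * h⁻¹ ∈ EG D (x 1)) {t : F} (ht : t ≠ 0) :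
    ∃ t', t' ≠ 0 ∧ h * wN f x t * h⁻¹ = wN f x t' := by
  apply c.exists_w R (R.h.conj_mem _ (c.w_D R ht) h)
  have h1 := nz_inv R (fD c) hf (fE R c 1)
  obtain ⟨r, hr⟩ := (c.f_iff _).1 h1
  have h2 : h * wN f x t * h⁻¹ * f 1 * (h * wN f x t * h⁻¹) =
      h * (wN f x t * f r * wN f x t) * h⁻¹ := by rw [← hr]; group
  rw [h2, c.w_f R ht]
  exact nz R (xD c) hx (xE R c _)

theorem conj_h (c : NC D f y p x) {h : G} (hf : h * f 1 * h⁻¹ ∈ EG D (f 1))
    (hx : h * x 1 * h⁻¹ ∈ EG D (x 1)) {t : F} (ht : t ≠ 0) :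
    ∃ t', t' ≠ 0 ∧ h * hN f x t * h⁻¹ = hN f x t' := by
  obtain ⟨a, ha, h1⟩ := conj_w R c hf hx one_ne_zero
  obtain ⟨b, hb, h2⟩ := conj_w R c hf hx ht
  refine ⟨a⁻¹ * b, mul_ne_zero (inv_ne_zero ha) hb, ?_⟩
  rw [← ww c ha hb, ← h1, ← h2]
  unfold hN
  group

/-- a point of the line `px` fixed by the torus, different from `p`, is `x`. -/
theorem eq_x (c : NC D f y p x) {x' : G} (hx' : x' ∈ D) (hxx : Commute x' (x 1))
    (hxp : Commute x' (p 1)) (hxy : ¬ Commute x' (y 1)) {s : F} (hs : s ≠ 0) (hs1 : s ≠ 1)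
    (hfix : hN f x s * x' * (hN f x s)⁻¹ ∈ EG D x') : x' ∈ EG D (x 1) := by
  have hline := R.line (p 1) (pD c) (x 1) (xD c) x' hx' (c.px 1 1).symm (ns_xp R c) hxp hxx
  have hcol : Col D (p 1) (x 1) := ⟨pD c, R.W (pD c) (xD c) (c.px 1 1).symm, ns_xp R c⟩
  obtain ⟨a, ha, b, hb, rfl⟩ := (R.N.mem_LS hcol).1 hline
  obtain ⟨u, rfl⟩ := (c.p_iff _).1 ha
  obtain ⟨v, rfl⟩ := (c.x_iff _).1 hb
  have hv : v ≠ 0 := by
    rintro rfl
    apply hxy
    rw [c.x_zero, mul_one]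
    exact (c.yp 1 u).symm
  have hyx : ∀ r t, y r * x t * y r = x t * p (t * r) := by
    intro r t
    have h1 := c.xy t r
    have h2 : x t * y r = y r * p (t * r) * x t := by
      rw [← h1, mul_assoc _ (x t) (x t), c.x_sq, mul_one]
    calc y r * x t * y r = y r * (x t * y r) := by group
      _ = (y r * y r) * p (t * r) * x t := by rw [h2]; group
      _ = p (t * r) * x t := by rw [c.y_sq, one_mul]
      _ = _ := (c.px _ _).eq
  set r := u * v⁻¹ with hr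
  have hrv : v * r = u := by rw [hr]; field_simp
  have h3 : y r * x v * y r = p u * x v := by rw [hyx, hrv, (c.px u v).eq]
  have h4 : (y r)⁻¹ * (p u * x v) * (y r)⁻¹⁻¹ = x v := by
    rw [inv_inv, c.y_inv, ← h3]
    exact cj_cj (c.y_sq r)
  have h5 := R.EG_conj hfix (y r)⁻¹
  rw [h4, c.EG_x R hv] at h5
  have h6 : hN f x s * (p u * x v) * (hN f x s)⁻¹ = p (u * s) * x (v * s * s) := by
    calc hN f x s * (p u * x v) * (hN f x s)⁻¹
        = (hN f x s * p u * (hN f x s)⁻¹) * (hN f x s * x v * (hN f x s)⁻¹) := by group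
      _ = _ := by rw [c.h_p hs, c.h_x R hs]
  rw [h6, inv_inv, c.y_inv] at h5
  have h7 : y r * (p (u * s) * x (v * s * s)) * y r = p (u * s + v * s * s * r) * x (v * s * s) := by
    rw [cj_mul (c.y_sq r), cj_of_comm (c.y_sq r) (c.yp r _), hyx, c.p_add,
      ← (c.px (v * s * s * r) (v * s * s)).eq, mul_assoc (p (u * s))]
  rw [h7] at h5
  have h8 : p (u * s + v * s * s * r) ∈ EG D (x 1) := by
    have e : p (u * s + v * s * s * r) =
        (p (u * s + v * s * s * r) * x (v * s * s)) * (x (v * s * s))⁻¹ := by group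
    rw [e]
    exact mul_mem h5 (inv_mem (xE R c _))
  have h9 := R.EG_inter (xD c) (pD c) (ns_xp R c) h8 (pE R c _)
  have h10 := c.p_ne R h9
  have h11 : u * (s * (1 + s)) = 0 := by
    calc u * (s * (1 + s)) = u * s + u * s * s := by ring
      _ = u * s + (v * r) * s * s := by rw [hrv]
      _ = u * s + v * s * s * r := by ring
      _ = 0 := h10
  have h12 : u = 0 := by
    rcases mul_eq_zero.1 h11 with h | h
    · exact h
    · exfalso
      rcases mul_eq_zero.1 h with h | h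
      · exact hs h
      · apply hs1
        have := c.two 1
        calc s = (1 + s) - (1 + 1) + 1 := by ring
          _ = 1 := by rw [h, this]; ring
  rw [h12, c.p_zero, one_mul]
  exact xE R c v

/-- **step 5.** -/
theorem step5 (c : NC D f y p x) (c2 : NC D f2 y2 p2 x2) (_h1 : SimR D (y2 1) (f 1))
    (h2 : SimR D (p2 1) (y 1)) (h3 : SimR D (x2 1) (p 1))
    (hH : ∀ s : F, s ≠ 0 → hN f x s * f2 1 * (hN f x s)⁻¹ ∈ EG D (f2 1))
    (hl : ∀ s : F, s ≠ 0 → Commute (hN f2 x2 s * x 1 * (hN f2 x2 s)⁻¹) (x 1)) :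
    ∀ s : F, s ≠ 0 → hN f2 x2 s * x 1 * (hN f2 x2 s)⁻¹ ∈ EG D (x 1) := by
  have hxx2 : Commute (x 1) (x2 1) := (sim_comm R (xD c2) (pD c) (xD c) h3).2 (c.px 1 1).symm
  have hxp2 : ¬ Commute (x 1) (p2 1) := fun h =>
    nc_xy R c ((sim_comm R (pD c2) (yD c) (xD c) h2).1 h)
  have hinv : ∀ s : F, s ≠ 0 → Commute (hN x2 f2 s * x 1 * (hN x2 f2 s)⁻¹) (x 1) := by
    intro s hs
    rw [hN_swap c2 hs]; exact hl _ (inv_ne_zero hs)
  obtain ⟨x', hx', hx1, hx2, hx3, hfix, huniq⟩ :=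
    Cfsg.Agent.H739.FE.exists_fixed_point R c2.swap (xD c) hxx2 hxp2 hinv
  obtain ⟨t, ht, ht1⟩ := c.q
  -- `H` fixes `x'`
  have hHx : ∀ s : F, s ≠ 0 → hN f x s * x' * (hN f x s)⁻¹ ∈ EG D x' := by
    intro s hs
    set h := hN f x s with hh
    have hnx2 : h * x2 1 * h⁻¹ ∈ EG D (x2 1) := by
      rw [EG_sim R (xD c2) (pD c) h3]
      exact nz R (pD c) (h_np R c hs) (R.mem_of_sim (xD c2) h3)
    have hnp2 : h * p2 1 * h⁻¹ ∈ EG D (p2 1) := by
      rw [EG_sim R (pD c2) (yD c) h2]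
      exact nz R (yD c) (h_ny R c hs) (R.mem_of_sim (pD c2) h2)
    apply huniq _ (R.h.conj_mem x' hx' h)
    · exact (nz_comm R (xD c) (h_nx R c hs) hx').2 hx1
    · exact (nz_comm R (xD c2) hnx2 hx').2 hx2
    · exact fun h' => hx3 ((nz_comm R (pD c2) hnp2 hx').1 h')
    · refine ⟨t, ht, ht1, ?_⟩
      -- `h⁻¹ h₂ h` is in `H₂`
      have hi : h⁻¹ * f2 1 * h⁻¹⁻¹ ∈ EG D (f2 1) := by
        rw [inv_inv]; exact nz_inv R (fD c2) (hH s hs) (fE R c2 1)
      have hi2 : h⁻¹ * x2 1 * h⁻¹⁻¹ ∈ EG D (x2 1) := by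
        rw [inv_inv]; exact nz_inv R (xD c2) hnx2 (xE R c2 1)
      obtain ⟨t', ht', h5⟩ := conj_h R c2.swap hi2 hi ht
      rw [inv_inv] at h5
      have h6 : hN x2 f2 t * (h * x' * h⁻¹) * (hN x2 f2 t)⁻¹ =
          h * (hN x2 f2 t' * x' * (hN x2 f2 t')⁻¹) * h⁻¹ := by rw [← h5]; group
      rw [h6]
      exact R.EG_conj (hfix t' ht') h
  have hxp : Commute x' (p 1) := (sim_comm R (xD c2) (pD c) hx' h3).1 hx2
  have hxy : ¬ Commute x' (y 1) := fun h => hx3 ((sim_comm R (pD c2) (yD c) hx' h2).2 h)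
  have h7 : x' ∈ EG D (x 1) := eq_x R c hx' hx1 hxp hxy ht ht1 (hHx t ht)
  have h8 : EG D x' = EG D (x 1) := R.EG_eq (xD c) h7 (R.ne_one hx')
  intro s hs
  have h9 := hfix s⁻¹ (inv_ne_zero hs)
  rw [hN_swap c2 (inv_ne_zero hs), inv_inv] at h9
  rw [h8] at h9
  exact nz_one R (xD c) h7 (R.ne_one hx') h9

/-- **step 6.** -/
theorem step6 (c : NC D f y p x) (c2 : NC D f2 y2 p2 x2) (h1 : SimR D (y2 1) (f 1))
    (h2 : SimR D (p2 1) (y 1)) {e : G} (he : e ∈ D) (hey : Commute e (y 1))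
    (hef : ¬ Commute e (f 1)) (hep : ¬ Commute e (p 1)) {b : G} (hb : b ∈ BG D f y p x)
    (hc : ∀ s : F, s ≠ 0 → Commute b (hN f2 x2 s)) : b = 1 := by
  obtain ⟨t, ht, ht1⟩ := c.q
  have hbf := c.B_f hb 1
  -- `b` commutes with `E(f)`, `E(y)`
  have hb2 : Commute b (y2 1) := by
    obtain ⟨r, hr⟩ := (c.f_iff _).1 (R.mem_of_sim (yD c2) h1)
    rw [hr]; exact c.B_f hb r
  have hbp2 : Commute b (p2 1) := by
    obtain ⟨r, hr⟩ := (c.y_iff _).1 (R.mem_of_sim (pD c2) h2)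
    rw [hr]; exact c.B_y R hb r
  have hbD : b * f2 1 * b⁻¹ ∈ D := R.h.conj_mem _ (fD c2) b
  have h3 : Commute (b * f2 1 * b⁻¹) (y2 1) := by
    have h4 : Commute (b * f2 1 * b⁻¹) (b * y2 1 * b⁻¹) := conj_commute_iff.2 (c2.fy 1 1)
    rwa [conj_eq_of_comm hb2] at h4
  have h4 : ¬ Commute (b * f2 1 * b⁻¹) (p2 1) := by
    intro h
    rw [← conj_eq_of_comm hbp2] at h
    exact nc_fp R c2 (conj_commute_iff.1 h)
  have h5 : Commute (hN f2 x2 t * (b * f2 1 * b⁻¹) * (hN f2 x2 t)⁻¹) (b * f2 1 * b⁻¹) := by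
    have e1 : hN f2 x2 t * (b * f2 1 * b⁻¹) * (hN f2 x2 t)⁻¹ =
        b * (hN f2 x2 t * f2 1 * (hN f2 x2 t)⁻¹) * b⁻¹ := by
      have h6 := (hc t ht).eq
      have h7 : b⁻¹ * (hN f2 x2 t)⁻¹ = (hN f2 x2 t)⁻¹ * b⁻¹ := by
        rw [← mul_inv_rev, ← mul_inv_rev, h6]
      calc hN f2 x2 t * (b * f2 1 * b⁻¹) * (hN f2 x2 t)⁻¹
          = (hN f2 x2 t * b) * f2 1 * (b⁻¹ * (hN f2 x2 t)⁻¹) := by group
        _ = (b * hN f2 x2 t) * f2 1 * ((hN f2 x2 t)⁻¹ * b⁻¹) := by rw [← h6, h7]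
        _ = _ := by group
    rw [e1, c2.h_f R ht]
    exact conj_commute_iff.2 (c2.ff _ _)
  have h6 : Commute (b * f2 1 * b⁻¹) (f2 1) := two_lines R c2 ht ht1 hbD h3 h4 h5
  have hbM : b ∈ MG D (p2 1) := by
    rw [R.MG_eq_of_sim (yD c) (pD c2) h2]; exact c.B_My hb
  have h7 : b ∈ MG D (y2 1) := semireg R c2 hbM hb2 h6
  rw [R.MG_eq_of_sim (fD c) (yD c2) h1] at h7
  have h8 := gamma R c he hey hep hef h7 (c.B_My hb) (c.B_Mp hb)
  obtain ⟨u, rfl⟩ := (c.y_iff _).1 h8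
  have h9 := c.B_x hb 1
  have h10 := c.xy 1 u
  rw [← h9.eq, mul_assoc, c.x_sq, mul_one, one_mul] at h10
  have h11 : p u = 1 := mul_eq_left.1 h10.symm
  rw [c.p_ne R h11, c.y_zero]

theorem card_F (c : NC D f y p x) : Fintype.card F = Nat.card (EG D (f 1)) := by
  rw [← Nat.card_eq_fintype_card]
  refine Nat.card_congr (Equiv.ofBijective
    (fun s : F => (⟨f s, fE R c s⟩ : EG D (f 1))) ⟨?_, ?_⟩)
  · intro a b hab
    have h1 : f a = f b := congrArg Subtype.val hab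
    have h2 : f (a + b) = 1 := by rw [c.f_add, h1, c.f_sq]
    have h3 := c.f_ne R h2
    calc a = a + b + b := by rw [add_assoc, c.two, add_zero]
      _ = b := by rw [h3, zero_add]
  · rintro ⟨g, hg⟩
    obtain ⟨s, rfl⟩ := (c.f_iff _).1 hg
    exact ⟨s, rfl⟩

theorem BG_sq (c : NC D f y p x) {b : G} (hb : b ∈ BG D f y p x) : b * b = 1 :=
  Z_sq R c (c.B_My hb) (c.B_Mp hb)

/-- **step 7.** -/
theorem step7 (c : NC D f y p x) (c2 : NC D f2 y2 p2 x2) (h1 : SimR D (y2 1) (f 1))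
    (h2 : SimR D (p2 1) (y 1)) (h3 : SimR D (x2 1) (p 1))
    (hH : ∀ s : F, s ≠ 0 → hN f x s * f2 1 * (hN f x s)⁻¹ ∈ EG D (f2 1))
    (h5 : ∀ s : F, s ≠ 0 → hN f2 x2 s * x 1 * (hN f2 x2 s)⁻¹ ∈ EG D (x 1))
    {e1 : G} (he1 : e1 ∈ D) (hey1 : Commute e1 (y 1)) (hep1 : ¬ Commute e1 (p 1))
    (hef1 : ¬ Commute e1 (f 1)) {e : G} (he : e ∈ D)
    (hep : Commute e (p 1)) (hey : ¬ Commute e (y 1)) (hex : ¬ Commute e (x 1)) {g : G} (hg : g ∈ D)
    (hgx : Commute g (x 1)) (hgp : ¬ Commute g (p 1))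
    (hgH : ∀ s : F, s ≠ 0 → Commute (hN f2 x2 s * g * (hN f2 x2 s)⁻¹) g) :
    Commute g (wN f x 1 * f2 1 * wN f x 1) := by
  have hw := c.w_sq 1
  have hwD := c.w_D R one_ne_zero
  have hwi : (wN f x 1)⁻¹ = wN f x 1 := inv_of_sq hw
  set e0 := wN f x 1 * f2 1 * wN f x 1 with he0
  have he0D : e0 ∈ D := by
    have := R.h.conj_mem _ (fD c2) (wN f x 1)
    rwa [hwi] at this
  -- `e₀` commutes with `x`, not with `p`
  have hwf : wN f x 1 * f 1 * wN f x 1 = x 1 := c.w_f1 R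
  have hwy : wN f x 1 * y 1 * wN f x 1 = p 1 := by
    rw [c.w_y one_ne_zero, inv_one, mul_one]
  have hwp : wN f x 1 * p 1 * wN f x 1 = y 1 := by rw [c.w_p one_ne_zero, mul_one]
  have hwx : wN f x 1 * x 1 * wN f x 1 = f 1 := by rw [← hwf, cj_cj hw]
  have cjc : ∀ a b : G, Commute (wN f x 1 * a * wN f x 1) (wN f x 1 * b * wN f x 1) ↔
      Commute a b := by
    intro a b
    have := conj_commute_iff (g := wN f x 1) (a := a) (b := b)
    rwa [hwi] at this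
  have he0x : Commute e0 (x 1) := by
    rw [← hwf, he0]
    exact (cjc _ _).2 ((sim_comm R (yD c2) (fD c) (fD c2) h1).1 (c2.fy 1 1))
  have he0p : ¬ Commute e0 (p 1) := by
    rw [← hwy, he0]
    exact fun h => nc_fp R c2 ((sim_comm R (pD c2) (yD c) (fD c2) h2).2 ((cjc _ _).1 h))
  -- `H₂` normalises the points `f`, `y`, `p`, `x`, `e₀`
  have n1 : ∀ s : F, s ≠ 0 → hN f2 x2 s * f 1 * (hN f2 x2 s)⁻¹ ∈ EG D (f 1) := by
    intro s hs
    have := h_ny R c2 hs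
    rw [EG_sim R (yD c2) (fD c) h1] at this
    exact nz_one R (fD c) (R.mem_of_sim (yD c2) h1) (R.ne_one (yD c2)) this
  have n2 : ∀ s : F, s ≠ 0 → hN f2 x2 s * y 1 * (hN f2 x2 s)⁻¹ ∈ EG D (y 1) := by
    intro s hs
    have := h_np R c2 hs
    rw [EG_sim R (pD c2) (yD c) h2] at this
    exact nz_one R (yD c) (R.mem_of_sim (pD c2) h2) (R.ne_one (pD c2)) this
  have n3 : ∀ s : F, s ≠ 0 → hN f2 x2 s * p 1 * (hN f2 x2 s)⁻¹ ∈ EG D (p 1) := by
    intro s hs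
    have := h_nx R c2 hs
    rw [EG_sim R (xD c2) (pD c) h3] at this
    exact nz_one R (pD c) (R.mem_of_sim (xD c2) h3) (R.ne_one (xD c2)) this
  have n5 : ∀ s : F, s ≠ 0 → hN f2 x2 s * e0 * (hN f2 x2 s)⁻¹ ∈ EG D e0 := by
    intro s hs
    obtain ⟨r, hr, h6⟩ := conj_w R c (n1 s hs) (h5 s hs) one_ne_zero
    have h7 : hN f2 x2 s * f2 1 * (hN f2 x2 s)⁻¹ ∈ EG D (f2 1) := h_nf R c2 hs
    have h8 : wN f x r = wN f x 1 * hN f x r := by
      unfold hN
      calc wN f x r = 1 * wN f x r := by group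
        _ = (wN f x 1 * wN f x 1) * wN f x r := by rw [hw]
        _ = _ := by group
    have h8' : wN f x r = (hN f x r)⁻¹ * wN f x 1 := by
      rw [c.h_inv, mul_assoc, hw, mul_one]
    have h9 : hN f2 x2 s * e0 * (hN f2 x2 s)⁻¹ =
        wN f x 1 * (hN f x r * (hN f2 x2 s * f2 1 * (hN f2 x2 s)⁻¹) * (hN f x r)⁻¹) *
          wN f x 1 := by
      calc hN f2 x2 s * e0 * (hN f2 x2 s)⁻¹
          = (hN f2 x2 s * wN f x 1 * (hN f2 x2 s)⁻¹) * (hN f2 x2 s * f2 1 * (hN f2 x2 s)⁻¹) *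
            (hN f2 x2 s * wN f x 1 * (hN f2 x2 s)⁻¹) := by rw [he0]; group
        _ = wN f x r * (hN f2 x2 s * f2 1 * (hN f2 x2 s)⁻¹) * wN f x r := by rw [h6]
        _ = (wN f x 1 * hN f x r) * (hN f2 x2 s * f2 1 * (hN f2 x2 s)⁻¹) *
            ((hN f x r)⁻¹ * wN f x 1) := by rw [← h8, ← h8']
        _ = _ := by group
    rw [h9]
    have h10 : hN f x r * (hN f2 x2 s * f2 1 * (hN f2 x2 s)⁻¹) * (hN f x r)⁻¹ ∈ EG D (f2 1) :=
      nz R (fD c2) (hH r hr) h7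
    have h11 := R.EG_conj h10 (wN f x 1)
    rw [hwi] at h11
    exact h11
  -- coordinates on `e₀ – x – p – y`
  have hF : Fintype.card F = Nat.card (EG D e0) := (card_F R c).trans (R.N.card_EG (fD c) he0D)
  obtain ⟨f3, y3, p3, x3, c3, k1, k2, k3, k4⟩ := exists_NC R he0D (xD c) (pD c) (yD c) he0x
    (c.px 1 1).symm (c.yp 1 1).symm he0p (nc_xy R c) hF
  have hMp : MG D (p3 1) = MG D (p 1) := R.MG_eq_of_sim (pD c) (pD c3) k3
  have hMx : MG D (y3 1) = MG D (x 1) := R.MG_eq_of_sim (xD c) (yD c3) k2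
  have hgy3 : Commute g (y3 1) := (sim_comm R (yD c3) (xD c) hg k2).2 hgx
  have hgp3 : ¬ Commute g (p3 1) := fun h => hgp ((sim_comm R (pD c3) (pD c) hg k3).1 h)
  obtain ⟨k, hk, hky, hkg⟩ := trans R c3 hg hgy3 hgp3
  rw [hMp] at hk
  have hy3p : Commute (y3 1) (p 1) := (sim_comm R (pD c3) (pD c) (yD c3) k3).1 (c3.yp 1 1)
  have hns : ¬ SimR D (y3 1) (p 1) := fun h => ns_xp R c (k2.symm.trans h)
  have hkx : Commute k (x 1) := R.comm_class (pD c) (yD c3) hy3p hns hk hky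
    (R.mem_of_sim (xD c) k2.symm)
  obtain ⟨b, hb, hm⟩ := decomp_x R c he hep hey hex hk hkx
  have hbb := BG_sq R c hb
  have hbi : b⁻¹ = b := inv_of_sq hbb
  have hbx : b * x 1 * b⁻¹ = x 1 := conj_eq_of_comm (c.B_x hb 1)
  have hbgD : b * g * b⁻¹ ∈ D := R.h.conj_mem g hg b
  have hbgx : Commute (b * g * b⁻¹) (x 1) := by
    have := (conj_commute_iff (g := b)).2 hgx
    rwa [hbx] at this
  obtain ⟨e', he', h6⟩ := R.MG_conj_eq (xD c) hm (mem_MG hbgD hbgx)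
  have hkgk : k * g * k⁻¹ = b * g * b⁻¹ * e' := by
    rw [← h6, hbi]
    calc k * g * k⁻¹ = k * (b * b) * g * ((b * b) * k⁻¹) := by rw [hbb]; group
      _ = k * b * (b * g * b) * (b * k⁻¹) := by group
      _ = k * b * (b * g * b) * (b⁻¹ * k⁻¹) := by rw [hbi]
      _ = k * b * (b * g * b) * (k * b)⁻¹ := by rw [mul_inv_rev]
  have claim : Commute (b * g * b⁻¹) e0 := by
    have h7 : Commute (k * g * k⁻¹) e0 :=
      (sim_comm R (fD c3) he0D (R.h.conj_mem g hg k) k1).1 hkg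
    have h8 : Commute e' e0 := (R.comm_EG (xD c) he0D he0x he').symm
    have h9 : b * g * b⁻¹ = (k * g * k⁻¹) * e'⁻¹ := by rw [hkgk]; group
    rw [h9]
    exact h7.mul_left h8.inv_left
  -- collinearity through `x`
  have tr : ∀ {a q d : G}, a ∈ D → q ∈ D → d ∈ D → Commute a (x 1) → Commute q (x 1) →
      Commute d (x 1) → ¬ Commute q (p 1) → Commute a q → Commute d q → Commute a d := by
    intro a q d ha hq hd hax hqx hdx hqp haq hdq
    have hns : ¬ SimR D q (x 1) := fun h =>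
      hqp ((sim_comm R hq (xD c) (pD c) h).2 (c.px 1 1)).symm
    have m1 := R.line (x 1) (xD c) q hq a ha hqx hns hax haq
    have m2 := R.line (x 1) (xD c) q hq d hd hqx hns hdx hdq
    have hcol : Col D (x 1) q := ⟨xD c, R.W (xD c) hq hqx, hns⟩
    exact R.N.LS_comm hcol m1 m2
  have hbH : ∀ s : F, s ≠ 0 → Commute b (hN f2 x2 s) := by
    intro s hs
    set h := hN f2 x2 s with hh
    -- `b' = h b h⁻¹ ∈ B`
    have hMy' : h * b * h⁻¹ ∈ MG D (y 1) := by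
      have := R.MG_conj (c.B_My hb) h
      rwa [R.MG_eq (yD c) (n2 s hs) (R.ne_one (R.h.conj_mem _ (yD c) h))] at this
    have hMp' : h * b * h⁻¹ ∈ MG D (p 1) := by
      have := R.MG_conj (c.B_Mp hb) h
      rwa [R.MG_eq (pD c) (n3 s hs) (R.ne_one (R.h.conj_mem _ (pD c) h))] at this
    have hb'f : ∀ t, Commute (h * b * h⁻¹) (f t) := by
      intro t
      obtain ⟨r, hr'⟩ := (c.f_iff _).1 (nz_inv R (fD c) (n1 s hs) (fE R c t))
      have hr : h⁻¹ * f t * h = f r := hr'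
      have e1 : f t = h * f r * h⁻¹ := by rw [← hr]; group
      rw [e1]; exact conj_commute_iff.2 (c.B_f hb r)
    have hb'x : ∀ t, Commute (h * b * h⁻¹) (x t) := by
      intro t
      obtain ⟨r, hr'⟩ := (c.x_iff _).1 (nz_inv R (xD c) (h5 s hs) (xE R c t))
      have hr : h⁻¹ * x t * h = x r := hr'
      have e1 : x t = h * x r * h⁻¹ := by rw [← hr]; group
      rw [e1]; exact conj_commute_iff.2 (c.B_x hb r)
    set b' := h * b * h⁻¹ with hb'
    have hb'B : b' ∈ BG D f y p x := c.mem_B hMy' hMp' hb'f hb'x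
    have hb'x1 : b' * x 1 * b'⁻¹ = x 1 := conj_eq_of_comm (hb'x 1)
    have hb'p1 : b' * p 1 * b'⁻¹ = p 1 := conj_eq_of_comm (c.B_p R hb'B 1)
    have hhg : h * g * h⁻¹ ∈ D := R.h.conj_mem g hg h
    have hhgx : Commute (h * g * h⁻¹) (x 1) := (nz_comm R (xD c) (h5 s hs) hg).2 hgx
    have hhgp : ¬ Commute (h * g * h⁻¹) (p 1) := fun hh' =>
      hgp ((nz_comm R (pD c) (n3 s hs) hg).1 hh')
    -- `q = b' (h g h⁻¹) b'⁻¹` commutes with `e₀`
    have q1 : Commute (b' * (h * g * h⁻¹) * b'⁻¹) e0 := by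
      have e1 : b' * (h * g * h⁻¹) * b'⁻¹ = h * (b * g * b⁻¹) * h⁻¹ := by rw [hb']; group
      rw [e1]
      exact (nz_comm R he0D (n5 s hs) hbgD).2 claim
    have q2 : Commute (b' * g * b'⁻¹) (b' * (h * g * h⁻¹) * b'⁻¹) :=
      conj_commute_iff.2 (hgH s hs).symm
    have cx : ∀ z, Commute z (x 1) → Commute (b' * z * b'⁻¹) (x 1) := by
      intro z hz
      have := (conj_commute_iff (g := b')).2 hz
      rwa [hb'x1] at this
    have q3 : ¬ Commute (b' * (h * g * h⁻¹) * b'⁻¹) (p 1) := by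
      intro hh'
      rw [← hb'p1] at hh'
      exact hhgp (conj_commute_iff.1 hh')
    have q4 : Commute (b' * g * b'⁻¹) e0 :=
      tr (R.h.conj_mem g hg b') (R.h.conj_mem _ hhg b') he0D (cx _ hgx) (cx _ hhgx) he0x q3 q2
        q1.symm
    -- `b⁻¹ e₀ b`, `g`, `b'⁻¹ e₀ b'`
    have cj' : ∀ (a u v : G), Commute (a * u * a⁻¹) v → Commute u (a⁻¹ * v * a) := by
      intro a u v huv
      have h1 := (conj_commute_iff (g := a⁻¹)).2 huv
      have e1 : a⁻¹ * (a * u * a⁻¹) * a⁻¹⁻¹ = u := by group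
      rw [e1, inv_inv] at h1
      exact h1
    have r1 : Commute g (b⁻¹ * e0 * b) := cj' b g e0 claim
    have r2 : Commute g (b'⁻¹ * e0 * b') := cj' b' g e0 q4
    have memD : ∀ a : G, a⁻¹ * e0 * a ∈ D := by
      intro a
      have := R.h.conj_mem e0 he0D a⁻¹
      rwa [inv_inv] at this
    have xc : ∀ a : G, a * x 1 * a⁻¹ = x 1 → Commute (a⁻¹ * e0 * a) (x 1) := by
      intro a ha
      have h1 : a⁻¹ * x 1 * a = x 1 := by
        calc a⁻¹ * x 1 * a = a⁻¹ * (a * x 1 * a⁻¹) * a := by rw [ha]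
          _ = x 1 := by group
      have h2 := (conj_commute_iff (g := a⁻¹)).2 he0x
      rw [inv_inv, h1] at h2
      exact h2
    have r3 : Commute (b⁻¹ * e0 * b) (b'⁻¹ * e0 * b') :=
      tr (memD b) hg (memD b') (xc b hbx) hgx (xc b' hb'x1) hgp r1.symm r2.symm
    have r4 : Commute ((b' * b⁻¹) * e0 * (b' * b⁻¹)⁻¹) e0 := by
      have h1 := (conj_commute_iff (g := b')).2 r3
      have e1 : b' * (b⁻¹ * e0 * b) * b'⁻¹ = (b' * b⁻¹) * e0 * (b' * b⁻¹)⁻¹ := by group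
      have e2 : b' * (b'⁻¹ * e0 * b') * b'⁻¹ = e0 := by group
      rwa [e1, e2] at h1
    set j := b' * b⁻¹ with hj
    have hjB : j ∈ BG D f y p x := mul_mem hb'B (inv_mem hb)
    have hjD : j * e0 * j⁻¹ ∈ D := R.h.conj_mem e0 he0D j
    have r5 : Commute (j * f3 1 * j⁻¹) (f3 1) := by
      have m1 : f3 1 ∈ EG D e0 := R.mem_of_sim (fD c3) k1
      have m2 : j * f3 1 * j⁻¹ ∈ EG D (j * e0 * j⁻¹) := R.EG_conj m1 j
      have m3 : Commute e0 (j * f3 1 * j⁻¹) := R.comm_EG hjD he0D r4.symm m2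
      exact R.comm_EG he0D (R.h.conj_mem _ (fD c3) j) m3.symm m1
    have hjp3 : j ∈ MG D (p3 1) := by rw [hMp]; exact c.B_Mp hjB
    have hjy3 : Commute j (y3 1) := by
      obtain ⟨r, hr⟩ := (c.x_iff _).1 (R.mem_of_sim (yD c3) k2)
      rw [hr]; exact c.B_x hjB r
    have r6 : j ∈ MG D (y3 1) := semireg R c3 hjp3 hjy3 r5
    rw [hMx] at r6
    have r7 : j ∈ EG D (p 1) := gamma R c.swap he hep hey hex r6 (c.B_Mp hjB) (c.B_My hjB)
    obtain ⟨u, hu⟩ := (c.p_iff _).1 r7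
    have r8 : u = 0 := by
      have h1 := c.fp 1 u
      have h2 := c.B_f hjB 1
      rw [hu] at h2
      rw [← h2.eq, mul_assoc, c.f_sq, mul_one, one_mul] at h1
      exact c.y_ne R (mul_eq_left.1 h1.symm)
    have r9 : b' = b := by
      have : j = 1 := by rw [hu, r8, c.p_zero]
      calc b' = j * b := by rw [hj]; group
        _ = b := by rw [this, one_mul]
    have r10 : h * b * h⁻¹ = b := r9
    exact (comm_of_conj_eq r10).symm
  have t5 := step6 R c c2 h1 h2 he1 hey1 hef1 hep1 hb hbH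
  rw [t5, one_mul, inv_one, mul_one] at claim
  exact claim

end two

end Cfsg.Agent.H736.FarS
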