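import Mathlib
import Cfsg.Agent.H736.Near

/-!
# Root involutions: shears of a line

`Sh D M` is the set of the members of `D` acting as nontrivial shears on the line `M` (the axis being a
point `E(d')` with `a ∈ W_{d'}`).  Shears with different axes are opposite (`opp_of_shears`, "no
pentagons"), shears with the same axis are not.
-/

set_option autoImplicit false

namespace Cfsg.Agent.H736.Hole

open Cfsg Cfsg.Agent.H737

variable {G : Type*} [Group G] {D : Set G}

namespace ND

variable [Finite G]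

/-- A member of `W_d` normalises every line through `d`. -/
theorem conj_LS_of_W (N : ND D) {d z v x : G} (c : Col D d z) (hv : v ∈ WSet D d)
    (hx : x ∈ LS D d z) : v * x * v ∈ LS D d z ∧ cm v x ∈ EG D d := by
  obtain ⟨s, hs, t, ht, rfl⟩ := (N.mem_LS c).1 hx
  have hvs : Commute v s := comm_EG N.h N.hc c.left hv.1 hv.2.1 hs
  have hvv := sq_of_mem N.h hv.1
  have hss := EG_sq N.h N.hc c.left hs
  have htt := EG_sq N.h N.hc c.right ht
  have hst := N.LS_comm' c hs ht
  have h1 : cm v t ∈ EG D d := by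
    by_cases ht1 : t = 1
    · rw [ht1, cm_of_comm hvv (one_mul 1) (Commute.one_right v)]; exact one_mem _
    · exact N.comm_mem c.left (N.col_sim_right c (N.mem_EC c.right ht ht1)).2.1 hv
  have h2 : cm v (s * t) = cm v t := by
    have e1 : cm v s = 1 := cm_of_comm hvv hss hvs
    rw [cm_mul hvv hss hst (by rw [e1]; exact Commute.one_left t), e1, one_mul]
  refine ⟨?_, by rw [h2]; exact h1⟩
  rw [conj_eq_mul_cm (N.LS_sq c hx), h2]
  exact Subgroup.mul_mem _ hx (Subgroup.mem_sup_left h1)

/-- `C_M(v) = E(d)` for `v ∈ W_d` not commuting with `z`. -/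
theorem mem_EG_of_comm (N : ND D) {d z v x : G} (c : Col D d z) (hv : v ∈ WSet D d)
    (hvz : ¬ Commute v z) (hx : x ∈ LS D d z) (hvx : Commute v x) : x ∈ EG D d := by
  obtain ⟨s, hs, t, ht, rfl⟩ := (N.mem_LS c).1 hx
  have hvs : Commute v s := comm_EG N.h N.hc c.left hv.1 hv.2.1 hs
  have hvt : Commute v t := by
    have e1 : t = s⁻¹ * (s * t) := by group
    rw [e1]; exact hvs.inv_right.mul_right hvx
  have ht1 := N.eq_one_of_comm c.right ht hv.1 hvz hvt
  rw [ht1, mul_one]; exact hs

/-- A member of `D` normalising `E(d)` commutes with `d`. -/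
theorem comm_of_norm (N : ND D) {c d : G} (hd : d ∈ D) (hc : c ∈ D) (h : c * d * c ∈ EG D d) :
    Commute c d := by
  have hcc := sq_of_mem N.h hc
  have hdd := sq_of_mem N.h hd
  have hdE := N.self_mem hd
  have hcom : Commute d (c * d * c) := EG_comm N.h N.hc hd hdE h
  have h1 : Commute c (cm c d) := by
    have e1 : c * cm c d * c = cm c d := by
      unfold cm
      calc c * (d * (c * d * c)) * c = (c * d * c) * d * (c * c) := by group
        _ = (c * d * c) * d := by rw [hcc, mul_one]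
        _ = d * (c * d * c) := by rw [hcom.eq]
    show c * cm c d = cm c d * c
    calc c * cm c d = (c * cm c d * c) * c := by rw [mul_assoc (c * cm c d), hcc, mul_one]
      _ = cm c d * c := by rw [e1]
  have h2 : cm c d ∈ EG D d := Subgroup.mul_mem _ hdE h
  by_cases h3 : cm c d = 1
  · exact comm_of_cm hcc hdd h3
  · have h4 := N.mem_EC hd h2 h3
    exact sim_centralize N.h N.hc hc h4.1 hd h4.2 h1

/-- **Shears with different axes are opposite** (no pentagons). -/
theorem opp_of_shears (N : ND D) {d z v w : G} (c : Col D d z) (hv : v ∈ WSet D d)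
    (hvz : ¬ Commute v z) (hw : w ∈ WSet D z) (hwd : ¬ Commute w d) : Opp v w := by
  have hvv := sq_of_mem N.h hv.1
  have hww := sq_of_mem N.h hw.1
  have hzz := sq_of_mem N.h c.right
  have hdd := sq_of_mem N.h c.left
  have hdL : d ∈ LS D d z := Subgroup.mem_sup_left (N.self_mem c.left)
  have hzL : z ∈ LS D d z := Subgroup.mem_sup_right (N.self_mem c.right)
  have c' := N.col_symm c
  have hwL : ∀ x ∈ LS D d z, w * x * w ∈ LS D d z := by
    intro x hx
    rw [N.LS_swap] at hx ⊢
    exact (N.conj_LS_of_W c' hw hx).1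
  have hvL : ∀ x ∈ LS D d z, v * x * v ∈ LS D d z := fun x hx => (N.conj_LS_of_W c hv hx).1
  -- `w` does not commute with `[z, v]`
  have k1 : cm v z ∈ EG D d := (N.conj_LS_of_W c hv hzL).2
  have k2 : cm v z ≠ 1 := fun h1 => hvz (comm_of_cm hvv hzz h1)
  have k3 : ¬ Commute w (v * z * v) := by
    intro h1
    have h2 : Commute w (cm v z) := by unfold cm; exact hw.2.1.mul_right h1
    have h3 := N.mem_EC c.left k1 k2
    exact hwd (sim_centralize N.h N.hc hw.1 h3.1 c.left h3.2 h2)
  rcases opp_trichotomy N.h hv.1 hw.1 with h1 | h1 | h1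
  · exfalso
    apply k3
    exact (h1.symm.mul_right hw.2.1).mul_right h1.symm
  · exact h1
  exfalso
  obtain ⟨h4, hcD⟩ := h1
  set k : G := v * (w * v * w) with hk
  have hvw : Commute v (w * v * w) := commute_of_order_four hvv hww h4
  have hkv : Commute k v := (Commute.refl v).mul_left hvw.symm
  have hkw : Commute k w := by
    show v * (w * v * w) * w = w * (v * (w * v * w))
    calc v * (w * v * w) * w = v * (w * v) * (w * w) := by group
      _ = (w * w) * (v * (w * v)) := by rw [hww, mul_one, one_mul]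
      _ = w * ((w * v * w) * v) := by group
      _ = w * (v * (w * v * w)) := by rw [hvw.eq]
  have hkk := sq_of_mem N.h hcD
  have hkL : ∀ x ∈ LS D d z, k * x * k ∈ LS D d z := by
    intro x hx
    have e1 : k * x * k = v * (w * (v * (w * x * w) * v) * w) * v := by
      have e2 : k = w * v * w * v := by rw [hk, hvw.eq]
      nth_rewrite 2 [e2]
      rw [hk]; group
    rw [e1]
    exact hvL _ (hwL _ (hvL _ (hwL _ hx)))
  have hkd : Commute k d := by
    apply N.comm_of_norm c.left hcD
    apply N.mem_EG_of_comm c hv hvz (hkL d hdL)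
    exact (hkv.symm.mul_right hv.2.1).mul_right hkv.symm
  have hkz : Commute k z := by
    apply N.comm_of_norm c.right hcD
    have h5 := hkL z hzL
    rw [N.LS_swap] at h5
    apply N.mem_EG_of_comm c' hw hwd h5
    exact (hkw.symm.mul_right hw.2.1).mul_right hkw.symm
  apply k3
  -- `v w` and `w v` act in the same way on `z`
  have e1 : k * z * k = z := by rw [hkz.eq, mul_assoc, hkk, mul_one]
  have e2 : w * z * w = z := by rw [hw.2.1.eq, mul_assoc, hww, mul_one]
  have e3 : v * w * (v * z * v) * w * v = z := by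
    have e4 : k = w * v * w * v := by rw [hk, hvw.eq]
    calc v * w * (v * z * v) * w * v = v * w * (v * (w * z * w) * v) * w * v := by rw [e2]
      _ = (v * (w * v * w)) * z * (w * v * w * v) := by group
      _ = k * z * k := by rw [← hk, ← e4]
      _ = z := e1
  have e5 : w * (v * z * v) * w = v * z * v := by
    calc w * (v * z * v) * w = (v * v) * (w * (v * z * v) * w) * (v * v) := by
          rw [hvv, one_mul, mul_one]
      _ = v * (v * w * (v * z * v) * w * v) * v := by group
      _ = v * z * v := by rw [e3]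
  show w * (v * z * v) = v * z * v * w
  calc w * (v * z * v) = (w * (v * z * v) * w) * w := by
        rw [mul_assoc (w * (v * z * v)), hww, mul_one]
    _ = v * z * v * w := by rw [e5]

/-- For collinear `z`, `d` there is a member of `W_z` not commuting with `d`. -/
theorem exists_shear (N : ND D) {d z : G} (c : Col D z d) :
    ∃ f ∈ WSet D z, ¬ Commute f d := by
  obtain ⟨e0, q⟩ := exists_cfg N.h N.hc c.left c.2.1 c.2.2
  obtain ⟨k1, k2, k3, k4⟩ := q.key (mem_EC_self c.left)
  exact ⟨cm e0 z, k2, k4 d c.right q.hev⟩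

/-- Completing a shear to a path. -/
theorem exists_path (N : ND D) {d z v : G} (c : Col D d z) (hv : v ∈ WSet D d)
    (hvz : ¬ Commute v z) : ∃ e, Path D v d z e := by
  obtain ⟨f, hf, hfd⟩ := N.exists_shear (N.col_symm c)
  have ho := N.opp_of_shears c hv hvz hf hfd
  refine ⟨f, ⟨c.left, hv, ?_⟩, c, ⟨c.right, hf, ?_⟩, Opp.symm' N.h hv.1 hf.1 ho⟩
  · intro hs
    exact hvz (sim_centralize N.h N.hc c.right c.left hv.1 hs.symm c.comm).symm
  · intro hs
    have h1 : Commute d f := sim_centralize N.h N.hc c.left c.right hf.1 hs.symm c.comm.symm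
    exact hfd h1.symm

end ND

/-- The shears of `M` in `D`. -/
def Sh (D : Set G) (M : Subgroup G) : Set G :=
  {a | ∃ d', d' ∈ M ∧ d' ≠ 1 ∧ a ∈ WSet D d' ∧ ∃ x ∈ M, ¬ Commute a x}

section Sh

variable [Finite G] {d z : G}

/-- The data of a shear. -/
theorem sh_data (N : ND D) (c : Col D d z) {a d' : G} (hd' : d' ∈ LS D d z) (hd'1 : d' ≠ 1)
    (ha : a ∈ WSet D d') (hx : ∃ x ∈ LS D d z, ¬ Commute a x) :
    ∃ z' e', Path D a d' z' e' ∧ z' ∈ LS D d z ∧ LS D d' z' = LS D d z := by
  obtain ⟨x, hx, hax⟩ := hx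
  have hd'D := N.LS_mem c hd' hd'1
  have hx1 : x ≠ 1 := fun h1 => hax (by rw [h1]; exact Commute.one_right a)
  have hns : ¬ SimR D x d' := by
    intro hs
    exact hax (comm_EG N.h N.hc hd'D ha.1 ha.2.1 (Subgroup.subset_closure ⟨N.LS_mem c hx hx1, hs⟩))
  have c' := N.col_of_LS c hd' hx hd'1 hx1 hns
  obtain ⟨e', p⟩ := N.exists_path c' ha hax
  exact ⟨x, e', p, hx, N.LS_eq c hd' hx c'⟩

theorem sh_exists (N : ND D) (c : Col D d z) {a : G} (ha : a ∈ Sh D (LS D d z)) :
    ∃ d' z' e', d' ∈ LS D d z ∧ Path D a d' z' e' ∧ z' ∈ LS D d z ∧ LS D d' z' = LS D d z := by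
  obtain ⟨d', h1, h2, h3, h4⟩ := ha
  obtain ⟨z', e', h5, h6, h7⟩ := sh_data N c h1 h2 h3 h4
  exact ⟨d', z', e', h1, h5, h6, h7⟩

theorem Path.sh {v e : G} (p : Path D v d z e) (N : ND D) : v ∈ Sh D (LS D d z) :=
  ⟨d, Subgroup.mem_sup_left (N.self_mem p.hd), ne_one_of_mem N.h p.hd, p.vd.2.1,
    z, Subgroup.mem_sup_right (N.self_mem p.hz), p.ncv N⟩

theorem sh_conj (N : ND D) {M : Subgroup G} {a g : G} (ha : a ∈ Sh D M)
    (hg : ∀ x ∈ M, g * x * g⁻¹ ∈ M) : g * a * g⁻¹ ∈ Sh D M := by
  obtain ⟨d', h1, h2, h3, x, h4, h5⟩ := ha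
  refine ⟨g * d' * g⁻¹, hg _ h1, ?_, WSet_conj N.h h3 g, g * x * g⁻¹, hg _ h4, ?_⟩
  · intro h; apply h2; simpa using h
  · intro h; exact h5 ((commute_conj_iff' g a x).1 h)

/-- Two shears have the same axis or are opposite. -/
theorem sh_pair (N : ND D) (c : Col D d z) {a b da db : G} (hda : da ∈ LS D d z) (hda1 : da ≠ 1)
    (haW : a ∈ WSet D da) (hax : ∃ x ∈ LS D d z, ¬ Commute a x)
    (hdb : db ∈ LS D d z) (hdb1 : db ≠ 1)
    (hbW : b ∈ WSet D db) (hbx : ∃ x ∈ LS D d z, ¬ Commute b x) (hns : ¬ SimR D db da) :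
    Opp a b := by
  obtain ⟨za, ea, pa, hza, hLa⟩ := sh_data N c hda hda1 haW hax
  obtain ⟨zb, eb, pb, hzb, hLb⟩ := sh_data N c hdb hdb1 hbW hbx
  have c' := N.col_of_LS c hda hdb hda1 hdb1 hns
  apply N.opp_of_shears c' haW ?_ hbW ?_
  · intro h1
    have h2 := (pa.comm_v_iff N (by rw [hLa]; exact hdb)).1 h1
    have h3 := N.mem_EC c'.left h2 hdb1
    exact hns h3.2
  · intro h1
    have h2 := (pb.comm_v_iff N (by rw [hLb]; exact hda)).1 h1
    have h3 := N.mem_EC c'.right h2 hda1
    exact hns h3.2.symm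

end Sh

end Cfsg.Agent.H736.Hole
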