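import Mathlib
import Cfsg.Agent.H736.Shear
import Cfsg.Agent.H803.RankOne
import Cfsg.Agent.H803.RankOneMore
import Cfsg.Agent.H803.RankOneFacts
import Cfsg.Agent.S1163

/-!
# Root involutions: the action of `⟨E(v), E(e)⟩` on the line `M` of a near pair

`act : ⟨E(v), E(e)⟩ →* Aut(M)`; its range is `L₂(q)` (`Path.range_iso`).
-/

set_option autoImplicit false

namespace Cfsg.Agent.H736.Hole

open Cfsg Cfsg.Agent.H737

variable {G : Type*} [Group G] {D : Set G}

theorem conj_conj_comm {a b x : G} (hxx : x * x = 1) (ca : Commute a (cm b x))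
    (cb : Commute b (cm a x)) (cab : Commute (cm a x) (cm b x)) :
    a * b * x * (b * a) = b * a * x * (a * b) := by
  calc a * b * x * (b * a) = a * (b * x * b) * a := by group
    _ = a * (x * cm b x) * a := by rw [conj_eq_mul_cm hxx]
    _ = a * x * (cm b x * a) := by group
    _ = a * x * (a * cm b x) := by rw [← ca.eq]
    _ = (a * x * a) * cm b x := by group
    _ = x * cm a x * cm b x := by rw [conj_eq_mul_cm hxx]
    _ = x * (cm a x * cm b x) := by group
    _ = x * (cm b x * cm a x) := by rw [cab.eq]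
    _ = (b * x * b) * cm a x := by rw [conj_eq_mul_cm (x := x) hxx]; group
    _ = b * x * (b * cm a x) := by group
    _ = b * x * (cm a x * b) := by rw [cb.eq]
    _ = b * (x * cm a x) * b := by group
    _ = b * (a * x * a) * b := by rw [conj_eq_mul_cm hxx]
    _ = b * a * x * (a * b) := by group

namespace Path

variable [Finite G] {v d z e : G}

theorem norm_le (p : Path D v d z e) (N : ND D) :
    YG D v e ≤ Subgroup.normalizer (LS D d z : Set G) := by
  intro y hy x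
  constructor
  · exact fun h1 => p.conj_Y N hy x h1
  · intro h1
    have h2 := p.conj_Y N (inv_mem hy) _ h1
    have e1 : y⁻¹ * (y * x * y⁻¹) * y⁻¹⁻¹ = x := by group
    rwa [e1] at h2

/-- The action on the line. -/
noncomputable def act (p : Path D v d z e) (N : ND D) : ↥(YG D v e) →* MulAut ↥(LS D d z) :=
  (Subgroup.normalizerMonoidHom (LS D d z)).comp (Subgroup.inclusion (p.norm_le N))

theorem act_apply (p : Path D v d z e) (N : ND D) (y : YG D v e) (x : LS D d z) :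
    ((p.act N y x : LS D d z) : G) = y * x * (y : G)⁻¹ := rfl

theorem act_eq_iff (p : Path D v d z e) (N : ND D) {y y' : YG D v e} :
    p.act N y = p.act N y' ↔ ∀ x ∈ LS D d z, (y : G) * x * (y : G)⁻¹ = y' * x * (y' : G)⁻¹ := by
  constructor
  · intro h x hx
    have h1 := congrArg (fun f : MulAut ↥(LS D d z) => ((f ⟨x, hx⟩ : LS D d z) : G)) h
    exact h1
  · intro h
    ext x
    rw [act_apply, act_apply]
    exact h x x.2

/-- The image of the action. -/
abbrev XR (p : Path D v d z e) (N : ND D) : Type _ := ↥(p.act N).range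

/-- The projection. -/
noncomputable def pi (p : Path D v d z e) (N : ND D) : ↥(YG D v e) →* p.XR N :=
  (p.act N).rangeRestrict

theorem pi_surj (p : Path D v d z e) (N : ND D) : Function.Surjective (p.pi N) :=
  (p.act N).rangeRestrict_surjective

theorem pi_eq_iff (p : Path D v d z e) (N : ND D) {y y' : YG D v e} :
    p.pi N y = p.pi N y' ↔ ∀ x ∈ LS D d z, (y : G) * x * (y : G)⁻¹ = y' * x * (y' : G)⁻¹ := by
  rw [← p.act_eq_iff N]
  exact Subtype.ext_iff

theorem pi_eq_one_iff (p : Path D v d z e) (N : ND D) {y : YG D v e} :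
    p.pi N y = 1 ↔ ∀ x ∈ LS D d z, Commute (y : G) x := by
  rw [← map_one (p.pi N), p.pi_eq_iff N]
  constructor
  · intro h x hx
    have h1 := h x hx
    simp only [OneMemClass.coe_one, one_mul, inv_one, mul_one] at h1
    show (y : G) * x = x * y
    calc (y : G) * x = (y * x * (y : G)⁻¹) * y := by group
      _ = x * y := by rw [h1]
  · intro h x hx
    simp only [OneMemClass.coe_one, one_mul, inv_one, mul_one]
    rw [(h x hx).eq]; group

/-- The image of the shears. -/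
def DX (p : Path D v d z e) (N : ND D) : Set (p.XR N) :=
  {x | ∃ a : YG D v e, (a : G) ∈ Sh D (LS D d z) ∧ p.pi N a = x}

/-- The axis data of a shear in `Y`. -/
theorem axis (p : Path D v d z e) (N : ND D) {a : G} (ha : a ∈ Sh D (LS D d z)) :
    ∃ d', d' ∈ LS D d z ∧ d' ≠ 1 ∧ a ∈ WSet D d' ∧ (∃ x ∈ LS D d z, ¬ Commute a x) ∧
      (∀ x ∈ LS D d z, Commute a x ↔ x ∈ EG D d') ∧ (∀ x ∈ LS D d z, cm a x ∈ EG D d') := by
  obtain ⟨d', h1, h2, h3, h4⟩ := ha
  obtain ⟨z', e', q, hz', hL⟩ := sh_data N p.dz h1 h2 h3 h4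
  refine ⟨d', h1, h2, h3, h4, ?_, ?_⟩
  · intro x hx; exact q.comm_v_iff N (by rw [hL]; exact hx)
  · intro x hx; exact (N.conj_LS_of_W q.dz h3 (by rw [hL]; exact hx)).2

theorem sh_sq (_p : Path D v d z e) (N : ND D) {a : G} (ha : a ∈ Sh D (LS D d z)) : a * a = 1 := by
  obtain ⟨d', h1, h2, h3, h4⟩ := ha
  exact sq_of_mem N.h h3.1

/-- Shears with the same axis commute in the action. -/
theorem pi_comm (p : Path D v d z e) (N : ND D) {a b : YG D v e} {da db : G}
    (hda : da ∈ LS D d z) (hda1 : da ≠ 1)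
    (haW : (a : G) ∈ WSet D da) (hax : ∃ x ∈ LS D d z, ¬ Commute (a : G) x)
    (hdb : db ∈ LS D d z) (hdb1 : db ≠ 1) (hbW : (b : G) ∈ WSet D db) (hs : SimR D db da) :
    p.pi N a * p.pi N b = p.pi N b * p.pi N a := by
  rw [← map_mul, ← map_mul, p.pi_eq_iff N]
  intro x hx
  obtain ⟨z', e', q, hz', hL⟩ := sh_data N p.dz hda hda1 haW hax
  have hdaD := N.LS_mem p.dz hda hda1
  have hdbD := N.LS_mem p.dz hdb hdb1
  have hbW' : (b : G) ∈ WSet D da := WSet_of_sim N.h N.hc hdaD hdbD hs.symm hbW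
  have hxL : x ∈ LS D da z' := by rw [hL]; exact hx
  have h1 := (N.conj_LS_of_W q.dz haW hxL).2
  have h2 := (N.conj_LS_of_W q.dz hbW' hxL).2
  have haa := sq_of_mem N.h haW.1
  have hbb := sq_of_mem N.h hbW.1
  have hxx := N.LS_sq p.dz hx
  have ca : Commute (a : G) (cm (b : G) x) := comm_EG N.h N.hc hdaD haW.1 haW.2.1 h2
  have cb : Commute (b : G) (cm (a : G) x) := comm_EG N.h N.hc hdaD hbW'.1 hbW'.2.1 h1
  have cab : Commute (cm (a : G) x) (cm (b : G) x) := EG_comm N.h N.hc hdaD h1 h2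
  simp only [Subgroup.coe_mul]
  rw [mul_inv_rev, mul_inv_rev, inv_of_sq haa, inv_of_sq hbb]
  exact conj_conj_comm hxx ca cb cab

/-- Opposite shears do not commute in the action. -/
theorem pi_ncomm (p : Path D v d z e) (N : ND D) {a b : YG D v e}
    (ha : (a : G) ∈ Sh D (LS D d z)) (hb : (b : G) ∈ Sh D (LS D d z)) (ho : Opp (a : G) b) :
    p.pi N a * p.pi N b ≠ p.pi N b * p.pi N a := by
  intro h
  have haa : a * a = 1 := Subtype.ext (p.sh_sq N ha)
  have hbb : b * b = 1 := Subtype.ext (p.sh_sq N hb)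
  have h1 : p.pi N (a * b) * p.pi N (a * b) = 1 := by
    rw [← map_mul]
    calc p.pi N (a * b * (a * b)) = p.pi N a * (p.pi N b * p.pi N a) * p.pi N b := by
          rw [map_mul, map_mul]; group
      _ = p.pi N a * (p.pi N a * p.pi N b) * p.pi N b := by rw [h]
      _ = p.pi N (a * a) * p.pi N (b * b) := by rw [map_mul, map_mul]; group
      _ = 1 := by rw [haa, hbb, map_one, one_mul]
  have h2 : Odd (orderOf (p.pi N (a * b))) := by
    have h3 : Odd (orderOf (a * b)) := by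
      rw [← Subgroup.orderOf_coe]; exact ho.2
    exact h3.of_dvd_nat (orderOf_map_dvd (p.pi N) (a * b))
  have h3 := eq_one_of_odd_of_sq h2 h1
  have h4 : p.pi N a = p.pi N b := by
    rw [map_mul] at h3
    have h5 : p.pi N b * p.pi N b = 1 := by rw [← map_mul, hbb, map_one]
    calc p.pi N a = (p.pi N a * p.pi N b) * (p.pi N b) := by rw [mul_assoc, h5, mul_one]
      _ = p.pi N b := by rw [h3, one_mul]
  rw [p.pi_eq_iff N] at h4
  obtain ⟨da, a1, a2, a3, a4, a5, a6⟩ := p.axis N ha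
  obtain ⟨db, b1, b2, b3, b4, b5, b6⟩ := p.axis N hb
  have h5 : ∀ x ∈ LS D d z, Commute (a : G) x → Commute (b : G) x := by
    intro x hx hax
    have h6 := h4 x hx
    have h7 : (a : G) * x * (a : G)⁻¹ = x := by rw [hax.eq]; group
    show (b : G) * x = x * b
    calc (b : G) * x = (b * x * (b : G)⁻¹) * b := by group
      _ = x * b := by rw [← h6, h7]
  have h6 : da ∈ EG D db := (b5 da a1).1 (h5 da a1 a3.2.1)
  have h7 := N.mem_EC (N.LS_mem p.dz b1 b2) h6 a2
  have hb' : (b : G) ∈ WSet D da :=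
    WSet_of_sim N.h N.hc (N.LS_mem p.dz a1 a2) (N.LS_mem p.dz b1 b2) h7.2 b3
  exact WSet_not_opp a3 hb' ho

/-- Every shear of `M` in `Y` maps to an involution. -/
theorem pi_ne_one (p : Path D v d z e) (N : ND D) {a : YG D v e}
    (ha : (a : G) ∈ Sh D (LS D d z)) : p.pi N a ≠ 1 := by
  intro h
  obtain ⟨d', -, -, -, x, hx, hax⟩ := ha
  exact hax ((p.pi_eq_one_iff N).1 h x hx)

/-- Elements of `E(v)` are shears. -/
theorem sh_of_v (p : Path D v d z e) (N : ND D) {y : G} (hy : y ∈ EG D v) (hy1 : y ≠ 1) :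
    y ∈ Sh D (LS D d z) :=
  (p.sim N (N.mem_EC p.hv hy hy1) (mem_EC_self p.hd) (mem_EC_self p.hz) (mem_EC_self p.he)).sh N

theorem sh_of_e (p : Path D v d z e) (N : ND D) {y : G} (hy : y ∈ EG D e) (hy1 : y ≠ 1) :
    y ∈ Sh D (LS D d z) := by
  rw [N.LS_swap]; exact (p.symm N).sh_of_v N hy hy1

theorem mem_YG_v (_p : Path D v d z e) {y : G} (hy : y ∈ EG D v) : y ∈ YG D v e :=
  Subgroup.mem_sup_left hy

theorem mem_YG_e (_p : Path D v d z e) {y : G} (hy : y ∈ EG D e) : y ∈ YG D v e :=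
  Subgroup.mem_sup_right hy

/-- Induction on `Y`. -/
theorem Y_le (p : Path D v d z e) (N : ND D) {B : Subgroup (p.XR N)}
    (h1 : ∀ y : YG D v e, (y : G) ∈ EG D v → p.pi N y ∈ B)
    (h2 : ∀ y : YG D v e, (y : G) ∈ EG D e → p.pi N y ∈ B) : B = ⊤ := by
  rw [eq_top_iff]
  rintro x -
  obtain ⟨⟨y, hy⟩, rfl⟩ := p.pi_surj N x
  have hy' := hy
  unfold YG at hy'
  rw [Subgroup.sup_eq_closure] at hy'
  induction hy' using Subgroup.closure_induction with
  | mem y hy' =>
    rcases hy' with hy' | hy'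
    · exact h1 _ hy'
    · exact h2 _ hy'
  | one =>
    have : (⟨1, hy⟩ : YG D v e) = 1 := rfl
    rw [this, map_one]; exact one_mem _
  | mul a b ha hb iha ihb =>
    have ha' : a ∈ YG D v e := by unfold YG; rw [Subgroup.sup_eq_closure]; exact ha
    have hb' : b ∈ YG D v e := by unfold YG; rw [Subgroup.sup_eq_closure]; exact hb
    have : (⟨a * b, hy⟩ : YG D v e) = ⟨a, ha'⟩ * ⟨b, hb'⟩ := rfl
    rw [this, map_mul]; exact mul_mem (iha ha') (ihb hb')
  | inv a ha iha =>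
    have ha' : a ∈ YG D v e := by unfold YG; rw [Subgroup.sup_eq_closure]; exact ha
    have : (⟨a⁻¹, hy⟩ : YG D v e) = ⟨a, ha'⟩⁻¹ := rfl
    rw [this, map_inv]; exact inv_mem (iha ha')

/-- `DX` is a set of odd transpositions of the range. -/
theorem DX_isOdd (p : Path D v d z e) (N : ND D) : IsOddTranspositionSet (p.DX N) := by
  have hord : ∀ a : YG D v e, (a : G) ∈ Sh D (LS D d z) → orderOf (p.pi N a) = 2 := by
    intro a ha
    refine orderOf_eq_prime ?_ (p.pi_ne_one N ha)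
    have haa : a * a = 1 := Subtype.ext (p.sh_sq N ha)
    rw [pow_two, ← map_mul, haa, map_one]
  have hpair : ∀ a b : YG D v e, (a : G) ∈ Sh D (LS D d z) → (b : G) ∈ Sh D (LS D d z) →
      p.pi N a * p.pi N b = p.pi N b * p.pi N a ∨ Odd (orderOf (p.pi N a * p.pi N b)) := by
    intro a b ha hb
    obtain ⟨da, a1, a2, a3, a4, a5, a6⟩ := p.axis N ha
    obtain ⟨db, b1, b2, b3, b4, b5, b6⟩ := p.axis N hb
    by_cases hs : SimR D db da
    · exact Or.inl (p.pi_comm N a1 a2 a3 a4 b1 b2 b3 hs)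
    · right
      have ho := sh_pair N p.dz a1 a2 a3 a4 b1 b2 b3 b4 hs
      have h3 : Odd (orderOf (a * b)) := by
        rw [← Subgroup.orderOf_coe]; exact ho.2
      rw [← map_mul]
      exact h3.of_dvd_nat (orderOf_map_dvd (p.pi N) (a * b))
  refine ⟨⟨?_, ?_, ?_, ?_⟩, ?_⟩
  · rintro _ ⟨a, ha, rfl⟩; exact hord a ha
  · apply p.Y_le N
    · intro y hy
      by_cases hy1 : (y : G) = 1
      · have : y = 1 := Subtype.ext hy1
        rw [this, map_one]; exact one_mem _
      · exact Subgroup.subset_closure ⟨y, p.sh_of_v N hy hy1, rfl⟩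
    · intro y hy
      by_cases hy1 : (y : G) = 1
      · have : y = 1 := Subtype.ext hy1
        rw [this, map_one]; exact one_mem _
      · exact Subgroup.subset_closure ⟨y, p.sh_of_e N hy hy1, rfl⟩
  · rintro _ ⟨a, ha, rfl⟩ g
    obtain ⟨g', rfl⟩ := p.pi_surj N g
    refine ⟨g' * a * g'⁻¹, ?_, by simp⟩
    have h1 := sh_conj N ha (p.conj_Y N g'.2)
    simpa using h1
  · rintro _ ⟨a, ha, rfl⟩ _ ⟨b, hb, rfl⟩
    rcases hpair a b ha hb with h1 | h1
    · exact Or.inl h1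
    · exact Or.inr (Or.inl h1)
  · rintro _ ⟨a, ha, rfl⟩ _ ⟨b, hb, rfl⟩ h4
    rcases hpair a b ha hb with h1 | h1
    · have h2 : (p.pi N a * p.pi N b) ^ 2 = 1 := by
        rw [pow_two]
        calc p.pi N a * p.pi N b * (p.pi N a * p.pi N b)
            = p.pi N a * (p.pi N b * p.pi N a) * p.pi N b := by group
          _ = p.pi N a * (p.pi N a * p.pi N b) * p.pi N b := by rw [h1]
          _ = (p.pi N a * p.pi N a) * (p.pi N b * p.pi N b) := by group
          _ = 1 := by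
            rw [← pow_two, ← pow_two]
            have e1 := pow_orderOf_eq_one (p.pi N a)
            have e2 := pow_orderOf_eq_one (p.pi N b)
            rw [hord a ha] at e1
            rw [hord b hb] at e2
            rw [e1, e2, one_mul]
      have h3 : orderOf (p.pi N a * p.pi N b) ∣ 2 := orderOf_dvd_of_pow_eq_one h2
      rw [h4] at h3
      revert h3; decide
    · rw [h4] at h1; exact absurd h1 (by decide)

/-- Commuting is an equivalence relation on `DX`. -/
theorem DX_trans (p : Path D v d z e) (N : ND D) : ∀ a ∈ p.DX N, ∀ b ∈ p.DX N, ∀ c ∈ p.DX N,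
    a * b = b * a → b * c = c * b → a * c = c * a := by
  rintro _ ⟨a, ha, rfl⟩ _ ⟨b, hb, rfl⟩ _ ⟨c, hc, rfl⟩ hab hbc
  obtain ⟨da, a1, a2, a3, a4, a5, a6⟩ := p.axis N ha
  obtain ⟨db, b1, b2, b3, b4, b5, b6⟩ := p.axis N hb
  obtain ⟨dc, c1, c2, c3, c4, c5, c6⟩ := p.axis N hc
  have h1 : SimR D db da := by
    by_contra hs
    exact p.pi_ncomm N ha hb (sh_pair N p.dz a1 a2 a3 a4 b1 b2 b3 b4 hs) hab
  have h2 : SimR D dc db := by
    by_contra hs
    exact p.pi_ncomm N hb hc (sh_pair N p.dz b1 b2 b3 b4 c1 c2 c3 c4 hs) hbc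
  exact p.pi_comm N a1 a2 a3 a4 c1 c2 c3 (h2.trans h1)

end Path

/-- Two shears with the same axis agreeing at one point outside the axis agree. -/
theorem shear_eq [Finite G] (N : ND D) {d x0 : G} (c : Col D d x0) {a b : G} (haa : a * a = 1)
    (hbb : b * b = 1) (ha : ∀ s ∈ EG D d, Commute a s) (hb : ∀ s ∈ EG D d, Commute b s)
    (ha2 : ∀ x ∈ LS D d x0, cm a x ∈ EG D d) (hb2 : ∀ x ∈ LS D d x0, cm b x ∈ EG D d)
    (h0 : cm a x0 = cm b x0) : ∀ x ∈ LS D d x0, a * x * a = b * x * b := by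
  have key : ∀ t ∈ LS D d x0, (a * b) * t * (a * b)⁻¹ = t * (cm a t * cm b t) := by
    intro t ht
    have htt := N.LS_sq c ht
    rw [mul_inv_rev, inv_of_sq haa, inv_of_sq hbb]
    calc a * b * t * (b * a) = a * (b * t * b) * a := by group
      _ = a * (t * cm b t) * a := by rw [conj_eq_mul_cm htt]
      _ = a * t * (cm b t * a) := by group
      _ = a * t * (a * cm b t) := by rw [← (ha _ (hb2 t ht)).eq]
      _ = (a * t * a) * cm b t := by group
      _ = t * cm a t * cm b t := by rw [conj_eq_mul_cm htt]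
      _ = _ := by group
  have hx0E := N.self_mem c.right
  have hx0L : x0 ∈ LS D d x0 := Subgroup.mem_sup_right hx0E
  have hk0 : (a * b) * x0 * (a * b)⁻¹ = x0 := by
    rw [key x0 hx0L, h0, EG_sq N.h N.hc c.left (hb2 x0 hx0L), mul_one]
  have hcm : ∀ t ∈ EG D x0, cm a t = cm b t := by
    intro t ht
    have htL : t ∈ LS D d x0 := Subgroup.mem_sup_right ht
    have h1 := EG_conj N.h ht (a * b)
    rw [hk0, key t htL] at h1
    have h2 : cm a t * cm b t ∈ EG D x0 := by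
      have := Subgroup.mul_mem _ (inv_mem ht) h1
      rwa [inv_mul_cancel_left] at this
    have h3 := N.EG_inter c (Subgroup.mul_mem _ (ha2 t htL) (hb2 t htL)) h2
    calc cm a t = cm a t * (cm b t * cm b t) := by
          rw [EG_sq N.h N.hc c.left (hb2 t htL), mul_one]
      _ = (cm a t * cm b t) * cm b t := by group
      _ = cm b t := by rw [h3, one_mul]
  intro x hx
  obtain ⟨s, hs, t, ht, rfl⟩ := (N.mem_LS c).1 hx
  have htL : t ∈ LS D d x0 := Subgroup.mem_sup_right ht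
  have htt := N.LS_sq c htL
  have e1 : ∀ y : G, y * y = 1 → Commute y s → y * (s * t) * y = s * (y * t * y) := by
    intro y _ hys
    calc y * (s * t) * y = (y * s) * t * y := by group
      _ = (s * y) * t * y := by rw [hys.eq]
      _ = _ := by group
  rw [e1 a haa (ha s hs), e1 b hbb (hb s hs), conj_eq_mul_cm htt, conj_eq_mul_cm htt, hcm t ht]

namespace Path

variable [Finite G] {v d z e : G}

/-- The image of `E(v)`. -/
noncomputable def AX (p : Path D v d z e) (N : ND D) : Subgroup (p.XR N) :=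
  ((EG D v).subgroupOf (YG D v e)).map (p.pi N)

theorem mem_AX (p : Path D v d z e) (N : ND D) {y : YG D v e} (hy : (y : G) ∈ EG D v) :
    p.pi N y ∈ p.AX N := ⟨y, hy, rfl⟩

theorem card_AX (p : Path D v d z e) (N : ND D) : Nat.card (p.AX N) = Nat.card (EG D v) := by
  symm
  refine Nat.card_congr (Equiv.ofBijective
    (fun y : EG D v => (⟨p.pi N ⟨y, p.mem_YG_v y.2⟩, p.mem_AX N y.2⟩ : p.AX N)) ⟨?_, ?_⟩)
  · intro a b hab
    have h1 : p.pi N ⟨a, p.mem_YG_v a.2⟩ = p.pi N ⟨b, p.mem_YG_v b.2⟩ := congrArg Subtype.val hab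
    have h2 : p.pi N (⟨a, p.mem_YG_v a.2⟩ * ⟨b, p.mem_YG_v b.2⟩) = 1 := by
      rw [map_mul, h1, ← map_mul]
      have : (⟨(b : G), p.mem_YG_v b.2⟩ : YG D v e) * ⟨b, p.mem_YG_v b.2⟩ = 1 :=
        Subtype.ext (EG_sq N.h N.hc p.hv b.2)
      rw [this, map_one]
    by_contra hne
    have h3 : (a : G) * b ≠ 1 := by
      intro h4
      apply hne
      apply Subtype.ext
      calc (a : G) = a * (b * b) := by rw [EG_sq N.h N.hc p.hv b.2, mul_one]
        _ = (a * b) * b := by group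
        _ = b := by rw [h4, one_mul]
    exact p.pi_ne_one N (p.sh_of_v N (Subgroup.mul_mem _ a.2 b.2) h3) h2
  · rintro ⟨_, y, hy, rfl⟩
    exact ⟨⟨y, hy⟩, rfl⟩

theorem dL (p : Path D v d z e) (N : ND D) : d ∈ LS D d z :=
  Subgroup.mem_sup_left (N.self_mem p.hd)

theorem zL (p : Path D v d z e) (N : ND D) : z ∈ LS D d z :=
  Subgroup.mem_sup_right (N.self_mem p.hz)

/-- `X = ⟨A, e⟩`. -/
theorem gen_top (p : Path D v d z e) (N : ND D) (he : e ∈ YG D v e) :
    p.AX N ⊔ Subgroup.zpowers (p.pi N ⟨e, he⟩) = ⊤ := by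
  have hvY : v ∈ YG D v e := p.mem_YG_v (N.self_mem p.hv)
  set B := p.AX N ⊔ Subgroup.zpowers (p.pi N ⟨e, he⟩) with hB
  have hvv := sq_of_mem N.h p.hv
  have hee := sq_of_mem N.h p.he
  have hvB : p.pi N ⟨v, hvY⟩ ∈ B := Subgroup.mem_sup_left (p.mem_AX N (N.self_mem p.hv))
  have heB : p.pi N ⟨e, he⟩ ∈ B := Subgroup.mem_sup_right (Subgroup.mem_zpowers _)
  apply p.Y_le N
  · intro y hy; exact Subgroup.mem_sup_left (p.mem_AX N hy)
  · intro y hy
    obtain ⟨m, hm⟩ := Opp.exists_conj_pow hvv hee (Opp.symm' N.h p.he p.hv p.opp)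
    set g : G := (v * e) ^ m with hg
    have hgY : g ∈ YG D v e := pow_mem (mul_mem hvY he) m
    have hgB : p.pi N ⟨g, hgY⟩ ∈ B := by
      have e1 : (⟨g, hgY⟩ : YG D v e) = (⟨v, hvY⟩ * ⟨e, he⟩) ^ m := rfl
      rw [e1, map_pow, map_mul]
      exact pow_mem (mul_mem hvB heB) m
    -- `g` maps `E(d)` onto `E(z)`
    have hgd : ∀ s ∈ EG D d, g * s * g⁻¹ ∈ EG D z := by
      intro s hs
      have h1 : g * s * g⁻¹ ∈ LS D d z := p.conj_Y N hgY s (Subgroup.mem_sup_left hs)
      rw [← p.comm_e_iff N h1, ← hm]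
      exact (commute_conj_iff' g v s).2 ((p.cfg N).commv hs)
    have hgz : ∀ s ∈ EG D z, g⁻¹ * s * g ∈ EG D d := by
      intro s hs
      have h1 : g⁻¹ * s * g⁻¹⁻¹ ∈ LS D d z :=
        p.conj_Y N (inv_mem hgY) s (Subgroup.mem_sup_right hs)
      rw [inv_inv] at h1
      rw [← p.comm_v_iff N h1, ← commute_conj_iff' g]
      have e1 : g * (g⁻¹ * s * g) * g⁻¹ = s := by group
      rw [hm, e1]
      exact (p.comm_e_iff N (Subgroup.mem_sup_right hs)).2 hs
    have hdL := p.dL N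
    have hx0 : g⁻¹ * d * g ∈ LS D d z := by
      have := p.conj_Y N (inv_mem hgY) d hdL
      rwa [inv_inv] at this
    have hx0d : g⁻¹ * d * g ∉ EG D d := by
      intro h1
      have h2 := hgd _ h1
      have e1 : g * (g⁻¹ * d * g) * g⁻¹ = d := by group
      rw [e1] at h2
      exact ne_one_of_mem N.h p.hd (N.EG_inter p.dz (N.self_mem p.hd) h2)
    have hdL' : d ∈ LS D z d := by rw [N.LS_swap]; exact hdL
    have ht : cm (y : G) d ∈ EG D z := (p.symm N).cm_mem N hy hdL'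
    obtain ⟨y', hy', hyc⟩ := p.cm_bij N hx0 hx0d (hgz _ ht)
    have hy'Y : y' ∈ YG D v e := p.mem_YG_v hy'
    set b : G := g * y' * g⁻¹ with hb
    have hbd : cm b d = cm (y : G) d := by
      have h1 := cm_conj g y' (g⁻¹ * d * g)
      have e1 : g * (g⁻¹ * d * g) * g⁻¹ = d := by group
      rw [e1] at h1
      rw [hb, ← h1, hyc]; group
    have hyy := EG_sq N.h N.hc p.he hy
    have hy'y' := EG_sq N.h N.hc p.hv hy'
    have hbb : b * b = 1 := by
      rw [hb]
      calc g * y' * g⁻¹ * (g * y' * g⁻¹) = g * (y' * y') * g⁻¹ := by group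
        _ = 1 := by rw [hy'y']; group
    have c' := N.col_symm p.dz
    have hbs : ∀ s ∈ EG D z, Commute b s := by
      intro s hs
      have h1 : Commute y' (g⁻¹ * s * g) := by
        by_cases hy1 : y' = 1
        · rw [hy1]; exact Commute.one_left _
        · exact (p.comm_iff N hy' hy1 (Subgroup.mem_sup_left (hgz s hs))).2 (hgz s hs)
      have h2 := (commute_conj_iff' g _ _).2 h1
      have e1 : g * (g⁻¹ * s * g) * g⁻¹ = s := by group
      rwa [e1] at h2
    have hys : ∀ s ∈ EG D z, Commute (y : G) s := by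
      intro s hs
      by_cases hy1 : (y : G) = 1
      · rw [hy1]; exact Commute.one_left _
      · exact ((p.symm N).comm_iff N hy hy1 (Subgroup.mem_sup_left hs)).2 hs
    have hb2 : ∀ x ∈ LS D z d, cm b x ∈ EG D z := by
      intro x hx
      rw [N.LS_swap] at hx
      have h1 := cm_conj g y' (g⁻¹ * x * g)
      have e1 : g * (g⁻¹ * x * g) * g⁻¹ = x := by group
      rw [e1] at h1
      rw [hb, ← h1]
      apply hgd
      apply p.cm_mem N hy'
      have := p.conj_Y N (inv_mem hgY) x hx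
      rwa [inv_inv] at this
    have hy2 : ∀ x ∈ LS D z d, cm (y : G) x ∈ EG D z := fun x hx => (p.symm N).cm_mem N hy hx
    have hfin := shear_eq N c' hyy hbb hys hbs hy2 hb2 hbd.symm
    have hbY : b ∈ YG D v e := mul_mem (mul_mem hgY hy'Y) (inv_mem hgY)
    have h5 : p.pi N y = p.pi N ⟨b, hbY⟩ := by
      rw [p.pi_eq_iff N]
      intro x hx
      rw [N.LS_swap] at hx
      show (y : G) * x * (y : G)⁻¹ = b * x * b⁻¹
      rw [inv_of_sq hyy, inv_of_sq hbb]
      exact hfin x hx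
    rw [h5]
    have e1 : (⟨b, hbY⟩ : YG D v e) = ⟨g, hgY⟩ * ⟨y', hy'Y⟩ * ⟨g, hgY⟩⁻¹ := rfl
    rw [e1, map_mul, map_mul, map_inv]
    exact mul_mem (mul_mem hgB (Subgroup.mem_sup_left (p.mem_AX N hy'))) (inv_mem hgB)

/-- Every point of `M` is the axis of a shear in `Y`. -/
theorem exists_axis (p : Path D v d z e) (N : ND D) {x : G} (hx : x ∈ LS D d z) (hx1 : x ≠ 1) :
    ∃ a : YG D v e, (a : G) ∈ WSet D x ∧ ∃ x' ∈ LS D d z, ¬ Commute (a : G) x' := by
  have hdD := p.hd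
  have hxD := N.LS_mem p.dz hx hx1
  by_cases hxd : x ∈ EG D d
  · refine ⟨⟨v, p.mem_YG_v (N.self_mem p.hv)⟩, ?_, z, p.zL N, p.ncv N⟩
    exact WSet_of_sim N.h N.hc hxD hdD (N.mem_EC hdD hxd hx1).2 p.vd.2.1
  · obtain ⟨y, hy, hyx⟩ := p.exists_move N hx hxd
    have hyy := EG_sq N.h N.hc p.hv hy
    have hyi : y⁻¹ = y := inv_of_sq hyy
    have hyY := p.mem_YG_v hy
    have heY : e ∈ YG D v e := p.mem_YG_e (N.self_mem p.he)
    have hne : y * x * y ≠ 1 := by
      intro h1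
      apply hx1
      calc x = (y * y) * x * (y * y) := by rw [hyy, one_mul, mul_one]
        _ = y * (y * x * y) * y := by group
        _ = 1 := by rw [h1, mul_one, hyy]
    have h1 := N.mem_EC p.hz hyx hne
    have h2 : e ∈ WSet D (y * x * y) := WSet_of_sim N.h N.hc h1.1 p.hz h1.2 p.ze.2.1
    refine ⟨⟨y * e * y, mul_mem (mul_mem hyY heY) hyY⟩, ?_, y * d * y, ?_, ?_⟩
    · have h3 := WSet_conj N.h h2 y
      have e1 : y * (y * x * y) * y⁻¹ = x := by
        rw [hyi]
        calc y * (y * x * y) * y = (y * y) * x * (y * y) := by group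
          _ = x := by rw [hyy, one_mul, mul_one]
      rwa [e1, hyi] at h3
    · have := p.conj_Y N hyY d (p.dL N)
      rwa [hyi] at this
    · intro h3
      apply p.nce N
      have := (commute_conj_iff' y e d).1 (by rw [hyi]; exact h3)
      exact this

/-- A 2-element of the kernel-free action normalises all axes, hence centralises all shears. -/
theorem pCore_bot (p : Path D v d z e) (N : ND D) : pCore 2 (p.XR N) = ⊥ := by
  have : Fact (Nat.Prime 2) := ⟨Nat.prime_two⟩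
  have hP : IsPGroup 2 (pCore 2 (p.XR N)) := Lib.Cores.pCore_isPGroup 2
  have hnorm : (pCore 2 (p.XR N)).Normal := Lib.Cores.pCore_normal 2
  rw [eq_bot_iff]
  intro n hn
  rw [Subgroup.mem_bot]
  obtain ⟨k, rfl⟩ := p.pi_surj N n
  -- elements of the core of odd order are trivial
  have hodd : ∀ m ∈ pCore 2 (p.XR N), Odd (orderOf m) → m = 1 := fun m hm ho =>
    eq_one_of_odd_of_mem hP ho (Subgroup.pow_mem _ hm 2)
  -- (A1) `k` normalises all axes
  have hkL : ∀ x ∈ LS D d z, (k : G) * x * (k : G)⁻¹ ∈ LS D d z := p.conj_Y N k.2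
  have hkL' : ∀ x ∈ LS D d z, (k : G)⁻¹ * x * (k : G) ∈ LS D d z := by
    intro x hx
    have := p.conj_Y N (inv_mem k.2) x hx
    rwa [inv_inv] at this
  have hkax : ∀ x ∈ LS D d z, x ≠ 1 → (k : G) * x * (k : G)⁻¹ ∈ EG D x := by
    intro x hx hx1
    obtain ⟨a, haW, x', hx', hax'⟩ := p.exists_axis N hx hx1
    have haS : (a : G) ∈ Sh D (LS D d z) := ⟨x, hx, hx1, haW, x', hx', hax'⟩
    have hbS := sh_conj N haS hkL
    have hxD := N.LS_mem p.dz hx hx1
    have hkx1 : (k : G) * x * (k : G)⁻¹ ≠ 1 := by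
      intro h; apply hx1; simpa using h
    have hkxD := N.LS_mem p.dz (hkL x hx) hkx1
    by_cases hs : SimR D ((k : G) * x * (k : G)⁻¹) x
    · exact Subgroup.subset_closure ⟨hkxD, hs⟩
    · exfalso
      have hbW : (k : G) * a * (k : G)⁻¹ ∈ WSet D ((k : G) * x * (k : G)⁻¹) := WSet_conj N.h haW k
      have ho := sh_pair N p.dz hx hx1 haW ⟨x', hx', hax'⟩ (hkL x hx) hkx1 hbW
        ⟨_, hkL x' hx', fun h => hax' ((commute_conj_iff' _ _ _).1 h)⟩ hs
      have hbS' : ((k * a * k⁻¹ : YG D v e) : G) ∈ Sh D (LS D d z) := hbS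
      have ho' : Opp (a : G) ((k * a * k⁻¹ : YG D v e) : G) := ho
      apply p.pi_ncomm N haS hbS' ho'
      have haa : a * a = 1 := Subtype.ext (p.sh_sq N haS)
      have hm : p.pi N a * p.pi N (k * a * k⁻¹) ∈ pCore 2 (p.XR N) := by
        have e1 : p.pi N a * p.pi N (k * a * k⁻¹) =
            (p.pi N a * p.pi N k * (p.pi N a)⁻¹) * (p.pi N k)⁻¹ := by
          have h1 : (p.pi N a)⁻¹ = p.pi N a := by
            rw [← map_inv, inv_of_sq haa]
          rw [h1, map_mul, map_mul, map_inv]; group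
        rw [e1]
        exact mul_mem (hnorm.conj_mem _ hn _) (inv_mem hn)
      have h2 : Odd (orderOf (p.pi N a * p.pi N (k * a * k⁻¹))) := by
        have h3 : Odd (orderOf (a * (k * a * k⁻¹))) := by
          rw [← Subgroup.orderOf_coe]; exact ho'.2
        rw [← map_mul]
        exact h3.of_dvd_nat (orderOf_map_dvd (p.pi N) _)
      have h3 := hodd _ hm h2
      have h4 : p.pi N (k * a * k⁻¹) * p.pi N a = 1 := by
        have h5 : p.pi N (k * a * k⁻¹) = (p.pi N a)⁻¹ := eq_inv_of_mul_eq_one_right h3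
        rw [h5]; group
      rw [h3, h4]
  -- (A3) `k` commutes with the shears
  have hcomm : ∀ a : YG D v e, (a : G) ∈ Sh D (LS D d z) →
      ∀ x ∈ LS D d z, (k : G) * (a * x * a) * (k : G)⁻¹ = a * (k * x * (k : G)⁻¹) * a := by
    intro a ha x hx
    obtain ⟨d', a1, a2, a3, a4, a5, a6⟩ := p.axis N ha
    have hd'D := N.LS_mem p.dz a1 a2
    have haa := p.sh_sq N ha
    have hkd' : ∀ s ∈ EG D d', (k : G) * s * (k : G)⁻¹ ∈ EG D d' := by
      intro s hs
      by_cases hs1 : s = 1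
      · rw [hs1]; simp
      · have hsL : s ∈ LS D d z := N.EG_le_LS p.dz a1 a2 hs
        have h1 := hkax s hsL hs1
        rwa [N.EG_eq hd'D hs hs1] at h1
    have hcE : ∀ s ∈ EG D d', (a : G) * s * a = s := by
      intro s hs
      have h1 := comm_EG N.h N.hc hd'D a3.1 a3.2.1 hs
      rw [h1.eq, mul_assoc, haa, mul_one]
    by_cases hxd : x ∈ EG D d'
    · rw [hcE x hxd, hcE _ (hkd' x hxd)]
    · set m : G := (a : G) * x * a with hm
      have hx1 : x ≠ 1 := fun h => hxd (by rw [h]; exact one_mem _)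
      have hmL : m ∈ LS D d z := by
        have h1 := p.conj_Y N a.2 x hx
        rwa [inv_of_sq haa] at h1
      have hm1 : m ≠ 1 := by
        intro h1
        apply hx1
        calc x = ((a : G) * a) * x * (a * a) := by rw [haa, one_mul, mul_one]
          _ = a * m * a := by rw [hm]; group
          _ = 1 := by rw [h1, mul_one, haa]
      have hmD := N.LS_mem p.dz hmL hm1
      have hkx := hkL x hx
      have h1 : (k : G) * m * (k : G)⁻¹ ∈ EG D m := hkax m hmL hm1
      have h2 : (a : G) * (k * x * (k : G)⁻¹) * a ∈ EG D m := by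
        have h3 := EG_conj N.h (hkax x hx hx1) (a : G)
        rwa [inv_of_sq haa] at h3
      have hmd' : m ∉ EG D d' := by
        intro h3
        apply hxd
        have h4 := hcE m h3
        have h5 : (a : G) * m * a = x := by
          calc (a : G) * m * a = (a * a) * x * (a * a) := by rw [hm]; group
            _ = x := by rw [haa, one_mul, mul_one]
        rw [h5] at h4
        rw [h4]; exact h3
      have hns : ¬ SimR D m d' := fun h3 => hmd' (Subgroup.subset_closure ⟨hmD, h3⟩)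
      have hc' := N.col_of_LS p.dz a1 hmL a2 hm1 hns
      -- the quotient is in `E(m) ∩ E(d')`
      have h3 : ((k : G) * m * (k : G)⁻¹)⁻¹ * (a * (k * x * (k : G)⁻¹) * a) ∈ EG D m :=
        mul_mem (inv_mem h1) h2
      have e1 : ((k : G) * m * (k : G)⁻¹)⁻¹ * (a * (k * x * (k : G)⁻¹) * a) =
          ((k : G) * cm (a : G) x * (k : G)⁻¹)⁻¹ * cm (a : G) (k * x * (k : G)⁻¹) := by
        rw [conj_eq_mul_cm (N.LS_sq p.dz hkx), hm, conj_eq_mul_cm (N.LS_sq p.dz hx)]
        group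
      have h4 : ((k : G) * m * (k : G)⁻¹)⁻¹ * (a * (k * x * (k : G)⁻¹) * a) ∈ EG D d' := by
        rw [e1]
        exact mul_mem (inv_mem (hkd' _ (a6 x hx))) (a6 _ hkx)
      have h5 := N.EG_inter hc' h4 h3
      exact (inv_mul_eq_one.1 h5)
  -- (A5) the fixed points of `k`
  set C : Set G := {x | x ∈ LS D d z ∧ (k : G) * x * (k : G)⁻¹ = x} with hC
  have hCmul : ∀ x ∈ C, ∀ y ∈ C, x * y ∈ C := by
    rintro x ⟨hx, hx'⟩ y ⟨hy, hy'⟩
    refine ⟨mul_mem hx hy, ?_⟩
    calc (k : G) * (x * y) * (k : G)⁻¹ = (k * x * (k : G)⁻¹) * (k * y * (k : G)⁻¹) := by group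
      _ = x * y := by rw [hx', hy']
  have hCcm : ∀ a : YG D v e, (a : G) ∈ Sh D (LS D d z) → ∀ x ∈ C, cm (a : G) x ∈ C := by
    rintro a ha x ⟨hx, hx'⟩
    have haa := p.sh_sq N ha
    have h1 : (a : G) * x * a ∈ C := by
      refine ⟨?_, ?_⟩
      · have h1 := p.conj_Y N a.2 x hx
        rwa [inv_of_sq haa] at h1
      · rw [hcomm a ha x hx, hx']
    exact hCmul x ⟨hx, hx'⟩ _ h1
  obtain ⟨b, hb, hb1, hkb⟩ : ∃ b ∈ LS D d z, b ≠ 1 ∧ (k : G) * b * (k : G)⁻¹ = b := by
    have hz2 : IsPGroup 2 (Subgroup.zpowers (p.pi N k)) :=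
      hP.to_le ((Subgroup.zpowers_le).2 hn)
    have hdvd : 2 ∣ Nat.card (LS D d z) := by
      have h1 : orderOf (⟨d, p.dL N⟩ : LS D d z) = 2 := by
        rw [← Subgroup.orderOf_coe]; exact N.h.orderOf_eq d p.hd
      rw [← h1]; exact orderOf_dvd_natCard _
    have h1 : (1 : LS D d z) ∈ MulAction.fixedPoints (Subgroup.zpowers (p.pi N k)) (LS D d z) := by
      intro g
      exact map_one (((g : p.XR N) : MulAut (LS D d z)))
    obtain ⟨b, hb, hb1⟩ := hz2.exists_fixed_point_of_prime_dvd_card_of_fixed_point _ hdvd h1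
    refine ⟨b, b.2, fun h => hb1 (Subtype.ext h.symm), ?_⟩
    have h2 := hb ⟨p.pi N k, Subgroup.mem_zpowers _⟩
    have h3 : ((p.act N k b : LS D d z) : G) = b := congrArg Subtype.val h2
    rw [p.act_apply N] at h3
    exact h3
  have hbC : b ∈ C := ⟨hb, hkb⟩
  have hd_all : b ∉ EG D d → ∀ s ∈ EG D d, s ∈ C := by
    intro hbd s hs
    obtain ⟨y, hy, hys⟩ := p.cm_bij N hb hbd hs
    by_cases hy1 : y = 1
    · rw [hy1, cm_of_comm (one_mul 1) (N.LS_sq p.dz hb) (Commute.one_left b)] at hys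
      rw [← hys]
      exact ⟨one_mem _, by simp⟩
    · rw [← hys]
      exact hCcm ⟨y, p.mem_YG_v hy⟩ (p.sh_of_v N hy hy1) b hbC
  have hz_of : ∀ b' ∈ C, b' ∉ EG D z → ∀ s ∈ EG D z, s ∈ C := by
    intro b' hb' hbz s hs
    have hb'L : b' ∈ LS D z d := by rw [N.LS_swap]; exact hb'.1
    obtain ⟨y, hy, hys⟩ := (p.symm N).cm_bij N hb'L hbz hs
    by_cases hy1 : y = 1
    · rw [hy1, cm_of_comm (one_mul 1) (N.LS_sq p.dz hb'.1) (Commute.one_left b')] at hys
      rw [← hys]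
      exact ⟨one_mem _, by simp⟩
    · rw [← hys]
      exact hCcm ⟨y, p.mem_YG_e hy⟩ (p.sh_of_e N hy hy1) b' hb'
  have hd_of : ∀ b' ∈ C, b' ∉ EG D d → ∀ s ∈ EG D d, s ∈ C := by
    intro b' hb' hbd s hs
    obtain ⟨y, hy, hys⟩ := p.cm_bij N hb'.1 hbd hs
    by_cases hy1 : y = 1
    · rw [hy1, cm_of_comm (one_mul 1) (N.LS_sq p.dz hb'.1) (Commute.one_left b')] at hys
      rw [← hys]
      exact ⟨one_mem _, by simp⟩
    · rw [← hys]
      exact hCcm ⟨y, p.mem_YG_v hy⟩ (p.sh_of_v N hy hy1) b' hb'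
  have hboth : (∀ s ∈ EG D d, s ∈ C) ∧ (∀ s ∈ EG D z, s ∈ C) := by
    by_cases hbd : b ∈ EG D d
    · have hbz : b ∉ EG D z := fun h => hb1 (N.EG_inter p.dz hbd h)
      have h1 := hz_of b hbC hbz
      refine ⟨hd_of z (h1 z (N.self_mem p.hz)) ?_, h1⟩
      intro h2
      exact ne_one_of_mem N.h p.hz (N.EG_inter p.dz h2 (N.self_mem p.hz))
    · have h1 := hd_all hbd
      refine ⟨h1, hz_of d (h1 d (N.self_mem p.hd)) ?_⟩
      intro h2
      exact ne_one_of_mem N.h p.hd (N.EG_inter p.dz (N.self_mem p.hd) h2)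
  rw [p.pi_eq_one_iff N]
  intro x hx
  obtain ⟨s, hs, t, ht, rfl⟩ := (N.mem_LS p.dz).1 hx
  have h1 := (hCmul s (hboth.1 s hs) t (hboth.2 t ht)).2
  show (k : G) * (s * t) = s * t * k
  calc (k : G) * (s * t) = (k * (s * t) * (k : G)⁻¹) * k := by group
    _ = s * t * k := by rw [h1]

/-- The order of a Suzuki group is prime to 3. -/
theorem _root_.Cfsg.Agent.H736.Hole.suzuki_not_three {K : Type*} [Group K]
    (h : Cfsg.Lie.IsoSuzuki K) : ¬ 3 ∣ Nat.card K := by
  obtain ⟨F, iF, iFin, m, hm, hF, ⟨e⟩⟩ := h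
  rw [Nat.card_congr e.toEquiv, (Cfsg.Agent.S1163.result hm hF).1]
  have h1 : 2 ^ (2 * m + 1) = 2 * 4 ^ m := by rw [pow_succ, pow_mul]; norm_num [mul_comm]
  have h3 : 4 ^ m % 3 = 1 := by rw [Nat.pow_mod]; norm_num
  have h4 : 4 ≤ 4 ^ m := by
    calc 4 = 4 ^ 1 := by norm_num
      _ ≤ 4 ^ m := Nat.pow_le_pow_right (by norm_num) hm
  rw [Nat.Prime.dvd_mul Nat.prime_three, Nat.Prime.dvd_mul Nat.prime_three, not_or, not_or]
  refine ⟨⟨?_, ?_⟩, ?_⟩
  · intro h
    have h5 := Nat.prime_three.dvd_of_dvd_pow (Nat.prime_three.dvd_of_dvd_pow h)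
    omega
  · rw [h1]
    omega
  · rw [h1]
    intro h
    have h5 : (2 * 4 ^ m) ^ 2 % 3 = 1 := by
      rw [Nat.pow_mod, Nat.mul_mod, h3]
    omega

/-- **The action of `⟨E(v), E(e)⟩` on the line `M` of a near pair is `L₂(q)`.** -/
theorem range_iso (p : Path D v d z e) (N : ND D) (hq : 4 ≤ Nat.card (EG D v)) :
    ∃ (F : Type) (_ : Field F) (_ : Fintype F), CharP F 2 ∧ Fintype.card F = Nat.card (EG D v) ∧
      Nonempty (p.XR N ≃* Matrix.ProjectiveSpecialLinearGroup (Fin 2) F) := by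
  have hvE := N.self_mem p.hv
  have heE := N.self_mem p.he
  have hvY : v ∈ YG D v e := p.mem_YG_v hvE
  have heY : e ∈ YG D v e := p.mem_YG_e heE
  have hv1 := ne_one_of_mem N.h p.hv
  have he1 := ne_one_of_mem N.h p.he
  have hvS := p.sh_of_v N hvE hv1
  have heS := p.sh_of_e N heE he1
  have hmain := H803.RankOne.rank_one (p.DX_isOdd N) (p.AX N) (by rw [p.card_AX N]; exact hq)
    (d := p.pi N ⟨v, hvY⟩) (x := p.pi N ⟨e, heY⟩) ⟨_, hvS, rfl⟩ ⟨_, heS, rfl⟩
    (p.mem_AX N hvE) ?_ (p.DX_trans N) (p.gen_top N heY) ?_ (p.pCore_bot N)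
  rotate_left
  · rintro _ ⟨y, hy, rfl⟩ hne
    refine ⟨y, p.sh_of_v N hy ?_, rfl⟩
    intro h1
    apply hne
    have : y = 1 := Subtype.ext h1
    rw [this, map_one]
  · exact p.pi_ncomm N heS hvS p.opp
  rcases hmain with ⟨F, iF, iF', hF2, hF4, ⟨f⟩⟩ | hSz
  · refine ⟨F, iF, iF', hF2, ?_, ⟨f⟩⟩
    have hr1 := H803.RankOneFacts.R1.of_psl ⟨f⟩
    -- a Sylow 2-subgroup containing `A`
    have : Fact (Nat.Prime 2) := ⟨Nat.prime_two⟩
    have hAsq : ∀ a ∈ p.AX N, a * a = 1 := by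
      rintro _ ⟨y, hy, rfl⟩
      have hyy : y * y = 1 := Subtype.ext (EG_sq N.h N.hc p.hv hy)
      rw [← map_mul, hyy, map_one]
    have hAP : IsPGroup 2 (p.AX N) := by
      rintro ⟨a, ha⟩
      refine ⟨1, Subtype.ext ?_⟩
      show a ^ (2 ^ 1) = 1
      rw [pow_one, pow_two, hAsq a ha]
    obtain ⟨S, hS⟩ := hAP.exists_le_sylow
    obtain ⟨hs1, hs2, hs3⟩ := H803.psl_sylow f S
    rw [← hs3, ← p.card_AX N]
    congr 2
    ext s
    refine ⟨fun hs => ?_, fun hs => hS hs⟩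
    by_cases hs0 : s = 1
    · rw [hs0]; exact one_mem _
    have ho : orderOf s = 2 := orderOf_eq_prime (by rw [pow_two]; exact hs1 s hs) hs0
    have ho' : orderOf (p.pi N ⟨v, hvY⟩) = 2 :=
      (p.DX_isOdd N).1.orderOf_eq _ ⟨_, hvS, rfl⟩
    obtain ⟨g, hg⟩ := isConj_iff.1 (hr1.conj _ _ ho' ho)
    have hsD : s ∈ p.DX N := by
      rw [← hg]; exact (p.DX_isOdd N).1.conj_mem _ ⟨_, hvS, rfl⟩ g
    have hcom : s * p.pi N ⟨v, hvY⟩ = p.pi N ⟨v, hvY⟩ * s :=
      hs2 s hs _ (hS (p.mem_AX N hvE))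
    obtain ⟨a, haS, rfl⟩ := hsD
    obtain ⟨da, a1, a2, a3, a4, a5, a6⟩ := p.axis N haS
    have hdL := p.dL N
    have hd1 := ne_one_of_mem N.h p.hd
    have hsim : SimR D da d := by
      by_contra hns
      have ho := sh_pair N p.dz hdL hd1 p.vd.2.1 ⟨z, p.zL N, p.ncv N⟩ a1 a2 a3 a4 hns
      exact p.pi_ncomm N (a := ⟨v, hvY⟩) hvS haS ho hcom.symm
    have hEE : EG D da = EG D d := Hole.EG_eq hsim
    rw [hEE] at a5 a6
    have haa := p.sh_sq N haS
    obtain ⟨y, hy, hyz⟩ := p.cm_bij N (p.zL N)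
      (fun h => ne_one_of_mem N.h p.hz (N.EG_inter p.dz h (N.self_mem p.hz))) (a6 z (p.zL N))
    have hyy := EG_sq N.h N.hc p.hv hy
    have hys : ∀ s ∈ EG D d, Commute y s := by
      intro s hs
      by_cases hy1 : y = 1
      · rw [hy1]; exact Commute.one_left _
      · exact (p.comm_iff N hy hy1 (Subgroup.mem_sup_left hs)).2 hs
    have hfin := shear_eq N p.dz haa hyy (fun s hs => (a5 s (Subgroup.mem_sup_left hs)).2 hs) hys a6
      (fun x hx => p.cm_mem N hy hx) hyz.symm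
    have h5 : p.pi N a = p.pi N ⟨y, p.mem_YG_v hy⟩ := by
      rw [p.pi_eq_iff N]
      intro x hx
      show (a : G) * x * (a : G)⁻¹ = y * x * y⁻¹
      rw [inv_of_sq haa, inv_of_sq hyy]
      exact hfin x hx
    rw [h5]
    exact p.mem_AX N hy
  · exfalso
    apply suzuki_not_three hSz
    obtain ⟨y, hy, hy3⟩ := p.exists_three N
    have hyE : y ∈ EG D v := Subgroup.subset_closure hy
    have hyY := p.mem_YG_v hyE
    have hyS := p.sh_of_v N hyE (ne_one_of_mem N.h hy.1)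
    have h1 : (p.pi N (⟨y, hyY⟩ * ⟨e, heY⟩)) ^ 3 = 1 := by
      rw [← map_pow]
      have : ((⟨y, hyY⟩ : YG D v e) * ⟨e, heY⟩) ^ 3 = 1 := Subtype.ext hy3
      rw [this, map_one]
    have h2 : p.pi N (⟨y, hyY⟩ * ⟨e, heY⟩) ≠ 1 := by
      intro h2
      have ho : Opp y e := Opp.symm' N.h p.he hy.1 ((hy.2 e p.he).2 p.opp)
      apply p.pi_ncomm N (a := ⟨y, hyY⟩) (b := ⟨e, heY⟩) hyS heS ho
      have h3 : p.pi N ⟨e, heY⟩ = (p.pi N ⟨y, hyY⟩)⁻¹ := by
        rw [map_mul] at h2; exact eq_inv_of_mul_eq_one_right h2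
      rw [h3]; group
    have h3 : orderOf (p.pi N (⟨y, hyY⟩ * ⟨e, heY⟩)) = 3 := by
      have : Fact (Nat.Prime 3) := ⟨Nat.prime_three⟩
      exact orderOf_eq_prime h1 h2
    rw [← h3]
    exact orderOf_dvd_natCard _

end Path

end Cfsg.Agent.H736.Hole
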